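import Mathlib

set_option autoImplicit false
set_option linter.style.haveILetI false
set_option linter.unusedVariables false
set_option linter.unusedSectionVars false
set_option linter.unusedSimpArgs false

namespace Cfsg.Agent.H26.Suzuki

section Abstract
variable {K W : Type*} [Group K] [Group W]

/-- Hua-type lemma: a symmetric alternating biadditive map on an elementary abelian 2-group with
a regular abelian group of odd order, equivariant, vanishes. -/
theorem hua_core [Finite K] (hodd : Odd (Nat.card K))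
    (hKc : ∀ a b : K, a * b = b * a) (hWc : ∀ a b : W, a * b = b * a)
    (h2 : ∀ v : W, v * v = 1)
    (ρ : K → W → W) (hone : ∀ v, ρ 1 v = v) (hmul : ∀ j k v, ρ (j * k) v = ρ j (ρ k v))
    (hρ : ∀ k u v, ρ k (u * v) = ρ k u * ρ k v)
    (e : W) (he : e ≠ 1) (htr : ∀ v : W, v ≠ 1 → ∃ k, ρ k e = v)
    (hfree : ∀ k, ρ k e = e → k = 1)
    (h : W → W → W) (hL : ∀ s s' t, h (s * s') t = h s t * h s' t)
    (hR : ∀ s t t', h s (t * t') = h s t * h s t')
    (hsym : ∀ s t, h s t = h t s) (halt : ∀ s, h s s = 1)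
    (heq : ∀ k s t, h (ρ k s) (ρ k t) = ρ k (h s t)) :
    ∀ s t, h s t = 1 := by
  have hinv : ∀ k v, ρ k⁻¹ (ρ k v) = v := by
    intro k v; rw [← hmul, inv_mul_cancel, hone]
  have hinv' : ∀ k v, ρ k (ρ k⁻¹ v) = v := by
    intro k v; rw [← hmul, mul_inv_cancel, hone]
  have hρ1 : ∀ k, ρ k 1 = 1 := by
    intro k
    have := hρ k 1 1
    rw [mul_one] at this
    exact (mul_eq_left.mp this.symm)
  have hR1 : ∀ s, h s 1 = 1 := by
    intro s
    have := hR s 1 1
    rw [mul_one] at this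
    exact (mul_eq_left.mp this.symm)
  have hL1 : ∀ s, h 1 s = 1 := by
    intro s
    have := hL 1 1 s
    rw [mul_one] at this
    exact (mul_eq_left.mp this.symm)
  have star : ∀ k, h e (ρ k⁻¹ e) = ρ k⁻¹ (h e (ρ k e)) := by
    intro k
    have h1 : h e (ρ k e) = ρ k (h e (ρ k⁻¹ e)) := by
      calc h e (ρ k e) = h (ρ k e) e := hsym _ _
        _ = h (ρ k e) (ρ k (ρ k⁻¹ e)) := by rw [hinv']
        _ = ρ k (h e (ρ k⁻¹ e)) := heq _ _ _
    rw [h1, hinv]
  have key : ∀ k, h e (ρ (k * k) e) = 1 := by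
    intro k
    by_cases hk : k = 1
    · subst hk
      rw [mul_one, hone, halt]
    set s := ρ k e with hs
    have hse : s ≠ e := fun H => hk (hfree k H)
    have hs1 : s * e ≠ 1 := by
      intro H
      apply hse
      have h3 : s * e = e * e := by rw [H, h2]
      exact mul_right_cancel h3
    obtain ⟨l, hl⟩ := htr _ hs1
    have hsum : ∀ v, ρ k v * ρ l v = v := by
      intro v
      by_cases hv : v = 1
      · subst hv; rw [hρ1, hρ1, mul_one]
      obtain ⟨j, rfl⟩ := htr v hv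
      have h3 : ρ k (ρ j e) = ρ j (ρ k e) := by rw [← hmul, ← hmul, hKc]
      have h4 : ρ l (ρ j e) = ρ j (ρ l e) := by rw [← hmul, ← hmul, hKc]
      rw [h3, h4, ← hρ, hl, ← hs, ← mul_assoc, h2, one_mul]
    have hsum' : ∀ v, ρ l⁻¹ v * ρ k⁻¹ v = ρ (k * l)⁻¹ v := by
      intro v
      have h3 := hsum (ρ (k * l)⁻¹ v)
      rw [← hmul, ← hmul] at h3
      have h4 : k * (k * l)⁻¹ = l⁻¹ := by
        rw [hKc k l]; group
      have h5 : l * (k * l)⁻¹ = k⁻¹ := by group
      rw [h4, h5] at h3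
      exact h3
    have h1 : ρ (k * l)⁻¹ (h e (ρ (k * l) e)) = ρ (k * l)⁻¹ (h e s) := by
      rw [← star (k * l), ← hsum' e, hR, star l, star k, hl, hR, halt, mul_one, ← hs, hsum']
    have h2' : h e (ρ (k * l) e) = h e s := by
      have h3 := congrArg (ρ (k * l)) h1
      rwa [hinv', hinv'] at h3
    have h3 : ρ (k * l) e = ρ (k * k) e * s := by
      rw [hmul, hl, hρ, ← hmul, hs]
    rw [h3, hR] at h2'
    exact mul_eq_right.mp h2'
  have hall : ∀ t, h e t = 1 := by
    intro t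
    by_cases ht : t = 1
    · rw [ht, hR1]
    obtain ⟨j, rfl⟩ := htr t ht
    have hcop : (Nat.card K).Coprime 2 := Nat.coprime_two_right.mpr hodd
    obtain ⟨k, hk⟩ := (powCoprime hcop).surjective j
    have hk' : k * k = j := by
      have := hk
      simpa [powCoprime_apply, sq] using this
    rw [← hk']
    exact key k
  intro s t
  by_cases hs : s = 1
  · rw [hs, hL1]
  obtain ⟨k, rfl⟩ := htr s hs
  calc h (ρ k e) t = h (ρ k e) (ρ k (ρ k⁻¹ t)) := by rw [hinv']
    _ = ρ k (h e (ρ k⁻¹ t)) := heq _ _ _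
    _ = 1 := by rw [hall, hρ1]

/-- A commuting family of idempotents permuted by a regular group is trivial. -/
theorem idem_core [Finite K] (hWc : ∀ a b : W, a * b = b * a) (h2 : ∀ v : W, v * v = 1)
    (ρ : K → W → W) (hone : ∀ v, ρ 1 v = v) (hmul : ∀ j k v, ρ (j * k) v = ρ j (ρ k v))
    (hρ : ∀ k u v, ρ k (u * v) = ρ k u * ρ k v)
    (htr : ∀ u v : W, u ≠ 1 → v ≠ 1 → ∃ k, ρ k u = v)
    (E : K → W → W) (hE : ∀ k u v, E k (u * v) = E k u * E k v)
    (hid : ∀ k v, E k (E k v) = E k v)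
    (hcomm : ∀ j k v, E j (E k v) = E k (E j v))
    (hconj : ∀ j k v, E (j * k) (ρ j v) = ρ j (E k v))
    (hne : ∃ v : W, v ≠ 1) :
    (∀ v, E 1 v = 1) ∨ (∀ v, E 1 v = v) := by
  classical
  haveI := Fintype.ofFinite K
  have hρ1 : ∀ k, ρ k 1 = 1 := by
    intro k
    have := hρ k 1 1
    rw [mul_one] at this
    exact (mul_eq_left.mp this.symm)
  have hE1 : ∀ k, E k 1 = 1 := by
    intro k
    have := hE k 1 1
    rw [mul_one] at this
    exact (mul_eq_left.mp this.symm)
  have key : ∀ S : Finset K, ∃ u : W, u ≠ 1 ∧ ∀ k ∈ S, E k u = 1 ∨ E k u = u := by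
    intro S
    induction S using Finset.induction_on with
    | empty =>
      obtain ⟨v, hv⟩ := hne
      exact ⟨v, hv, by simp⟩
    | insert a S ha ih =>
      obtain ⟨u, hu, hS⟩ := ih
      by_cases h0 : E a u = 1
      · refine ⟨u, hu, ?_⟩
        intro k hk
        rcases Finset.mem_insert.mp hk with rfl | hk
        · exact Or.inl h0
        · exact hS k hk
      · refine ⟨E a u, h0, ?_⟩
        intro k hk
        rcases Finset.mem_insert.mp hk with rfl | hk
        · exact Or.inr (hid _ _)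
        · rw [hcomm]
          rcases hS k hk with h3 | h3
          · left; rw [h3, hE1]
          · right; rw [h3]
  obtain ⟨u, hu, hS⟩ := key Finset.univ
  have heig : ∀ v, v ≠ 1 → ∀ k, E k v = 1 ∨ E k v = v := by
    intro v hv k
    obtain ⟨j, rfl⟩ := htr u v hu hv
    have h3 : E k (ρ j u) = ρ j (E (j⁻¹ * k) u) := by
      rw [← hconj, mul_inv_cancel_left]
    rw [h3]
    rcases hS (j⁻¹ * k) (Finset.mem_univ _) with h4 | h4
    · left; rw [h4, hρ1]
    · right; rw [h4]
  by_contra hcon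
  push Not at hcon
  obtain ⟨⟨v, hv⟩, ⟨w, hw⟩⟩ := hcon
  have hv1 : v ≠ 1 := by
    rintro rfl
    exact hv (hE1 1)
  have hw1 : w ≠ 1 := by
    rintro rfl
    exact hw (hE1 1)
  have hEv : E 1 v = v := (heig v hv1 1).resolve_left hv
  have hEw : E 1 w = 1 := (heig w hw1 1).resolve_right hw
  have hvw : v * w ≠ 1 := by
    intro H
    have h3 : v = w := by
      have : v * w = w * w := by rw [H, h2]
      exact mul_right_cancel this
    rw [h3, hEw] at hEv
    exact hw1 hEv.symm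
  rcases heig (v * w) hvw 1 with h3 | h3
  · rw [hE, hEv, hEw, mul_one] at h3
    exact hv1 h3
  · rw [hE, hEv, hEw, mul_one] at h3
    have : w = 1 := by
      have h4 : v * 1 = v * w := by rw [mul_one]; exact h3
      exact (mul_left_cancel h4).symm
    exact hw1 this

end Abstract


section Group
variable {P : Type*} [Group P]

/-- Commutator notation. -/
def dl (x a : P) : P := x * a * x⁻¹ * a⁻¹

theorem dl_mul_left (x y a : P) : dl (x * y) a = (x * dl y a * x⁻¹) * dl x a := by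
  simp only [dl]; group

theorem conj_dl (x y a : P) : x * dl y a * x⁻¹ = dl x (dl y a) * dl y a := by
  simp only [dl]; group

theorem dl_symm (x y : P) : dl x y = (dl y x)⁻¹ := by simp only [dl]; group

theorem dl_self_sq (x : P) : dl x (x * x) = 1 := by simp only [dl]; group

theorem dl_self (x : P) : dl x x = 1 := by simp only [dl]; group

theorem dl_one (x : P) : dl x 1 = 1 := by simp only [dl]; group

theorem dl_eq_one {x a : P} (h : x * a = a * x) : dl x a = 1 := by
  simp only [dl]; rw [h]; group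

theorem comm_of_dl {x a : P} (h : dl x a = 1) : x * a = a * x := by
  simp only [dl] at h
  have h1 : x * a * x⁻¹ = a := by
    have := congrArg (· * a) h
    simpa using this
  calc x * a = x * a * x⁻¹ * x := by group
    _ = a * x := by rw [h1]

theorem map_dl (f : MulAut P) (x a : P) : f (dl x a) = dl (f x) (f a) := by
  simp [dl, map_mul, map_inv]

theorem pow2succ (a : P) (n : ℕ) : a ^ (2 ^ (n + 1)) = (a * a) ^ (2 ^ n) := by
  rw [pow_succ', pow_mul, sq]

theorem dl_mem {M : Subgroup P} (hMn : M.Normal) (x : P) {a : P} (ha : a ∈ M) : dl x a ∈ M :=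
  M.mul_mem (hMn.conj_mem a ha x) (M.inv_mem ha)

theorem dl_mul {M : Subgroup P} (hMn : M.Normal) (hMc : ∀ a ∈ M, ∀ b ∈ M, a * b = b * a)
    (x : P) {a b : P} (ha : a ∈ M) (hb : b ∈ M) : dl x (a * b) = dl x a * dl x b := by
  have h := hMc _ (M.inv_mem ha) _ (dl_mem hMn x hb)
  calc dl x (a * b) = (x * a * x⁻¹) * (dl x b * a⁻¹) := by simp only [dl]; group
    _ = (x * a * x⁻¹) * (a⁻¹ * dl x b) := by rw [h]
    _ = dl x a * dl x b := by simp only [dl]; group

theorem dl_pow {M : Subgroup P} (hMn : M.Normal) (hMc : ∀ a ∈ M, ∀ b ∈ M, a * b = b * a)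
    (x : P) {a : P} (ha : a ∈ M) (n : ℕ) : dl x (a ^ n) = dl x a ^ n := by
  induction n with
  | zero => simp [dl_one]
  | succ n ih =>
    rw [pow_succ, dl_mul hMn hMc x (M.pow_mem ha n) ha, ih, pow_succ]

theorem pow4 (a : P) : a ^ 4 = a * a * (a * a) := by
  rw [show (4 : ℕ) = 2 + 2 from rfl, pow_add, sq]

/-- The data: a group with an abelian group `K` of automorphisms, regular on the involutions. -/
structure Ctx (P : Type*) [Group P] where
  K : Subgroup (MulAut P)
  Om : Subgroup P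
  hOm : ∀ x, x ∈ Om ↔ x * x = 1
  hOmZ : ∀ x ∈ Om, ∀ y, x * y = y * x
  hKc : ∀ a b : K, a * b = b * a
  hodd : Odd (Nat.card K)
  htr : ∀ u ∈ Om, ∀ v ∈ Om, u ≠ 1 → v ≠ 1 → ∃ k : K, (k : MulAut P) u = v
  hfree : ∀ k : K, ∀ x : P, x ≠ 1 → (k : MulAut P) x = x → k = 1
  e : P
  he : e ∈ Om
  he1 : e ≠ 1
  θ : K
  hθ : ∀ k : K, ∃ i : ℕ, k = θ ^ i
  hθ1 : θ ≠ 1

variable [Finite P]

theorem Ctx.Om_K (C : Ctx P) (k : C.K) {s : P} (hs : s ∈ C.Om) : (k : MulAut P) s ∈ C.Om := by
  rw [C.hOm] at hs ⊢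
  rw [← map_mul, hs, map_one]

/-- Hua's lemma for a map given on a subgroup `T` mapping onto `Om`. -/
theorem hua_P (C : Ctx P) (T : Subgroup P) (hTK : ∀ k : C.K, ∀ x ∈ T, (k : MulAut P) x ∈ T)
    (π : P → P) (hπOm : ∀ x ∈ T, π x ∈ C.Om)
    (hπmul : ∀ x ∈ T, ∀ y ∈ T, π (x * y) = π x * π y)
    (hπsurj : ∀ s ∈ C.Om, ∃ x ∈ T, π x = s)
    (hπK : ∀ k : C.K, ∀ x ∈ T, π ((k : MulAut P) x) = (k : MulAut P) (π x))
    (H : P → P → P) (hHOm : ∀ x ∈ T, ∀ y ∈ T, H x y ∈ C.Om)
    (hHL : ∀ x ∈ T, ∀ x' ∈ T, ∀ y ∈ T, H (x * x') y = H x y * H x' y)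
    (hHR : ∀ x ∈ T, ∀ y ∈ T, ∀ y' ∈ T, H x (y * y') = H x y * H x y')
    (hH0L : ∀ x ∈ T, ∀ y ∈ T, π x = 1 → H x y = 1)
    (hH0R : ∀ x ∈ T, ∀ y ∈ T, π y = 1 → H x y = 1)
    (hHsym : ∀ x ∈ T, ∀ y ∈ T, H x y = H y x) (hHalt : ∀ x ∈ T, H x x = 1)
    (hHK : ∀ k : C.K, ∀ x ∈ T, ∀ y ∈ T,
      H ((k : MulAut P) x) ((k : MulAut P) y) = (k : MulAut P) (H x y)) :
    ∀ x ∈ T, ∀ y ∈ T, H x y = 1 := by
  classical
  have hsec := fun s : C.Om => hπsurj s s.2
  choose sec hsecT hsec using hsec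
  have hπ1 : π 1 = 1 := by
    have := hπmul 1 T.one_mem 1 T.one_mem
    rw [mul_one] at this
    exact mul_eq_left.mp this.symm
  have hπinv : ∀ x ∈ T, π x⁻¹ = (π x)⁻¹ := by
    intro x hx
    have := hπmul x hx x⁻¹ (T.inv_mem hx)
    rw [mul_inv_cancel, hπ1] at this
    exact (inv_eq_of_mul_eq_one_right this.symm).symm
  have congL : ∀ x ∈ T, ∀ x' ∈ T, ∀ y ∈ T, π x = π x' → H x y = H x' y := by
    intro x hx x' hx' y hy hπ
    have h1 : x' = x * (x⁻¹ * x') := by group
    have h2 : π (x⁻¹ * x') = 1 := by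
      rw [hπmul _ (T.inv_mem hx) _ hx', hπinv _ hx, hπ, inv_mul_cancel]
    rw [h1, hHL _ hx _ (T.mul_mem (T.inv_mem hx) hx') _ hy,
      hH0L _ (T.mul_mem (T.inv_mem hx) hx') _ hy h2, mul_one]
  have congR : ∀ x ∈ T, ∀ y ∈ T, ∀ y' ∈ T, π y = π y' → H x y = H x y' := by
    intro x hx y hy y' hy' hπ
    have h1 : y' = y * (y⁻¹ * y') := by group
    have h2 : π (y⁻¹ * y') = 1 := by
      rw [hπmul _ (T.inv_mem hy) _ hy', hπinv _ hy, hπ, inv_mul_cancel]
    rw [h1, hHR _ hx _ hy _ (T.mul_mem (T.inv_mem hy) hy'),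
      hH0R _ hx _ (T.mul_mem (T.inv_mem hy) hy') h2, mul_one]
  have hKfin : Finite C.K := inferInstance
  let ρ : C.K → C.Om → C.Om := fun k s => ⟨(k : MulAut P) s, C.Om_K k s.2⟩
  let h : C.Om → C.Om → C.Om := fun s t =>
    ⟨H (sec s) (sec t), hHOm _ (hsecT s) _ (hsecT t)⟩
  have hWc : ∀ a b : C.Om, a * b = b * a := fun a b =>
    Subtype.ext (C.hOmZ _ a.2 _)
  have hmain := hua_core (K := C.K) (W := C.Om) C.hodd C.hKc hWc
    (fun v => Subtype.ext ((C.hOm _).1 v.2)) ρ
    (fun v => Subtype.ext (by simp [ρ]))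
    (fun j k v => Subtype.ext (by simp [ρ]))
    (fun k u v => Subtype.ext (by simp [ρ]))
    ⟨C.e, C.he⟩ (by
      intro H1
      exact C.he1 (congrArg Subtype.val H1))
    (by
      intro v hv
      have hv' : (v : P) ≠ 1 := fun H1 => hv (Subtype.ext H1)
      obtain ⟨k, hk⟩ := C.htr _ C.he _ v.2 C.he1 hv'
      exact ⟨k, Subtype.ext hk⟩)
    (by
      intro k hk
      exact C.hfree k _ C.he1 (congrArg Subtype.val hk))
    h
    (by
      intro s s' t
      apply Subtype.ext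
      show H (sec (s * s')) (sec t) = H (sec s) (sec t) * H (sec s') (sec t)
      rw [← hHL _ (hsecT s) _ (hsecT s') _ (hsecT t)]
      apply congL _ (hsecT _) _ (T.mul_mem (hsecT s) (hsecT s')) _ (hsecT t)
      rw [hπmul _ (hsecT s) _ (hsecT s'), hsec, hsec, hsec]
      rfl)
    (by
      intro s t t'
      apply Subtype.ext
      show H (sec s) (sec (t * t')) = H (sec s) (sec t) * H (sec s) (sec t')
      rw [← hHR _ (hsecT s) _ (hsecT t) _ (hsecT t')]
      apply congR _ (hsecT s) _ (hsecT _) _ (T.mul_mem (hsecT t) (hsecT t'))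
      rw [hπmul _ (hsecT t) _ (hsecT t'), hsec, hsec, hsec]
      rfl)
    (by
      intro s t
      apply Subtype.ext
      exact hHsym _ (hsecT s) _ (hsecT t))
    (by
      intro s
      apply Subtype.ext
      exact hHalt _ (hsecT s))
    (by
      intro k s t
      apply Subtype.ext
      show H (sec (ρ k s)) (sec (ρ k t)) = (k : MulAut P) (H (sec s) (sec t))
      rw [← hHK k _ (hsecT s) _ (hsecT t)]
      have h1 : H (sec (ρ k s)) (sec (ρ k t)) = H ((k : MulAut P) (sec s)) (sec (ρ k t)) := by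
        apply congL _ (hsecT _) _ (hTK k _ (hsecT s)) _ (hsecT _)
        rw [hπK k _ (hsecT s), hsec, hsec]
      rw [h1]
      apply congR _ (hTK k _ (hsecT s)) _ (hsecT _) _ (hTK k _ (hsecT t))
      rw [hπK k _ (hsecT t), hsec, hsec])
  intro x hx y hy
  have h1 := congrArg Subtype.val (hmain ⟨π x, hπOm x hx⟩ ⟨π y, hπOm y hy⟩)
  have h2 : H (sec ⟨π x, hπOm x hx⟩) (sec ⟨π y, hπOm y hy⟩) = 1 := h1
  have h3 : H x y = H (sec ⟨π x, hπOm x hx⟩) y :=
    congL _ hx _ (hsecT _) _ hy (hsec ⟨π x, hπOm x hx⟩).symm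
  have h4 : H (sec ⟨π x, hπOm x hx⟩) y = H (sec ⟨π x, hπOm x hx⟩) (sec ⟨π y, hπOm y hy⟩) :=
    congR _ (hsecT _) _ hy _ (hsecT _) (hsec ⟨π y, hπOm y hy⟩).symm
  rw [h3, h4, h2]


/-- Local data: a maximal abelian normal invariant subgroup `M` and the layer `T` above it. -/
structure LCtx (P : Type*) [Group P] extends Ctx P where
  M : Subgroup P
  T : Subgroup P
  hMn : M.Normal
  hMc : ∀ a ∈ M, ∀ b ∈ M, a * b = b * a
  hMK : ∀ k : K, ∀ a ∈ M, (k : MulAut P) a ∈ M
  hOmM : Om ≤ M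
  g : ℕ
  hM1 : ∀ a ∈ M, a ^ (2 ^ (g + 2)) = 1
  hM2 : ∀ s ∈ Om, ∃ a ∈ M, a ^ (2 ^ (g + 1)) = s
  hM3 : ∀ a ∈ M, a ^ (2 ^ (g + 1)) = 1 → ∃ b ∈ M, a = b * b
  hMT : M ≤ T
  hT1 : ∀ x ∈ T, x * x ∈ M
  hT2 : ∀ x ∈ T, ∀ y, dl x y ∈ M
  hTK : ∀ k : K, ∀ x ∈ T, (k : MulAut P) x ∈ T

namespace LCtx
variable (C : LCtx P)

theorem comm_M {a b : P} (ha : a ∈ C.M) (hb : b ∈ C.M) : Commute a b := C.hMc a ha b hb

theorem psi_mem {a : P} (ha : a ∈ C.M) : a ^ (2 ^ (C.g + 1)) ∈ C.Om := by
  rw [C.hOm, ← pow_add, ← two_mul, ← pow_succ']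
  exact C.hM1 a ha

theorem central_Om {s : P} (hs : s ∈ C.Om) (y : P) : dl y s = 1 :=
  dl_eq_one (C.hOmZ s hs y).symm

theorem mul_pow_M {a b : P} (ha : a ∈ C.M) (hb : b ∈ C.M) (n : ℕ) :
    (a * b) ^ n = a ^ n * b ^ n := (C.comm_M ha hb).mul_pow n

theorem dl_psi (x : P) {a : P} (ha : a ∈ C.M) : dl x a ^ (2 ^ (C.g + 1)) = 1 := by
  rw [← dl_pow C.hMn C.hMc x ha, C.central_Om (C.psi_mem ha)]

theorem dl_trivial {t a : P} (ht : t ∈ C.M) (ha : a ∈ C.M) : dl t a = 1 :=
  dl_eq_one (C.hMc t ht a ha)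

/-- (x acts as an involution on M) -/
theorem dl_dl {x a : P} (hx : x ∈ C.T) (ha : a ∈ C.M) :
    dl x (dl x a) * (dl x a * dl x a) = 1 := by
  have hc : dl x a ∈ C.M := dl_mem C.hMn x ha
  have h1 : x * a * x⁻¹ = dl x a * a := by simp only [dl]; group
  have h2 : x * dl x a * x⁻¹ = dl x (dl x a) * dl x a := conj_dl x x a
  have hxx : (x * x) * a = a * (x * x) := C.hMc _ (C.hT1 x hx) _ ha
  have h3 : x * (x * a * x⁻¹) * x⁻¹ = a := by
    calc x * (x * a * x⁻¹) * x⁻¹ = (x * x) * a * (x * x)⁻¹ := by group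
      _ = a * (x * x) * (x * x)⁻¹ := by rw [hxx]
      _ = a := by group
  have h4 : (x * dl x a * x⁻¹) * (x * a * x⁻¹) = a := by
    calc (x * dl x a * x⁻¹) * (x * a * x⁻¹) = x * (dl x a * a) * x⁻¹ := by group
      _ = x * (x * a * x⁻¹) * x⁻¹ := by rw [h1]
      _ = a := h3
  rw [h2, h1] at h4
  have h5 : dl x (dl x a) * (dl x a * dl x a) * a = a := by
    rw [← mul_assoc, mul_assoc _ (dl x a) a] at *
    exact h4
  exact mul_eq_right.mp h5


/-- Claim A: for `g ≥ 1`, `[M, T]` consists of involutions. -/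
theorem claimA (g' : ℕ) (hg : C.g = g' + 1) {x : P} (hx : x ∈ C.T) {a : P} (ha : a ∈ C.M) :
    dl x a * dl x a = 1 := by
  classical
  have hM1 : ∀ a ∈ C.M, a ^ (2 ^ (g' + 3)) = 1 := by
    have := C.hM1; rwa [hg] at this
  have hM3 : ∀ a ∈ C.M, a ^ (2 ^ (g' + 2)) = 1 → ∃ b ∈ C.M, a = b * b := by
    have := C.hM3; rwa [hg] at this
  have hM2 : ∀ s ∈ C.Om, ∃ a ∈ C.M, a ^ (2 ^ (g' + 2)) = s := by
    have := C.hM2; rwa [hg] at this
  have hpsi : ∀ a ∈ C.M, a ^ (2 ^ (g' + 2)) ∈ C.Om := by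
    have := fun a (ha : a ∈ C.M) => C.psi_mem ha
    rwa [hg] at this
  have hdlpsi : ∀ (y : P) a, a ∈ C.M → dl y a ^ (2 ^ (g' + 2)) = 1 := by
    intro y a ha
    have := C.dl_psi y ha
    rwa [hg] at this
  -- the map `E`
  let E : P → P → P := fun y a => dl y a ^ (2 ^ (g' + 1))
  have hEOm : ∀ y, ∀ a ∈ C.M, E y a ∈ C.Om := by
    intro y a ha
    rw [C.hOm]
    show dl y a ^ (2 ^ (g' + 1)) * dl y a ^ (2 ^ (g' + 1)) = 1
    rw [← pow_add, ← two_mul, ← pow_succ']
    exact hdlpsi y a ha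
  have hEmul : ∀ y, ∀ a ∈ C.M, ∀ b ∈ C.M, E y (a * b) = E y a * E y b := by
    intro y a ha b hb
    show dl y (a * b) ^ _ = dl y a ^ _ * dl y b ^ _
    rw [dl_mul C.hMn C.hMc y ha hb,
      C.mul_pow_M (dl_mem C.hMn y ha) (dl_mem C.hMn y hb)]
  have hEsq : ∀ y, ∀ b ∈ C.M, E y (b * b) = 1 := by
    intro y b hb
    show dl y (b * b) ^ _ = 1
    rw [dl_mul C.hMn C.hMc y hb hb, ← pow2succ]
    exact hdlpsi y b hb
  -- sections
  have hsec := fun s : C.Om => hM2 s s.2
  choose sec hsecM hsec using hsec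
  let ψ : P → P := fun a => a ^ (2 ^ (g' + 2))
  have hψmul : ∀ a ∈ C.M, ∀ b ∈ C.M, ψ (a * b) = ψ a * ψ b := by
    intro a ha b hb
    exact C.mul_pow_M ha hb _
  let e : P → C.Om → C.Om := fun y s => ⟨E y (sec s), hEOm y _ (hsecM s)⟩
  have hespec : ∀ y, ∀ a (ha : a ∈ C.M), (e y ⟨ψ a, hpsi a ha⟩ : P) = E y a := by
    intro y a ha
    show E y (sec ⟨ψ a, hpsi a ha⟩) = E y a
    set a₀ := sec ⟨ψ a, hpsi a ha⟩ with ha₀
    have ha₀M : a₀ ∈ C.M := hsecM _
    have h1 : ψ a₀ = ψ a := hsec ⟨ψ a, hpsi a ha⟩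
    have h2 : a * a₀⁻¹ ∈ C.M := C.M.mul_mem ha (C.M.inv_mem ha₀M)
    have h3 : (a * a₀⁻¹) ^ (2 ^ (g' + 2)) = 1 := by
      rw [C.mul_pow_M ha (C.M.inv_mem ha₀M), inv_pow]
      show ψ a * (ψ a₀)⁻¹ = 1
      rw [h1, mul_inv_cancel]
    obtain ⟨b, hb, hab⟩ := hM3 _ h2 h3
    have h4 : a = (b * b) * a₀ := by
      rw [← hab]; group
    rw [h4, hEmul y _ (C.M.mul_mem hb hb) _ ha₀M, hEsq y b hb, one_mul]
  have hsec' : ∀ s : C.Om, (⟨ψ (sec s), hpsi _ (hsecM s)⟩ : C.Om) = s := by
    intro s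
    exact Subtype.ext (hsec s)
  have hespec' : ∀ (y : P) (s : C.Om) (a : P) (ha : a ∈ C.M), ψ a = (s : P) → (e y s : P) = E y a := by
    intro y s a ha h
    have : s = ⟨ψ a, hpsi a ha⟩ := Subtype.ext h.symm
    rw [this]
    exact hespec y a ha
  have hemul : ∀ y s t, e y (s * t) = e y s * e y t := by
    intro y s t
    apply Subtype.ext
    have h1 : (e y (s * t) : P) = E y (sec s * sec t) := by
      apply hespec' y _ _ (C.M.mul_mem (hsecM s) (hsecM t))
      rw [hψmul _ (hsecM s) _ (hsecM t)]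
      show _ = (s : P) * (t : P)
      rw [show ψ (sec s) = s from hsec s, show ψ (sec t) = t from hsec t]
    rw [h1, hEmul y _ (hsecM s) _ (hsecM t)]
    rfl
  -- idempotent
  have heidem : ∀ y ∈ C.T, ∀ s, e y (e y s) = e y s := by
    intro y hy s
    apply Subtype.ext
    set a := sec s with ha_def
    have ha : a ∈ C.M := hsecM s
    set c := dl y a with hc_def
    have hcM : c ∈ C.M := dl_mem C.hMn y ha
    obtain ⟨b, hb, hcb⟩ := hM3 c hcM (hdlpsi y a ha)
    have h1 := C.dl_dl hy ha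
    rw [← hc_def] at h1
    have hEa : (e y s : P) = c ^ (2 ^ (g' + 1)) := rfl
    have hψb : ψ b = (e y s : P) := by
      rw [hEa, hcb]
      show b ^ (2 ^ (g' + 2)) = _
      exact pow2succ b _
    have h2 : (e y (e y s) : P) = E y b := hespec' y _ b hb hψb
    rw [h2, hEa]
    have h3 : E y b = ((dl y c)) ^ (2 ^ g') := by
      show dl y b ^ (2 ^ (g' + 1)) = _
      rw [pow2succ, hcb, dl_mul C.hMn C.hMc y hb hb]
    have h4 : dl y c = (c * c)⁻¹ := eq_inv_of_mul_eq_one_left h1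
    rw [h3, h4, inv_pow, ← pow2succ]
    have h5 : c ^ (2 ^ (g' + 1)) * c ^ (2 ^ (g' + 1)) = 1 :=
      (C.hOm _).1 (hEOm y a ha)
    exact inv_eq_of_mul_eq_one_left h5
  -- additivity in the first argument
  have headd : ∀ y y' s, e (y * y') s = e y s * e y' s := by
    intro y y' s
    apply Subtype.ext
    set a := sec s with ha_def
    have ha : a ∈ C.M := hsecM s
    show dl (y * y') a ^ (2 ^ (g' + 1)) = dl y a ^ (2 ^ (g' + 1)) * dl y' a ^ (2 ^ (g' + 1))
    have hc' : dl y' a ∈ C.M := dl_mem C.hMn y' ha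
    have hc1 : y * dl y' a * y⁻¹ ∈ C.M := C.hMn.conj_mem _ hc' y
    rw [dl_mul_left, C.mul_pow_M hc1 (dl_mem C.hMn y ha), conj_pow]
    have h1 : dl y' a ^ (2 ^ (g' + 1)) ∈ C.Om := hEOm y' a ha
    have h2 : y * dl y' a ^ (2 ^ (g' + 1)) * y⁻¹ = dl y' a ^ (2 ^ (g' + 1)) := by
      rw [C.hOmZ _ h1 y |>.symm]; group
    rw [h2]
    exact (C.hOmZ _ h1 _)
  -- equivariance
  let ρ : C.K → C.Om → C.Om := fun k s => ⟨(k : MulAut P) s, C.toCtx.Om_K k s.2⟩
  have heK : ∀ (k : C.K) y s, e ((k : MulAut P) y) (ρ k s) = ρ k (e y s) := by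
    intro k y s
    apply Subtype.ext
    set a := sec s with ha_def
    have ha : a ∈ C.M := hsecM s
    have h1 : (e ((k : MulAut P) y) (ρ k s) : P) = E ((k : MulAut P) y) ((k : MulAut P) a) := by
      apply hespec' _ _ _ (C.hMK k a ha)
      show ((k : MulAut P) a) ^ (2 ^ (g' + 2)) = (k : MulAut P) (s : P)
      rw [← map_pow]
      congr 1
      exact hsec s
    rw [h1]
    show dl _ _ ^ _ = (k : MulAut P) (dl y a ^ _)
    rw [map_pow, map_dl]
  -- commuting
  have h2w : ∀ v : C.Om, v * v = 1 := fun v => Subtype.ext ((C.hOm _).1 v.2)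
  have hWc : ∀ a b : C.Om, a * b = b * a := fun a b => Subtype.ext (C.hOmZ _ a.2 _)
  have hecomm : ∀ y ∈ C.T, ∀ y' ∈ C.T, ∀ s, e y (e y' s) = e y' (e y s) := by
    intro y hy y' hy' s
    have h1 := heidem (y * y') (C.T.mul_mem hy hy') s
    rw [headd y y' (e (y * y') s), headd y y' s, hemul, hemul, heidem y hy, heidem y' hy'] at h1
    have h3 : e y s * (e y (e y' s) * e y' (e y s)) * e y' s = e y s * e y' s := by
      rw [← h1]; simp only [mul_assoc]
    have h4 : e y (e y' s) * e y' (e y s) = 1 :=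
      mul_eq_left.mp (mul_right_cancel h3)
    exact mul_right_cancel (h4.trans (h2w _).symm)
  have hEtriv : ∀ a ∈ C.M, E x a = 1 := by
    have hcases := idem_core (K := C.K) (W := C.Om) hWc h2w ρ
      (fun v => Subtype.ext (by simp [ρ]))
      (fun j k v => Subtype.ext (by simp [ρ]))
      (fun k u v => Subtype.ext (by simp [ρ]))
      (by
        intro u v hu hv
        have hu' : (u : P) ≠ 1 := fun H1 => hu (Subtype.ext H1)
        have hv' : (v : P) ≠ 1 := fun H1 => hv (Subtype.ext H1)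
        obtain ⟨k, hk⟩ := C.htr _ u.2 _ v.2 hu' hv'
        exact ⟨k, Subtype.ext hk⟩)
      (fun k => e ((k : MulAut P) x))
      (fun k u v => hemul _ u v)
      (fun k v => heidem _ (C.hTK k x hx) v)
      (fun j k v => hecomm _ (C.hTK j x hx) _ (C.hTK k x hx) v)
      (fun j k v => heK j ((k : MulAut P) x) v)
      ⟨⟨C.e, C.he⟩, fun H1 => C.he1 (congrArg Subtype.val H1)⟩
    have hx1 : ((1 : C.K) : MulAut P) x = x := rfl
    simp only [hx1] at hcases
    rcases hcases with h1 | h1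
    · intro a ha
      have h2 := hespec x a ha
      rw [h1] at h2
      exact h2.symm
    · exfalso
      have hall : ∀ (k : C.K) v, e ((k : MulAut P) x) v = v := by
        intro k v
        have h3 : v = ρ k (ρ k⁻¹ v) := by
          apply Subtype.ext
          simp [ρ]
        rw [h3, heK, h1]
      let t : ℕ → P := fun n => Nat.rec (1 : P)
        (fun n r => r * ((C.θ ^ n : C.K) : MulAut P) x) n
      have ht0 : t 0 = 1 := rfl
      have hts : ∀ n, t (n + 1) = t n * ((C.θ ^ n : C.K) : MulAut P) x := fun n => rfl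
      have htT : ∀ n, t n ∈ C.T := by
        intro n
        induction n with
        | zero => rw [ht0]; exact C.T.one_mem
        | succ n ih =>
          rw [hts]
          exact C.T.mul_mem ih (C.hTK _ x hx)
      have het : ∀ n v, e (t n) v = v ^ n := by
        intro n v
        induction n with
        | zero =>
          rw [ht0, pow_zero]
          apply Subtype.ext
          show dl 1 (sec v) ^ _ = 1
          rw [dl_eq_one (by simp), one_pow]
        | succ n ih =>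
          rw [hts, headd, ih, hall, pow_succ]
      have hθt : ∀ n, (C.θ : MulAut P) (t n) = x⁻¹ * t n * ((C.θ ^ n : C.K) : MulAut P) x := by
        intro n
        induction n with
        | zero =>
          rw [ht0, map_one]
          simp
        | succ n ih =>
          rw [hts, map_mul, ih, pow_succ']
          simp only [Subgroup.coe_mul, MulAut.mul_apply, mul_assoc]
      set m := Nat.card C.K with hm
      have hθm : C.θ ^ m = 1 := pow_card_eq_one'
      have h5 : (C.θ : MulAut P) (t m) = x⁻¹ * t m * x := by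
        rw [hθt, hθm]
        rfl
      have htm : t m ∈ C.M := by
        set τ := t m with hτ
        have hτT : τ ∈ C.T := htT m
        have hu : τ⁻¹ * (C.θ : MulAut P) τ ∈ C.M := by
          have := C.hT2 _ (C.T.inv_mem hτT) x⁻¹
          have h6 : dl τ⁻¹ x⁻¹ = τ⁻¹ * (C.θ : MulAut P) τ := by
            rw [h5]; simp only [dl]; group
          rwa [h6] at this
        let φ : C.M → C.M := fun a =>
          ⟨a * ((C.θ : MulAut P) a)⁻¹, C.M.mul_mem a.2 (C.M.inv_mem (C.hMK _ _ a.2))⟩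
        have hφinj : Function.Injective φ := by
          intro a b hab
          have h6 : (a : P) * ((C.θ : MulAut P) a)⁻¹ = b * ((C.θ : MulAut P) b)⁻¹ :=
            congrArg Subtype.val hab
          have hbM := b.2
          have haM := a.2
          have hθa := C.hMK C.θ a a.2
          have hθb := C.hMK C.θ b b.2
          have h7 : (C.θ : MulAut P) ((b : P)⁻¹ * a) = (b : P)⁻¹ * a := by
            rw [map_mul, map_inv]
            have h9 : (b : P)⁻¹ * a = ((C.θ : MulAut P) b)⁻¹ * (C.θ : MulAut P) a := by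
              calc (b : P)⁻¹ * a = (b : P)⁻¹ * (a * ((C.θ : MulAut P) a)⁻¹) * (C.θ : MulAut P) a := by
                    group
                _ = (b : P)⁻¹ * (b * ((C.θ : MulAut P) b)⁻¹) * (C.θ : MulAut P) a := by rw [h6]
                _ = _ := by group
            rw [h9]
          by_contra hne
          apply C.hθ1
          apply C.hfree C.θ ((b : P)⁻¹ * a) _ h7
          intro h10
          apply hne
          apply Subtype.ext
          have : (b : P) * ((b : P)⁻¹ * a) = b := by rw [h10, mul_one]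
          rw [mul_inv_cancel_left] at this
          exact this
        have hφsurj : Function.Surjective φ := Finite.injective_iff_surjective.mp hφinj
        obtain ⟨a, ha⟩ := hφsurj ⟨_, hu⟩
        have h6 : (a : P) * ((C.θ : MulAut P) a)⁻¹ = τ⁻¹ * (C.θ : MulAut P) τ :=
          congrArg Subtype.val ha
        have h7 : (C.θ : MulAut P) (τ * a) = τ * a := by
          have h8 : (C.θ : MulAut P) τ = τ * (a * ((C.θ : MulAut P) a)⁻¹) := by
            rw [h6]; group
          rw [map_mul, h8]; group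
        have h8 : τ * a = 1 := by
          by_contra hne
          exact C.hθ1 (C.hfree C.θ _ hne h7)
        have h9 : τ = (a : P)⁻¹ := eq_inv_of_mul_eq_one_left h8
        rw [h9]
        exact C.M.inv_mem a.2
      have hodd : Odd m := C.hodd
      obtain ⟨j, hj⟩ := hodd
      have h6 : ∀ v : C.Om, v = 1 := by
        intro v
        have h7 := het m v
        have h8 : e (t m) v = 1 := by
          apply Subtype.ext
          show dl (t m) (sec v) ^ _ = 1
          rw [C.dl_trivial htm (hsecM v), one_pow]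
        rw [h8, hj, pow_succ, pow_mul, sq, h2w, one_pow, one_mul] at h7
        exact h7.symm
      exact C.he1 (congrArg Subtype.val (h6 ⟨C.e, C.he⟩))
  have hdlinv : ∀ a ∈ C.M, dl x a⁻¹ = (dl x a)⁻¹ := by
    intro a ha
    have h1 := dl_mul C.hMn C.hMc x ha (C.M.inv_mem ha)
    rw [mul_inv_cancel, dl_one] at h1
    exact eq_inv_of_mul_eq_one_right h1.symm
  have hstep : ∀ a ∈ C.M, ∃ a' ∈ C.M, dl x a * dl x a = dl x a' ^ 4 := by
    intro a ha
    set c := dl x a with hc
    have hcM : c ∈ C.M := dl_mem C.hMn x ha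
    obtain ⟨b, hb, hcb⟩ := hM3 c hcM (hdlpsi x a ha)
    have h1 : c ^ (2 ^ (g' + 1)) = 1 := hEtriv a ha
    have h2 : b ^ (2 ^ (g' + 2)) = 1 := by
      rw [pow2succ, ← hcb, h1]
    obtain ⟨b₁, hb₁, hbb⟩ := hM3 b hb h2
    have h3 := C.dl_dl hx ha
    rw [← hc] at h3
    have h4 : c * c = (dl x c)⁻¹ := (eq_inv_of_mul_eq_one_right h3)
    refine ⟨b₁⁻¹, C.M.inv_mem hb₁, ?_⟩
    rw [h4, ← hdlinv c hcM]
    have h5 : c⁻¹ = b₁⁻¹ ^ 4 := by
      rw [hcb, hbb]
      group
    rw [h5, dl_pow C.hMn C.hMc x (C.M.inv_mem hb₁)]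
  have hiter : ∀ n, ∀ a ∈ C.M, ∃ a' ∈ C.M, dl x a * dl x a = dl x a' ^ (2 ^ (n + 1)) := by
    intro n
    induction n with
    | zero =>
      intro a ha
      exact ⟨a, ha, by simp [sq]⟩
    | succ n ih =>
      intro a ha
      obtain ⟨a', ha', h1⟩ := ih a ha
      obtain ⟨a'', ha'', h2⟩ := hstep a' ha'
      refine ⟨a'', ha'', ?_⟩
      rw [h1, pow2succ, h2, ← pow_mul]
      congr 1
      ring
  obtain ⟨a', ha', h1⟩ := hiter (g' + 3) a ha
  rw [h1, pow_succ, pow_mul]
  have h2 := hM1 _ (dl_mem C.hMn x ha')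
  rw [h2, one_pow]


/-- The final step: the layer `T` above `M` is abelian. -/
theorem final_comm
    (hH : ∀ x ∈ C.T, ∀ a ∈ C.M, dl x a * dl x a = 1)
    (hH2 : ∀ x ∈ C.T, ∀ a ∈ C.M, a ^ 4 = 1 → dl x a = 1)
    (hH4 : ∀ x ∈ C.T, ∀ y ∈ C.T, (dl y x) ^ 4 = 1 → (dl y x) ^ (2 ^ (C.g + 1)) = 1)
    {x₀ : P} (hx₀ : x₀ ∈ C.T) (hx₀M : x₀ ∉ C.M) :
    ∀ x ∈ C.T, ∀ y ∈ C.T, x * y = y * x := by
  have hdlOm : ∀ x ∈ C.T, ∀ a ∈ C.M, dl x a ∈ C.Om :=
    fun x hx a ha => (C.hOm _).2 (hH x hx a ha)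
  have hF : ∀ x ∈ C.T, ∀ y ∈ C.T, dl y (x * x) = dl y x * dl y x ∧
      (dl y x * dl y x) ∈ C.Om ∧ ∀ z ∈ C.T, dl z (dl y x) = 1 := by
    intro x hx y hy
    set d := dl y x with hd
    have hdm : d ∈ C.M := C.hT2 y hy x
    have h0 : dl y (x * x) = d * (dl x d * d) := by
      have h1 : x * d * x⁻¹ = dl x d * d := by simp only [dl]; group
      calc dl y (x * x) = d * (x * d * x⁻¹) := by simp only [hd, dl]; group
        _ = d * (dl x d * d) := by rw [h1]
    have h1 : dl y (x * x) ∈ C.Om := hdlOm y hy _ (C.hT1 x hx)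
    have h2 : dl x d ∈ C.Om := hdlOm x hx d hdm
    have h3 : d * d = (dl x d)⁻¹ * dl y (x * x) := by
      rw [h0, ← mul_assoc d, ← C.hOmZ _ h2 d]
      group
    have h4 : d * d ∈ C.Om := by
      rw [h3]
      exact C.Om.mul_mem (C.Om.inv_mem h2) h1
    have h5 : d ^ 4 = 1 := by
      have h6 := (C.hOm _).1 h4
      rw [pow4, h6]
    have h6 : ∀ z ∈ C.T, dl z d = 1 := fun z hz => hH2 z hz d hdm h5
    refine ⟨?_, h4, h6⟩
    rw [h0, h6 x hx, one_mul]
  have hcd : ∀ x ∈ C.T, ∀ y ∈ C.T, ∀ z ∈ C.T, z * dl y x = dl y x * z := by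
    intro x hx y hy z hz
    exact comm_of_dl ((hF x hx y hy).2.2 z hz)
  have hF2 : ∀ x ∈ C.T, ∀ y ∈ C.T, (x * y) * (x * y) = dl y x * ((x * x) * (y * y)) := by
    intro x hx y hy
    have h1 := hcd x hx y hy x hx
    set d := dl y x with hd
    have h2 : y * x = d * x * y := by simp only [hd, dl]; group
    calc (x * y) * (x * y) = x * (y * x) * y := by group
      _ = x * (d * x * y) * y := by rw [h2]
      _ = (x * d) * x * y * y := by group
      _ = (d * x) * x * y * y := by rw [h1]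
      _ = d * ((x * x) * (y * y)) := by group
  let π : P → P := fun x => (x * x) ^ (2 ^ (C.g + 1))
  have hπOm : ∀ x ∈ C.T, π x ∈ C.Om := fun x hx => C.psi_mem (C.hT1 x hx)
  have hπM : ∀ a ∈ C.M, π a = 1 := by
    intro a ha
    show (a * a) ^ _ = 1
    rw [← pow2succ]
    exact C.hM1 a ha
  have hπmul : ∀ x ∈ C.T, ∀ y ∈ C.T, π (x * y) = π x * π y := by
    intro x hx y hy
    show ((x * y) * (x * y)) ^ _ = (x * x) ^ _ * (y * y) ^ _
    have hdm : dl y x ∈ C.M := C.hT2 y hy x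
    have h4 : (dl y x) ^ 4 = 1 := by
      have h6 := (C.hOm _).1 (hF x hx y hy).2.1
      rw [pow4, h6]
    rw [hF2 x hx y hy, C.mul_pow_M hdm (C.M.mul_mem (C.hT1 x hx) (C.hT1 y hy)),
      C.mul_pow_M (C.hT1 x hx) (C.hT1 y hy), hH4 x hx y hy h4, one_mul]
  have hπker : ∀ x ∈ C.T, π x = 1 → x ∈ C.M := by
    intro x hx h1
    obtain ⟨b, hb, hxb⟩ := C.hM3 _ (C.hT1 x hx) h1
    set r := dl x b⁻¹ with hr
    have hbi : b⁻¹ ∈ C.M := C.M.inv_mem hb
    have hrOm : r ∈ C.Om := hdlOm x hx _ hbi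
    have h2 : (x * b⁻¹) * (x * b⁻¹) = r := by
      calc (x * b⁻¹) * (x * b⁻¹) = r * (b⁻¹ * (x * x) * b⁻¹) := by simp only [hr, dl]; group
        _ = r := by rw [hxb]; group
    have hr2 : r ^ (2 ^ (C.g + 1)) = 1 := by
      rw [pow_succ, pow_mul', sq, (C.hOm _).1 hrOm, one_pow]
    obtain ⟨s, hs, hrs⟩ := C.hM3 _ (C.hOmM hrOm) hr2
    have hs4 : s ^ 4 = 1 := by
      rw [pow4, ← hrs]
      exact (C.hOm _).1 hrOm
    have hxs : x * s = s * x := comm_of_dl (hH2 x hx s hs hs4)
    set w := x * b⁻¹ with hw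
    have hws : w * s = s * w := by
      rw [hw, mul_assoc, C.hMc _ hbi _ hs, ← mul_assoc, hxs, mul_assoc]
    have hws' : w * s⁻¹ = s⁻¹ * w := by
      have := (show Commute w s from hws).inv_right
      exact this
    have h3 : (w * s⁻¹) * (w * s⁻¹) = 1 := by
      calc (w * s⁻¹) * (w * s⁻¹) = w * (s⁻¹ * w) * s⁻¹ := by group
        _ = w * (w * s⁻¹) * s⁻¹ := by rw [hws']
        _ = (w * w) * (s * s)⁻¹ := by group
        _ = 1 := by rw [h2, hrs]; group
    have h4 : w * s⁻¹ ∈ C.M := C.hOmM ((C.hOm _).2 h3)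
    have h5 : x = (w * s⁻¹) * s * b := by
      rw [hw]; group
    rw [h5]
    exact C.M.mul_mem (C.M.mul_mem h4 hs) hb
  have hπK : ∀ k : C.K, ∀ x ∈ C.T, π ((k : MulAut P) x) = (k : MulAut P) (π x) := by
    intro k x hx
    show (((k : MulAut P) x) * ((k : MulAut P) x)) ^ _ = (k : MulAut P) ((x * x) ^ _)
    rw [map_pow, map_mul]
  have hπsurj : ∀ s ∈ C.Om, ∃ x ∈ C.T, π x = s := by
    intro s hs
    by_cases hs1 : s = 1
    · exact ⟨1, C.T.one_mem, by rw [hπM 1 C.M.one_mem, hs1]⟩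
    have h1 : π x₀ ≠ 1 := fun h => hx₀M (hπker x₀ hx₀ h)
    obtain ⟨k, hk⟩ := C.htr _ (hπOm x₀ hx₀) _ hs h1 hs1
    exact ⟨_, C.hTK k x₀ hx₀, by rw [hπK k x₀ hx₀, hk]⟩
  have hC1 := hua_P C.toCtx C.T C.hTK π hπOm hπmul hπsurj hπK (fun x y => dl y (x * x))
    (fun x hx y hy => hdlOm y hy _ (C.hT1 x hx))
    (by
      intro x hx x' hx' y hy
      show dl y ((x * x') * (x * x')) = dl y (x * x) * dl y (x' * x')
      have hdm : dl x' x ∈ C.M := C.hT2 x' hx' x
      rw [hF2 x hx x' hx', dl_mul C.hMn C.hMc y hdm (C.M.mul_mem (C.hT1 x hx) (C.hT1 x' hx')),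
        (hF x hx x' hx').2.2 y hy, one_mul,
        dl_mul C.hMn C.hMc y (C.hT1 x hx) (C.hT1 x' hx')])
    (by
      intro x hx y hy y' hy'
      show dl (y * y') (x * x) = dl y (x * x) * dl y' (x * x)
      have h1 : dl y' (x * x) ∈ C.Om := hdlOm y' hy' _ (C.hT1 x hx)
      have h2 : y * dl y' (x * x) * y⁻¹ = dl y' (x * x) := by
        rw [← C.hOmZ _ h1 y]; group
      rw [dl_mul_left, h2]
      exact C.hOmZ _ h1 _)
    (by
      intro x hx y hy h1
      have hxM := hπker x hx h1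
      show dl y (x * x) = 1
      rw [dl_mul C.hMn C.hMc y hxM hxM]
      exact hH y hy x hxM)
    (by
      intro x hx y hy h1
      exact C.dl_trivial (hπker y hy h1) (C.hT1 x hx))
    (by
      intro x hx y hy
      show dl y (x * x) = dl x (y * y)
      rw [(hF x hx y hy).1, (hF y hy x hx).1, dl_symm x y]
      have h1 := (C.hOm _).1 (hF x hx y hy).2.1
      have h2 : (dl y x * dl y x)⁻¹ = dl y x * dl y x := inv_eq_of_mul_eq_one_left h1
      rw [← h2]
      group)
    (fun x hx => dl_self_sq x)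
    (by
      intro k x hx y hy
      show dl _ _ = _
      rw [map_dl, map_mul])
  have hC2 : ∀ y ∈ C.T, ∀ a ∈ C.M, dl y a = 1 := by
    intro y hy a ha
    obtain ⟨x, hx, hπx⟩ := hπsurj _ (C.psi_mem ha)
    have hxx := C.hT1 x hx
    have h1 : (a * (x * x)⁻¹) ^ (2 ^ (C.g + 1)) = 1 := by
      rw [C.mul_pow_M ha (C.M.inv_mem hxx), inv_pow, ← hπx]
      show (x * x) ^ _ * ((x * x) ^ _)⁻¹ = 1
      rw [mul_inv_cancel]
    obtain ⟨b, hb, hab⟩ := C.hM3 _ (C.M.mul_mem ha (C.M.inv_mem hxx)) h1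
    have h2 : a = (b * b) * (x * x) := by
      rw [← hab]; group
    rw [h2, dl_mul C.hMn C.hMc y (C.M.mul_mem hb hb) hxx, dl_mul C.hMn C.hMc y hb hb, hH y hy b hb,
      one_mul]
    exact hC1 x hx y hy
  have hdinv : ∀ x ∈ C.T, ∀ y ∈ C.T, dl y x * dl y x = 1 := by
    intro x hx y hy
    rw [← (hF x hx y hy).1]
    exact hC1 x hx y hy
  have hdOm : ∀ x ∈ C.T, ∀ y ∈ C.T, dl y x ∈ C.Om := fun x hx y hy =>
    (C.hOm _).2 (hdinv x hx y hy)
  have hC3 := hua_P C.toCtx C.T C.hTK π hπOm hπmul hπsurj hπK (fun x y => dl x y)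
    (fun x hx y hy => hdOm y hy x hx)
    (by
      intro x hx x' hx' y hy
      show dl (x * x') y = dl x y * dl x' y
      have h1 := hdOm y hy x' hx'
      have h2 : x * dl x' y * x⁻¹ = dl x' y := by
        rw [← C.hOmZ _ h1 x]; group
      rw [dl_mul_left, h2]
      exact C.hOmZ _ h1 _)
    (by
      intro x hx y hy y' hy'
      show dl x (y * y') = dl x y * dl x y'
      have h1 := hdOm y' hy' x hx
      have h2 : y * dl x y' * y⁻¹ = dl x y' := by
        rw [← C.hOmZ _ h1 y]; group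
      have h3 : dl x (y * y') = dl x y * (y * dl x y' * y⁻¹) := by
        simp only [dl]; group
      rw [h3, h2])
    (by
      intro x hx y hy h1
      show dl x y = 1
      rw [dl_symm, hC2 y hy x (hπker x hx h1), inv_one])
    (by
      intro x hx y hy h1
      exact hC2 x hx y (hπker y hy h1))
    (by
      intro x hx y hy
      show dl x y = dl y x
      rw [dl_symm x y]
      exact inv_eq_of_mul_eq_one_left (hdinv x hx y hy))
    (fun x hx => dl_self x)
    (by
      intro k x hx y hy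
      show dl _ _ = _
      rw [map_dl])
  intro x hx y hy
  exact comm_of_dl (hC3 x hx y hy)

end LCtx


end Group

section Main
variable {P : Type*} [Group P]

theorem exact_count {A : Type*} [Group A] [Finite A] (ψ σ : A →* A) (h1 : ψ.range = σ.ker)
    (h2 : σ.range ≤ ψ.ker) : ψ.ker ≤ σ.range := by
  have h3 : Nat.card ψ.range * Nat.card ψ.ker = Nat.card A := by
    rw [← Subgroup.index_ker, Subgroup.index_mul_card]
  have h4 : Nat.card σ.range * Nat.card σ.ker = Nat.card A := by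
    rw [← Subgroup.index_ker, Subgroup.index_mul_card]
  rw [h1] at h3
  have h5 : Nat.card σ.ker * Nat.card ψ.ker = Nat.card σ.ker * Nat.card σ.range := by
    rw [h3, mul_comm, h4]
  have h6 : 0 < Nat.card σ.ker := Nat.card_pos
  have h7 := Nat.eq_of_mul_eq_mul_left h6 h5
  have h8 := Subgroup.eq_of_le_of_card_ge h2 (by rw [h7])
  exact h8.ge

/-- Build the context from the hypotheses of a Suzuki 2-group. -/
theorem nonempty_ctx [Finite P] (h2 : IsPGroup 2 P)
    (hne : ∃ x y : P, x ≠ y ∧ x ≠ 1 ∧ x * x = 1 ∧ y ≠ 1 ∧ y * y = 1)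
    (K : Subgroup (MulAut P)) (hcyc : IsCyclic K)
    (hreg : ∀ x y : P, x ≠ 1 → x * x = 1 → y ≠ 1 → y * y = 1 → ∃! k : K, (k : MulAut P) x = y) :
    Nonempty (Ctx P) := by
  classical
  obtain ⟨u, v, huv, hu1, huu, hv1, hvv⟩ := hne
  haveI : Nontrivial P := ⟨⟨u, 1, hu1⟩⟩
  haveI : Fact (Nat.Prime 2) := ⟨Nat.prime_two⟩
  haveI hZnt : Nontrivial (Subgroup.center P) := h2.center_nontrivial
  have hZ2 : IsPGroup 2 (Subgroup.center P) := h2.to_subgroup _
  have hZdvd : 2 ∣ Nat.card (Subgroup.center P) := by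
    obtain ⟨n, hn0, hn⟩ := hZ2.nontrivial_iff_card.mp hZnt
    rw [hn]
    exact dvd_pow_self 2 (by omega)
  obtain ⟨z', hz'⟩ := exists_prime_orderOf_dvd_card' 2 hZdvd
  set z : P := z'.1 with hz_def
  have hzC : z ∈ Subgroup.center P := z'.2
  have hz1 : z ≠ 1 := by
    intro h
    have : z' = 1 := Subtype.ext h
    rw [this, orderOf_one] at hz'
    omega
  have hzz : z * z = 1 := by
    have h3 := pow_orderOf_eq_one z'
    rw [hz', sq] at h3
    exact congrArg Subtype.val h3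
  have hcent : ∀ x : P, x * x = 1 → ∀ y, x * y = y * x := by
    intro x hx y
    by_cases hx1 : x = 1
    · rw [hx1]; simp
    obtain ⟨k, hk, -⟩ := hreg z x hz1 hzz hx1 hx
    have h3 : z * ((k : MulAut P)⁻¹ y) = ((k : MulAut P)⁻¹ y) * z :=
      (Subgroup.mem_center_iff.mp hzC _).symm
    have h4 := congrArg (k : MulAut P) h3
    rw [map_mul, map_mul, hk, MulAut.apply_inv_self] at h4
    exact h4
  let Om : Subgroup P :=
    { carrier := {x | x * x = 1}
      mul_mem' := by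
        intro a b ha hb
        simp only [Set.mem_ofPred_eq] at ha hb ⊢
        calc a * b * (a * b) = (a * a) * (b * b) := by
              rw [mul_assoc, ← mul_assoc b, hcent b hb a]
              group
          _ = 1 := by rw [ha, hb, one_mul]
      one_mem' := by simp
      inv_mem' := by
        intro a ha
        simp only [Set.mem_ofPred_eq] at ha ⊢
        rw [← mul_inv_rev, ha, inv_one] }
  have hOm : ∀ x, x ∈ Om ↔ x * x = 1 := fun x => Iff.rfl
  have hKc : ∀ a b : K, a * b = b * a := by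
    intro a b
    exact (IsCyclic.commGroup (α := K)).mul_comm a b
  have hfree : ∀ k : K, ∀ x : P, x ≠ 1 → (k : MulAut P) x = x → k = 1 := by
    intro k x hx hkx
    have hex : ∃ n, x ^ (2 ^ n) = 1 := h2 x
    have hn0 : Nat.find hex ≠ 0 := by
      intro h0
      have := Nat.find_spec hex
      rw [h0] at this
      simp at this
      exact hx this
    obtain ⟨j, hj⟩ := Nat.exists_eq_succ_of_ne_zero hn0
    have h3 : x ^ (2 ^ j) ≠ 1 := Nat.find_min hex (by omega)
    have h4 : x ^ (2 ^ j) * x ^ (2 ^ j) = 1 := by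
      rw [← pow_add, ← two_mul, ← pow_succ']
      have := Nat.find_spec hex
      rwa [hj] at this
    have h5 : (k : MulAut P) (x ^ (2 ^ j)) = x ^ (2 ^ j) := by
      rw [map_pow, hkx]
    exact (hreg _ _ h3 h4 h3 h4).unique h5 rfl
  have htr : ∀ a ∈ Om, ∀ b ∈ Om, a ≠ 1 → b ≠ 1 → ∃ k : K, (k : MulAut P) a = b := by
    intro a ha b hb ha1 hb1
    obtain ⟨k, hk, -⟩ := hreg a b ha1 ha hb1 hb
    exact ⟨k, hk⟩
  have hzOm : z ∈ Om := hzz
  have hodd : Odd (Nat.card K) := by
    let f : Option K → Om := fun o => match o with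
      | none => 1
      | some k => ⟨(k : MulAut P) z, by
          show (k : MulAut P) z * (k : MulAut P) z = 1
          rw [← map_mul, hzz, map_one]⟩
    have hf : Function.Bijective f := by
      constructor
      · intro a b hab
        rcases a with _ | a <;> rcases b with _ | b
        · rfl
        · exfalso
          have h3 : (1 : P) = (b : MulAut P) z := congrArg Subtype.val hab
          exact hz1 (((b : MulAut P).map_eq_one_iff).mp h3.symm)
        · exfalso
          have h3 : (a : MulAut P) z = 1 := congrArg Subtype.val hab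
          exact hz1 (((a : MulAut P).map_eq_one_iff).mp h3)
        · have h3 : (a : MulAut P) z = (b : MulAut P) z := congrArg Subtype.val hab
          have h4 : (b : MulAut P) z ≠ 1 := fun h =>
            hz1 (((b : MulAut P).map_eq_one_iff).mp h)
          have h5 : (b : MulAut P) z * (b : MulAut P) z = 1 := by
            rw [← map_mul, hzz, map_one]
          have := (hreg z _ hz1 hzz h4 h5).unique h3 rfl
          rw [this]
      · intro s
        by_cases hs : (s : P) = 1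
        · exact ⟨none, Subtype.ext hs.symm⟩
        · obtain ⟨k, hk, -⟩ := hreg z s hz1 hzz hs s.2
          exact ⟨some k, Subtype.ext hk⟩
    have hcard : Nat.card K + 1 = Nat.card Om := by
      rw [← Nat.card_congr (Equiv.ofBijective f hf), Finite.card_option]
    have hOm2 : IsPGroup 2 Om := h2.to_subgroup _
    haveI : Nontrivial Om := ⟨⟨⟨z, hzOm⟩, 1, fun h => hz1 (congrArg Subtype.val h)⟩⟩
    obtain ⟨n, hn0, hn⟩ := hOm2.nontrivial_iff_card.mp inferInstance
    rw [hn] at hcard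
    obtain ⟨m, rfl⟩ := Nat.exists_eq_succ_of_ne_zero (by omega : n ≠ 0)
    rw [Nat.odd_iff]
    rw [pow_succ] at hcard
    omega
  obtain ⟨θ, hθ⟩ := IsCyclic.exists_generator (α := K)
  have hθ' : ∀ k : K, ∃ i : ℕ, k = θ ^ i := by
    intro k
    have h3 : k ∈ Submonoid.powers θ := mem_powers_iff_mem_zpowers.mpr (hθ k)
    obtain ⟨i, hi⟩ := h3
    exact ⟨i, hi.symm⟩
  have hθ1 : θ ≠ 1 := by
    intro h
    obtain ⟨k, hk, -⟩ := hreg u v hu1 huu hv1 hvv
    obtain ⟨i, hi⟩ := hθ' k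
    rw [hi, h, one_pow] at hk
    exact huv hk
  exact ⟨{ K := K, Om := Om, hOm := hOm, hOmZ := fun x hx y => hcent x hx y, hKc := hKc,
           hodd := hodd, htr := htr, hfree := hfree, e := z, he := hzOm, he1 := hz1,
           θ := θ, hθ := hθ', hθ1 := hθ1 }⟩

/-- The layer above a normal subgroup of a `2`-group. -/
theorem exists_layer [Finite P] (h2 : IsPGroup 2 P) (M : Subgroup P) (hMn : M.Normal) (hMtop : M ≠ ⊤) :
    ∃ T : Subgroup P, (∀ x, x ∈ T ↔ x * x ∈ M ∧ ∀ y, dl x y ∈ M) ∧ ∃ x₀ ∈ T, x₀ ∉ M := by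
  classical
  haveI : Fact (Nat.Prime 2) := ⟨Nat.prime_two⟩
  haveI := hMn
  let Q := P ⧸ M
  have hQ2 : IsPGroup 2 Q := h2.to_quotient M
  haveI : Nontrivial Q := QuotientGroup.nontrivial_iff.mpr (by
    intro h; exact hMtop h)
  haveI hZnt : Nontrivial (Subgroup.center Q) := hQ2.center_nontrivial
  have hZ2 : IsPGroup 2 (Subgroup.center Q) := hQ2.to_subgroup _
  have hZdvd : 2 ∣ Nat.card (Subgroup.center Q) := by
    obtain ⟨n, hn0, hn⟩ := hZ2.nontrivial_iff_card.mp hZnt
    rw [hn]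
    exact dvd_pow_self 2 (by omega)
  obtain ⟨q, hq⟩ := exists_prime_orderOf_dvd_card' 2 hZdvd
  let C₂ : Subgroup Q :=
    { carrier := {q | q ∈ Subgroup.center Q ∧ q * q = 1}
      mul_mem' := by
        rintro a b ⟨ha, ha2⟩ ⟨hb, hb2⟩
        refine ⟨Subgroup.mul_mem _ ha hb, ?_⟩
        have h3 : b * a = a * b := Subgroup.mem_center_iff.mp ha b
        calc a * b * (a * b) = a * (b * a) * b := by group
          _ = a * (a * b) * b := by rw [h3]
          _ = (a * a) * (b * b) := by group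
          _ = 1 := by rw [ha2, hb2, one_mul]
      one_mem' := ⟨Subgroup.one_mem _, by simp⟩
      inv_mem' := by
        rintro a ⟨ha, ha2⟩
        exact ⟨Subgroup.inv_mem _ ha, by rw [← mul_inv_rev, ha2, inv_one]⟩ }
  refine ⟨C₂.comap (QuotientGroup.mk' M), ?_, ?_⟩
  · intro x
    have hmk : ∀ a : P, (QuotientGroup.mk' M a = 1 ↔ a ∈ M) := fun a => QuotientGroup.eq_one_iff a
    constructor
    · rintro ⟨h3, h4⟩
      constructor
      · rw [← hmk, map_mul]
        exact h4
      · intro y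
        rw [← hmk]
        simp only [dl, map_mul, map_inv]
        have h5 : QuotientGroup.mk' M x * QuotientGroup.mk' M y =
            QuotientGroup.mk' M y * QuotientGroup.mk' M x :=
          (Subgroup.mem_center_iff.mp h3 _).symm
        rw [h5]
        group
    · rintro ⟨h3, h4⟩
      refine ⟨?_, ?_⟩
      · rw [Subgroup.mem_center_iff]
        intro g
        obtain ⟨y, rfl⟩ := QuotientGroup.mk'_surjective M g
        have h5 := (hmk _).2 (h4 y)
        simp only [dl, map_mul, map_inv] at h5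
        have h6 : QuotientGroup.mk' M x * QuotientGroup.mk' M y * (QuotientGroup.mk' M x)⁻¹ =
            QuotientGroup.mk' M y := by
          have := congrArg (· * QuotientGroup.mk' M y) h5
          simpa using this
        have h7 : QuotientGroup.mk' M x * QuotientGroup.mk' M y =
            QuotientGroup.mk' M y * QuotientGroup.mk' M x := by
          calc _ = QuotientGroup.mk' M x * QuotientGroup.mk' M y * (QuotientGroup.mk' M x)⁻¹ *
                QuotientGroup.mk' M x := by group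
            _ = _ := by rw [h6]
        exact h7.symm
      · have h5 := (hmk _).2 h3
        rw [map_mul] at h5
        exact h5
  · obtain ⟨x₀, hx₀⟩ := QuotientGroup.mk'_surjective M (q : Q)
    refine ⟨x₀, ?_, ?_⟩
    · show QuotientGroup.mk' M x₀ ∈ C₂
      rw [hx₀]
      refine ⟨q.2, ?_⟩
      have h3 := pow_orderOf_eq_one q
      rw [hq, sq] at h3
      exact congrArg Subtype.val h3
    · intro hx₀M
      have h3 : QuotientGroup.mk' M x₀ = 1 := (QuotientGroup.eq_one_iff x₀).2 hx₀M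
      rw [h3] at hx₀
      have h4 : q = 1 := Subtype.ext hx₀.symm
      rw [h4, orderOf_one] at hq
      omega


theorem center_sq [Finite P] (C : Ctx P) (h2 : IsPGroup 2 P) (hnab : ∃ x y : P, x * y ≠ y * x) :
    ∀ z ∈ Subgroup.center P, z * z = 1 := by
  classical
  by_contra hcon
  push Not at hcon
  obtain ⟨z₀, hz₀, hz₀2⟩ := hcon
  have hkcent : ∀ k : C.K, ∀ a ∈ Subgroup.center P, (k : MulAut P) a ∈ Subgroup.center P := by
    intro k a ha
    rw [Subgroup.mem_center_iff] at ha ⊢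
    intro y
    have h3 := ha ((k : MulAut P)⁻¹ y)
    have h4 := congrArg (k : MulAut P) h3
    rw [map_mul, map_mul, MulAut.apply_inv_self] at h4
    exact h4
  let S : Set (Subgroup P) := {M | M.Normal ∧ (∀ a ∈ M, ∀ b ∈ M, a * b = b * a) ∧
    (∀ k : C.K, ∀ a ∈ M, (k : MulAut P) a ∈ M) ∧ Subgroup.center P ≤ M}
  have hcS : Subgroup.center P ∈ S := by
    refine ⟨inferInstance, ?_, hkcent, le_rfl⟩
    intro a ha b hb
    exact (Subgroup.mem_center_iff.mp ha b).symm
  obtain ⟨M, hM⟩ := Set.Finite.exists_maximal (Set.toFinite S) ⟨_, hcS⟩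
  obtain ⟨hMn, hMc, hMK, hZM⟩ := hM.prop
  have hMtop : M ≠ ⊤ := by
    rintro rfl
    obtain ⟨x, y, hxy⟩ := hnab
    exact hxy (hMc x trivial y trivial)
  have hOmM : C.Om ≤ M := fun x hx =>
    hZM (Subgroup.mem_center_iff.mpr (fun y => (C.hOmZ x hx y).symm))
  have hex : ∃ n, ∀ a ∈ M, a ^ (2 ^ n) = 1 := by
    obtain ⟨n, hn⟩ := IsPGroup.iff_card.mp h2
    exact ⟨n, fun a _ => by rw [← hn]; exact pow_card_eq_one'⟩
  have hn2 : 2 ≤ Nat.find hex := by
    by_contra hlt
    have h := Nat.find_spec hex z₀ (hZM hz₀)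
    apply hz₀2
    have hcases : Nat.find hex = 0 ∨ Nat.find hex = 1 := by omega
    rcases hcases with h0 | h0
    · rw [h0] at h
      simp only [pow_zero, pow_one] at h
      rw [h, one_mul]
    · rw [h0] at h
      simp only [pow_one] at h
      rw [← sq]; exact h
  obtain ⟨g, hg⟩ : ∃ g, Nat.find hex = g + 2 := ⟨Nat.find hex - 2, by omega⟩
  have hM1 : ∀ a ∈ M, a ^ (2 ^ (g + 2)) = 1 := by
    have := Nat.find_spec hex
    rwa [hg] at this
  have hmin : ∃ a ∈ M, a ^ (2 ^ (g + 1)) ≠ 1 := by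
    have := Nat.find_min hex (m := g + 1) (by omega)
    push Not at this
    exact this
  have hM2 : ∀ s ∈ C.Om, ∃ a ∈ M, a ^ (2 ^ (g + 1)) = s := by
    intro s hs
    by_cases hs1 : s = 1
    · exact ⟨1, M.one_mem, by rw [hs1, one_pow]⟩
    obtain ⟨a, ha, ha1⟩ := hmin
    have h3 : a ^ (2 ^ (g + 1)) ∈ C.Om := by
      rw [C.hOm, ← pow_add, ← two_mul, ← pow_succ']
      exact hM1 a ha
    obtain ⟨k, hk⟩ := C.htr _ h3 _ hs ha1 hs1
    exact ⟨_, hMK k a ha, by rw [← map_pow, hk]⟩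
  have hcM : ∀ a b : M, Commute a b := fun a b => Subtype.ext (hMc _ a.2 _ b.2)
  have hM3 : ∀ a ∈ M, a ^ (2 ^ (g + 1)) = 1 → ∃ b ∈ M, a = b * b := by
    let ψ : M →* M := MonoidHom.mk' (fun a => a ^ (2 ^ (g + 1))) (fun a b => (hcM a b).mul_pow _)
    let σ : M →* M := MonoidHom.mk' (fun a => a ^ 2) (fun a b => (hcM a b).mul_pow _)
    have h1 : ψ.range = σ.ker := by
      ext a
      constructor
      · rintro ⟨b, rfl⟩
        show ψ b ^ 2 = 1
        apply Subtype.ext
        show ((b : P) ^ (2 ^ (g + 1))) ^ 2 = 1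
        rw [← pow_mul, ← pow_succ]
        exact hM1 b b.2
      · intro ha
        have h3 : (a : P) ^ 2 = 1 := congrArg Subtype.val ha
        have h4 : (a : P) ∈ C.Om := by
          rw [C.hOm, ← sq]; exact h3
        obtain ⟨b, hb, hba⟩ := hM2 _ h4
        exact ⟨⟨b, hb⟩, Subtype.ext hba⟩
    have h2' : σ.range ≤ ψ.ker := by
      rintro _ ⟨b, rfl⟩
      show ((σ b) ^ (2 ^ (g + 1))) = 1
      apply Subtype.ext
      show ((b : P) ^ 2) ^ (2 ^ (g + 1)) = 1
      rw [← pow_mul, ← pow_succ']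
      exact hM1 b b.2
    have h3 := exact_count ψ σ h1 h2'
    intro a ha h4
    obtain ⟨b, hb⟩ := h3 (show (⟨a, ha⟩ : M) ∈ ψ.ker from Subtype.ext h4)
    refine ⟨b, b.2, ?_⟩
    have h5 : (b : P) ^ 2 = a := congrArg Subtype.val hb
    rw [← h5, sq]
  obtain ⟨T, hT, x₀, hx₀, hx₀M⟩ := exists_layer h2 M hMn hMtop
  have hMT : M ≤ T := by
    intro a ha
    rw [hT]
    refine ⟨M.mul_mem ha ha, fun y => ?_⟩
    rw [dl_symm]
    exact M.inv_mem (dl_mem hMn y ha)
  have hTK : ∀ k : C.K, ∀ x ∈ T, (k : MulAut P) x ∈ T := by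
    intro k x hx
    rw [hT] at hx ⊢
    refine ⟨?_, fun y => ?_⟩
    · rw [← map_mul]
      exact hMK k _ hx.1
    · have h3 := hMK k _ (hx.2 ((k : MulAut P)⁻¹ y))
      rw [map_dl, MulAut.apply_inv_self] at h3
      exact h3
  let C' : LCtx P :=
    { toCtx := C, M := M, T := T, hMn := hMn, hMc := hMc, hMK := hMK, hOmM := hOmM, g := g,
      hM1 := hM1, hM2 := hM2, hM3 := hM3, hMT := hMT,
      hT1 := fun x hx => ((hT x).1 hx).1, hT2 := fun x hx y => ((hT x).1 hx).2 y, hTK := hTK }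
  have hTcomm : ∀ x ∈ T, ∀ y ∈ T, x * y = y * x := by
    rcases g with _ | g'
    · -- `M` is central
      have hMcent : ∀ a ∈ M, a ∈ Subgroup.center P := by
        intro a ha
        have h3 : ∀ b ∈ M, (b * b) * (b * b) = 1 := by
          intro b hb
          have := hM1 b hb
          rw [← pow4]
          exact this
        have hs : a * a ∈ C.Om := (C.hOm _).2 (h3 a ha)
        by_cases hs1 : a * a = 1
        · have h4 : a ∈ C.Om := (C.hOm _).2 hs1
          exact Subgroup.mem_center_iff.mpr (fun y => (C.hOmZ a h4 y).symm)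
        · have ht : z₀ * z₀ ∈ C.Om := (C.hOm _).2 (h3 z₀ (hZM hz₀))
          obtain ⟨k, hk⟩ := C.htr _ ht _ hs hz₀2 hs1
          rw [map_mul] at hk
          have hzk := hkcent k z₀ hz₀
          set w := (k : MulAut P) z₀ with hw
          have hwc : ∀ y, w * y = y * w := fun y => (Subgroup.mem_center_iff.mp hzk y).symm
          have h4 : (a * w⁻¹) * (a * w⁻¹) = 1 := by
            have hwi : w⁻¹ * a = a * w⁻¹ := by
              have := hwc a
              calc w⁻¹ * a = w⁻¹ * (a * w) * w⁻¹ := by group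
                _ = w⁻¹ * (w * a) * w⁻¹ := by rw [this]
                _ = a * w⁻¹ := by group
            calc (a * w⁻¹) * (a * w⁻¹) = a * (w⁻¹ * a) * w⁻¹ := by group
              _ = a * (a * w⁻¹) * w⁻¹ := by rw [hwi]
              _ = (a * a) * (w * w)⁻¹ := by group
              _ = 1 := by rw [hk]; group
          have h5 : a * w⁻¹ ∈ C.Om := (C.hOm _).2 h4
          have h6 : a = (a * w⁻¹) * w := by group
          rw [h6]
          exact Subgroup.mul_mem _
            (Subgroup.mem_center_iff.mpr (fun y => (C.hOmZ _ h5 y).symm)) hzk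
      have hdl1 : ∀ x, ∀ a ∈ M, dl x a = 1 := by
        intro x a ha
        exact dl_eq_one (Subgroup.mem_center_iff.mp (hMcent a ha) x)
      refine C'.final_comm (fun x hx a ha => ?_) (fun x hx a ha _ => hdl1 x a ha) ?_ hx₀ hx₀M
      · rw [hdl1 x a ha, one_mul]
      · intro x hx y hy _
        show dl y x ^ (2 ^ 1) = 1
        have hd : dl y x ∈ M := ((hT y).1 hy).2 x
        have hxx : x * x ∈ M := ((hT x).1 hx).1
        have h3 : dl y (x * x) = dl y x * (x * dl y x * x⁻¹) := by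
          simp only [dl]; group
        have h4 : x * dl y x * x⁻¹ = dl y x := by
          have : x * dl y x = dl y x * x := (Subgroup.mem_center_iff.mp (hMcent _ hd) x)
          rw [this]; group
        rw [h4, hdl1 y _ hxx] at h3
        rw [pow_one, sq]
        exact h3.symm
    · have hcl : ∀ x ∈ T, ∀ a ∈ M, dl x a * dl x a = 1 := fun x hx a ha =>
        C'.claimA g' rfl hx ha
      have hp4 : ∀ a : P, a ^ 4 = 1 → a ^ (2 ^ (g' + 1 + 1)) = 1 := by
        intro a ha
        have h3 : 2 ^ (g' + 1 + 1) = 4 * 2 ^ g' := by ring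
        rw [h3, pow_mul, ha, one_pow]
      refine C'.final_comm hcl (fun x hx a ha h4 => ?_) ?_ hx₀ hx₀M
      · obtain ⟨b, hb, hab⟩ := hM3 a ha (hp4 a h4)
        rw [hab, dl_mul hMn hMc x hb hb]
        exact hcl x hx b hb
      · intro x hx y hy h4
        exact hp4 _ h4
  have hTS : T ∈ S := by
    refine ⟨⟨?_⟩, hTcomm, hTK, hZM.trans hMT⟩
    intro x hx g
    have h3 : g * x * g⁻¹ = (dl x g)⁻¹ * x := by simp only [dl]; group
    rw [h3]
    exact T.mul_mem (hMT (M.inv_mem (((hT x).1 hx).2 g))) hx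
  exact hx₀M (hM.2 hTS hMT hx₀)

end Main

end Cfsg.Agent.H26.Suzuki
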