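import Cfsg.Agent.S1464
import Cfsg.Agent.Lib.H01.Coprime4
import Cfsg.Agent.Lib.H01.Basic
import Cfsg.Agent.Lib.H03.PSolv
import Cfsg.Agent.Lib.H06.PSolvable
import Cfsg.Agent.Lib.H08.PCoreL
import Cfsg.Agent.Lib.H19.ZCoprime
import Mathlib

set_option autoImplicit false
set_option linter.style.haveILetI false
set_option linter.unusedVariables false
set_option linter.unusedSectionVars false
set_option linter.unusedSimpArgs false
open Cfsg
open scoped commutatorElement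

namespace Cfsg.Agent.H26.BG

universe u

theorem eq_one_of_pow_coprime {H : Type*} [Group H] {x : H} {m n : ℕ} (hm : x ^ m = 1) (hn : x ^ n = 1)
    (h : m.Coprime n) : x = 1 := by
  have h3 := orderOf_dvd_of_pow_eq_one hm
  have h4 := orderOf_dvd_of_pow_eq_one hn
  exact orderOf_eq_one_iff.mp (Nat.eq_one_of_dvd_coprimes h h3 h4)

theorem quad_aux {N : Type*} [Group N] [Finite N] {p : ℕ} [Fact p.Prime] (C : Subgroup N) [C.Normal]
    (A' : Subgroup N) (h : A'.map (QuotientGroup.mk' C) ≤ pCore p (N ⧸ C)) {y a : N} (ha : a ∈ A')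
    (n : ℕ) (hn : ⁅y, a⁆ ^ n = 1) (hcop : n.Coprime p) : ⁅y, a⁆ ∈ C := by
  let π := QuotientGroup.mk' C
  have h1 : π a ∈ pCore p (N ⧸ C) := h ⟨a, ha, rfl⟩
  haveI : (pCore p (N ⧸ C)).Normal := H01.pCore_normal p
  have h2 : π ⁅y, a⁆ ∈ pCore p (N ⧸ C) := by
    rw [map_commutatorElement, commutatorElement_def]
    exact Subgroup.mul_mem _ (Subgroup.Normal.conj_mem inferInstance _ h1 _) (Subgroup.inv_mem _ h1)
  obtain ⟨k, hk⟩ := (H01.pCore_isPGroup (G := N ⧸ C) p) ⟨_, h2⟩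
  have h3 : (π ⁅y, a⁆) ^ (p ^ k) = 1 := by
    have := congrArg Subtype.val hk
    simpa using this
  have h4 : (π ⁅y, a⁆) ^ n = 1 := by rw [← map_pow, hn, map_one]
  have h5 := eq_one_of_pow_coprime h4 h3 (Nat.Coprime.pow_right _ hcop)
  have : ⁅y, a⁆ ∈ π.ker := h5
  rwa [QuotientGroup.ker_mk'] at this

/-- Quadratic action: `p`-stability, normal form. -/
theorem quad_normal {G : Type u} [Group G] [Finite G] [Group.IsSolvable G] (hodd : Odd (Nat.card G))
    (p : ℕ) [Fact p.Prime] (hp : p ≠ 2) {P A Y : Subgroup G} (hP : IsPGroup p P) [hPn : P.Normal]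
    (hA : IsPGroup p A) (hquad : ⁅⁅P, A⁆, A⁆ = ⊥) (hYc : (Nat.card Y).Coprime p)
    (hYA : A ≤ Subgroup.normalizer (Y : Set G)) {y a : G} (hy : y ∈ Y) (ha : a ∈ A) :
    ⁅y, a⁆ ∈ Subgroup.centralizer (P : Set G) := by
  have hN : Subgroup.normalizer (P : Set G) = ⊤ := Subgroup.normalizer_eq_top_iff.mpr hPn
  have hnm : ∀ g : G, g ∈ Subgroup.normalizer (P : Set G) := fun g => by rw [hN]; trivial
  have hsn : (pPrimeCore p G ⊔ P).Normal := by
    haveI : (pPrimeCore p G).Normal := inferInstance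
    infer_instance
  have h := Cfsg.Agent.S1464.result hodd p hp P A hP hsn hA (hAN := fun a _ => hnm a) hquad
  have hyY : ⁅y, a⁆ ∈ Y := by
    have e : ⁅y, a⁆ = y * (a * y⁻¹ * a⁻¹) := by rw [commutatorElement_def]; group
    rw [e]
    exact Y.mul_mem hy ((Subgroup.mem_normalizer_iff.mp (hYA ha) _).mp (Y.inv_mem hy))
  have hpow : ⁅y, a⁆ ^ Nat.card Y = 1 := by
    have h0 : ((⟨_, hyY⟩ : Y) ^ Nat.card Y : Y).1 = 1 := by rw [pow_card_eq_one']; rfl
    rw [Subgroup.coe_pow] at h0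
    exact h0
  have hce : ((⁅(⟨y, hnm y⟩ : Subgroup.normalizer (P : Set G)), ⟨a, hnm a⟩⁆ :
      Subgroup.normalizer (P : Set G)) : G) = ⁅y, a⁆ := by
    simp [commutatorElement_def]
  have h1 := quad_aux (p := p) _ _ h (y := ⟨y, hnm y⟩) (a := ⟨a, hnm a⟩)
    (by rw [Subgroup.mem_subgroupOf]; exact ha) (Nat.card Y) (by
      apply Subtype.ext
      rw [Subgroup.coe_pow, hce]
      exact hpow) hYc
  rw [Subgroup.mem_subgroupOf, hce] at h1
  exact h1


/-- Non-normal form of `quad_normal`. -/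
theorem quad_general {G : Type u} [Group G] [Finite G] [Group.IsSolvable G] (hodd : Odd (Nat.card G))
    (p : ℕ) [Fact p.Prime] (hp : p ≠ 2) {P A Y : Subgroup G} (hP : IsPGroup p P)
    (hA : IsPGroup p A) (hAN : A ≤ Subgroup.normalizer (P : Set G))
    (hYN : Y ≤ Subgroup.normalizer (P : Set G)) (hquad : ⁅⁅P, A⁆, A⁆ = ⊥) (hYc : (Nat.card Y).Coprime p)
    (hYA : A ≤ Subgroup.normalizer (Y : Set G)) {y a : G} (hy : y ∈ Y) (ha : a ∈ A) :
    ⁅y, a⁆ ∈ Subgroup.centralizer (P : Set G) := by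
  set N := Subgroup.normalizer (P : Set G) with hN
  have hPN : P ≤ N := Subgroup.le_normalizer
  let P' : Subgroup N := P.subgroupOf N
  let A' : Subgroup N := A.subgroupOf N
  let Y' : Subgroup N := Y.subgroupOf N
  haveI hP'n : P'.Normal := (Subgroup.normal_subgroupOf_iff_le_normalizer hPN).mpr le_rfl
  have hP'p : IsPGroup p P' := hP.of_equiv (Subgroup.subgroupOfEquivOfLe hPN).symm
  have hA'p : IsPGroup p A' := hA.of_equiv (Subgroup.subgroupOfEquivOfLe hAN).symm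
  have hY'c : (Nat.card Y').Coprime p := by
    have : Nat.card Y' = Nat.card Y := Nat.card_congr (Subgroup.subgroupOfEquivOfLe hYN).toEquiv
    rwa [this]
  have hodd' : Odd (Nat.card N) := Odd.of_dvd_nat hodd (Subgroup.card_subgroup_dvd_card N)
  have hmap : ∀ {U V : Subgroup N}, (⁅U, V⁆ : Subgroup N).map N.subtype = ⁅U.map N.subtype, V.map N.subtype⁆ :=
    fun {U V} => Subgroup.map_commutator U V _
  have hP'm : P'.map N.subtype = P := Subgroup.map_subgroupOf_eq_of_le hPN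
  have hA'm : A'.map N.subtype = A := Subgroup.map_subgroupOf_eq_of_le hAN
  have hq' : ⁅⁅P', A'⁆, A'⁆ = ⊥ := by
    apply Subgroup.map_injective N.subtype_injective
    rw [hmap, hmap, hP'm, hA'm, hquad, Subgroup.map_bot]
  have hYA' : A' ≤ Subgroup.normalizer (Y' : Set N) := by
    intro a' ha'
    rw [Subgroup.mem_normalizer_iff]
    intro z
    have := Subgroup.mem_normalizer_iff.mp (hYA (Subgroup.mem_subgroupOf.mp ha')) z
    simp only [Subgroup.mem_subgroupOf, Y', Subgroup.coe_mul, InvMemClass.coe_inv]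
    exact this
  have h := quad_normal hodd' p hp hP'p hA'p hq' hY'c hYA' (y := ⟨y, hYN hy⟩) (a := ⟨a, hAN ha⟩)
    (Subgroup.mem_subgroupOf.mpr hy) (Subgroup.mem_subgroupOf.mpr ha)
  apply Subgroup.mem_centralizer_iff.mpr
  intro x hx
  have h2 := Subgroup.mem_centralizer_iff.mp h (⟨x, hPN hx⟩ : N) (Subgroup.mem_subgroupOf.mpr hx)
  have h3 := congrArg Subtype.val h2
  simpa [commutatorElement_def] using h3


theorem eq_one_of_mem_both {H : Type*} [Group H] [Finite H] {p : ℕ} [Fact p.Prime] {Y T : Subgroup H}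
    (hT : IsPGroup p T) (hYc : (Nat.card Y).Coprime p) {x : H} (hxY : x ∈ Y) (hxT : x ∈ T) : x = 1 := by
  have h1 : x ^ Nat.card Y = 1 := by
    have h0 : ((⟨x, hxY⟩ : Y) ^ Nat.card Y : Y).1 = 1 := by rw [pow_card_eq_one']; rfl
    rw [Subgroup.coe_pow] at h0
    exact h0
  obtain ⟨k, hk⟩ := hT ⟨x, hxT⟩
  have h2 : x ^ (p ^ k) = 1 := by
    have := congrArg Subtype.val hk
    simpa using this
  exact eq_one_of_pow_coprime h1 h2 (Nat.Coprime.pow_right _ hYc)

theorem comm_mem_of_norm {H : Type*} [Group H] {Y : Subgroup H} {y a : H} (hy : y ∈ Y)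
    (ha : a ∈ Subgroup.normalizer (Y : Set H)) : ⁅y, a⁆ ∈ Y := by
  have e : ⁅y, a⁆ = y * (a * y⁻¹ * a⁻¹) := by rw [commutatorElement_def]; group
  rw [e]
  exact Y.mul_mem hy ((Subgroup.mem_normalizer_iff.mp ha _).mp (Y.inv_mem hy))

theorem comm_mem_of_norm' {H : Type*} [Group H] {T : Subgroup H} {y a : H} (ha : a ∈ T)
    (hy : y ∈ Subgroup.normalizer (T : Set H)) : ⁅y, a⁆ ∈ T := by
  rw [commutatorElement_def]
  exact T.mul_mem ((Subgroup.mem_normalizer_iff.mp hy _).mp ha) (T.inv_mem ha)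

theorem lemma_K_comm {Ξ : Type u} [Group Ξ] [Finite Ξ] [Group.IsSolvable Ξ] (hodd : Odd (Nat.card Ξ))
    (p : ℕ) [Fact p.Prime] (hp : p ≠ 2) {A D Y : Subgroup Ξ}
    (hcent : Subgroup.centralizer (pCore p Ξ : Set Ξ) ≤ pCore p Ξ)
    (hAp : IsPGroup p A) (hDT : D ≤ pCore p Ξ)
    (hTA : ∀ t ∈ pCore p Ξ, ∀ a ∈ A, ⁅t, a⁆ ∈ D)
    (hYc : (Nat.card Y).Coprime p) (hYA : A ≤ Subgroup.normalizer (Y : Set Ξ))
    (hY₀ : ∀ y ∈ Y, ∀ e ∈ A ⊓ pCore p Ξ, ⁅y, e⁆ = 1)
    (hD₀ : ∀ d ∈ D, ∀ a ∈ A, ⁅d, a⁆ ∈ A ⊓ pCore p Ξ)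
    {y a : Ξ} (hy : y ∈ Y) (ha : a ∈ A) : ⁅y, a⁆ = 1 := by
  set T := pCore p Ξ with hTdef
  haveI hTn : T.Normal := H01.pCore_normal p
  have hTp : IsPGroup p T := H01.pCore_isPGroup p
  have hTN : ∀ g : Ξ, g ∈ Subgroup.normalizer (T : Set Ξ) := fun g => by
    rw [Subgroup.normalizer_eq_top_iff.mpr hTn]; trivial
  let N₀ : Subgroup Ξ := (frattini T).map T.subtype
  haveI hN₀ : N₀.Normal := ConjAct.normal_of_characteristic_of_normal
  let π := QuotientGroup.mk' N₀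
  have hπs : Function.Surjective π := QuotientGroup.mk'_surjective _
  have hker : ∀ x : Ξ, x ∈ N₀ ↔ π x = 1 := fun x => by
    rw [← MonoidHom.mem_ker, QuotientGroup.ker_mk']
  have hoddq : Odd (Nat.card (Ξ ⧸ N₀)) := Odd.of_dvd_nat hodd (Subgroup.card_quotient_dvd_card N₀)
  set Tt := T.map π with hTt
  set Yt := Y.map π with hYt
  set At := A.map π with hAt
  haveI hTtn : Tt.Normal := hTn.map _ hπs
  have hTtp : IsPGroup p Tt := hTp.map π
  have hAtp : IsPGroup p At := hAp.map π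
  have hYtc : (Nat.card Yt).Coprime p := Nat.Coprime.coprime_dvd_left (Subgroup.card_map_dvd _ _) hYc
  have hTtN : ∀ g : Ξ ⧸ N₀, g ∈ Subgroup.normalizer (Tt : Set (Ξ ⧸ N₀)) := fun g => by
    rw [Subgroup.normalizer_eq_top_iff.mpr hTtn]; trivial
  have hTtab : ∀ x ∈ Tt, ∀ z ∈ Tt, x * z = z * x := by
    rintro _ ⟨t₁, ht₁, rfl⟩ _ ⟨t₂, ht₂, rfl⟩
    have h1 : ⁅(⟨t₁, ht₁⟩ : T), (⟨t₂, ht₂⟩ : T)⁆ ∈ frattini T :=
      H01.commutator_le_frattini_of_isPGroup hTp (Subgroup.commutator_mem_commutator (Subgroup.mem_top _) (Subgroup.mem_top _))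
    have h2 : ⁅t₁, t₂⁆ ∈ N₀ := ⟨_, h1, by simp [commutatorElement_def]⟩
    have h3 := (hker _).mp h2
    rw [map_commutatorElement, commutatorElement_eq_one_iff_mul_comm] at h3
    exact h3
  have hYtAt : At ≤ Subgroup.normalizer (Yt : Set (Ξ ⧸ N₀)) := by
    rintro _ ⟨b, hb, rfl⟩
    exact Subgroup.le_normalizer_map π ⟨b, hYA hb, rfl⟩
  set Pt : Subgroup (Ξ ⧸ N₀) := ⁅Tt, Yt⁆ with hPt
  have hPN_Y : Yt ≤ Subgroup.normalizer (Pt : Set (Ξ ⧸ N₀)) := fun g hg =>
    H01.mem_normalizer_commutator (hTtN g) (Subgroup.le_normalizer hg)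
  have hPN_A : At ≤ Subgroup.normalizer (Pt : Set (Ξ ⧸ N₀)) := fun g hg =>
    H01.mem_normalizer_commutator (hTtN g) (hYtAt hg)
  have hPT : Pt ≤ Tt := Subgroup.commutator_le_left Tt Yt
  have hcopYT : (Nat.card Yt).Coprime (Nat.card Tt) := by
    obtain ⟨n, hn⟩ := IsPGroup.iff_card.mp hTtp
    rw [hn]
    exact Nat.Coprime.pow_right _ hYtc
  have hsup := H01.commutator_sup_centralizer (A := Yt) (K := Tt) (fun g _ => hTtN g) hcopYT
    (Or.inl inferInstance)
  have hcc := H01.commutator_commutator_eq (A := Yt) (K := Tt) (fun g _ => hTtN g) hcopYT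
    (Or.inl inferInstance)
  have hbot : Pt ⊓ Subgroup.centralizer (Yt : Set (Ξ ⧸ N₀)) = ⊥ :=
    H19.inf_centralizer_eq_bot_of_abelian (fun x hx z hz => hTtab x (hPT hx) z (hPT hz)) hPN_Y
      (Nat.Coprime.coprime_dvd_right (Subgroup.card_dvd_of_le hPT) hcopYT) hcc
  have hcommP : ∀ x ∈ Pt, ∀ b ∈ At, ⁅x, b⁆ ∈ Pt := fun x hx b hb =>
    comm_mem_of_norm hx (hPN_A hb)
  have hq : ⁅⁅Pt, At⁆, At⁆ = ⊥ := by
    rw [eq_bot_iff, Subgroup.commutator_le]
    have h1 : ⁅Pt, At⁆ ≤ Pt ⊓ D.map π := by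
      rw [Subgroup.commutator_le]
      rintro x hx _ ⟨b, hb, rfl⟩
      refine ⟨hcommP x hx _ ⟨b, hb, rfl⟩, ?_⟩
      obtain ⟨t, ht, rfl⟩ := hPT hx
      exact ⟨⁅t, b⁆, hTA t ht b hb, by rw [map_commutatorElement]⟩
    intro w hw b' hb'
    obtain ⟨hw1, d, hd, rfl⟩ := h1 hw
    obtain ⟨b, hb, rfl⟩ := hb'
    have h2 : ⁅π d, π b⁆ ∈ Pt := hcommP _ hw1 _ ⟨b, hb, rfl⟩
    have h3 : ⁅π d, π b⁆ ∈ Subgroup.centralizer (Yt : Set (Ξ ⧸ N₀)) := by
      apply Subgroup.mem_centralizer_iff.mpr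
      rintro _ ⟨y', hy', rfl⟩
      rw [← map_commutatorElement]
      have h4 := hY₀ y' hy' _ (hD₀ d hd b hb)
      rw [commutatorElement_eq_one_iff_mul_comm] at h4
      have := congrArg π h4
      simpa using this
    have h5 : ⁅π d, π b⁆ ∈ Pt ⊓ Subgroup.centralizer (Yt : Set (Ξ ⧸ N₀)) := ⟨h2, h3⟩
    rw [hbot] at h5
    exact h5
  have hfinal := quad_general hoddq p hp (hTtp.to_le hPT) hAtp hPN_A hPN_Y hq hYtc hYtAt
    (y := π y) (a := π a) ⟨y, hy, rfl⟩ ⟨a, ha, rfl⟩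
  have hcY : ⁅π y, π a⁆ ∈ Yt := comm_mem_of_norm ⟨y, hy, rfl⟩ (hYtAt ⟨a, ha, rfl⟩)
  have hcT : Tt ≤ Subgroup.centralizer ({⁅π y, π a⁆} : Set (Ξ ⧸ N₀)) := by
    rw [← hsup]
    apply sup_le
    · intro x hx
      apply Subgroup.mem_centralizer_singleton_iff.mpr
      exact Subgroup.mem_centralizer_iff.mp hfinal x hx
    · rintro x ⟨-, hx⟩
      apply Subgroup.mem_centralizer_singleton_iff.mpr
      exact (Subgroup.mem_centralizer_iff.mp hx _ hcY).symm
  set c := ⁅y, a⁆ with hc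
  have hπc : π c = ⁅π y, π a⁆ := map_commutatorElement _ _ _
  have hcYY : c ∈ Y := comm_mem_of_norm hy (hYA ha)
  have hcopf : (Nat.card (Subgroup.zpowers c)).Coprime (Nat.card (frattini T)) := by
    obtain ⟨n, hn⟩ := IsPGroup.iff_card.mp hTp
    have h1 : Nat.card (frattini T) ∣ p ^ n := by
      rw [← hn]; exact Subgroup.card_subgroup_dvd_card _
    refine Nat.Coprime.coprime_dvd_right h1 (Nat.Coprime.pow_right _ ?_)
    refine Nat.Coprime.coprime_dvd_left ?_ hYc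
    apply Subgroup.card_dvd_of_le
    exact (Subgroup.zpowers_le).mpr hcYY
  have hcC := H01.centralizes_of_trivial_on_frattini_quotient (Subgroup.zpowers c) T
    (fun g _ => hTN g) hcopf (by
      rintro _ ⟨n, rfl⟩ t ht
      rw [hker]
      have h1 : Commute (π c) (π t) := by
        rw [hπc]
        have := Subgroup.mem_centralizer_singleton_iff.mp (hcT ⟨t, ht, rfl⟩)
        exact this.symm
      have h2 : Commute (π (c ^ n)) (π t) := by
        rw [map_zpow]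
        exact h1.zpow_left n
      simp only [map_mul, map_inv]
      rw [h2.eq]
      group)
  have hcT' : c ∈ T := hcent (hcC (Subgroup.mem_zpowers c))
  exact eq_one_of_mem_both hTp hYc hcYY hcT'

theorem lemma_K {Ξ : Type u} [Group Ξ] [Finite Ξ] [Group.IsSolvable Ξ] (hodd : Odd (Nat.card Ξ))
    (p : ℕ) [Fact p.Prime] (hp : p ≠ 2) (hO : pPrimeCore p Ξ = ⊥) {A D Y : Subgroup Ξ}
    (hAp : IsPGroup p A) 
    (hCA : pCore p Ξ ⊓ Subgroup.centralizer (A : Set Ξ) ≤ A)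
    (hDT : D ≤ pCore p Ξ) (hDA : D ≤ Subgroup.normalizer (A : Set Ξ))
    (hTA : ∀ t ∈ pCore p Ξ, ∀ a ∈ A, ⁅t, a⁆ ∈ D)
    (hYc : (Nat.card Y).Coprime p) (hYA : A ≤ Subgroup.normalizer (Y : Set Ξ)) : Y = ⊥ := by
  set T := pCore p Ξ with hTdef
  haveI hTn : T.Normal := H01.pCore_normal p
  have hTp : IsPGroup p T := H01.pCore_isPGroup p
  have hTN : ∀ g : Ξ, g ∈ Subgroup.normalizer (T : Set Ξ) := fun g => by
    rw [Subgroup.normalizer_eq_top_iff.mpr hTn]; trivial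
  -- `Y` centralizes `A ∩ T`
  have hY₀ : ∀ y ∈ Y, ∀ e ∈ A ⊓ T, ⁅y, e⁆ = 1 := fun y hy e he =>
    eq_one_of_mem_both hTp hYc (comm_mem_of_norm hy (hYA he.1)) (comm_mem_of_norm' he.2 (hTN y))
  have hD₀ : ∀ d ∈ D, ∀ a ∈ A, ⁅d, a⁆ ∈ A ⊓ T := fun d hd a ha =>
    ⟨comm_mem_of_norm' ha (hDA hd), comm_mem_of_norm (hDT hd) (hTN a)⟩
  have hcent : Subgroup.centralizer (T : Set Ξ) ≤ T :=
    H03.centralizer_pCore_le_of_isPSolvable (H06.isPSolvable_of_isSolvable p Ξ) hO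
  have hcomm : ∀ y ∈ Y, ∀ a ∈ A, ⁅y, a⁆ = 1 := by
    intro y hy a ha
    exact lemma_K_comm hodd p hp hcent hAp hDT hTA hYc hYA hY₀ hD₀ hy ha
  have hAY : A ≤ Subgroup.centralizer (Y : Set Ξ) := by
    intro a ha
    apply Subgroup.mem_centralizer_iff.mpr
    intro y hy
    have := hcomm y hy a ha
    rwa [commutatorElement_eq_one_iff_mul_comm] at this
  have hYT := H01.thompson_PxQ p A Y T hAp hYc hTp hAY (fun a _ => hTN a) (fun y _ => hTN y) (by
    rintro t ⟨ht1, ht2⟩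
    apply Subgroup.mem_centralizer_iff.mpr
    intro y hy
    have := hY₀ y hy t ⟨hCA ⟨ht1, ht2⟩, ht1⟩
    rwa [commutatorElement_eq_one_iff_mul_comm] at this)
  rw [eq_bot_iff]
  intro y hy
  exact Subgroup.mem_bot.mpr (eq_one_of_mem_both hTp hYc hy (hcent (hYT hy)))


/-- Balance: a `p'`-subgroup centralized by a `p`-element `f` and normalized by `C(f)` lies in
`O_{p'}`. -/
theorem balance {W : Type u} [Group W] [Finite W] [Group.IsSolvable W] (p : ℕ) [Fact p.Prime] {f : W}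
    (hf : IsPGroup p (Subgroup.zpowers f)) {U : Subgroup W} (hUc : (Nat.card U).Coprime p)
    (hUf : U ≤ Subgroup.centralizer ({f} : Set W))
    (hUn : Subgroup.centralizer ({f} : Set W) ≤ Subgroup.normalizer (U : Set W)) :
    U ≤ pPrimeCore p W := by
  set K := pPrimeCore p W with hK
  haveI hKn : K.Normal := inferInstance
  let π := QuotientGroup.mk' K
  have hπs : Function.Surjective π := QuotientGroup.mk'_surjective _
  have hker : ∀ x : W, x ∈ K ↔ π x = 1 := fun x => by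
    rw [← MonoidHom.mem_ker, QuotientGroup.ker_mk']
  have hO : pPrimeCore p (W ⧸ K) = ⊥ := H08.pPrimeCore_quotient_eq_bot p
  have hcent : Subgroup.centralizer (pCore p (W ⧸ K) : Set (W ⧸ K)) ≤ pCore p (W ⧸ K) :=
    H03.centralizer_pCore_le_of_isPSolvable (H06.isPSolvable_of_isSolvable p (W ⧸ K)) hO
  set T := pCore p (W ⧸ K) with hT
  haveI hTn : T.Normal := H01.pCore_normal p
  have hTp : IsPGroup p T := H01.pCore_isPGroup p
  have hTN : ∀ g : W ⧸ K, g ∈ Subgroup.normalizer (T : Set (W ⧸ K)) := fun g => by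
    rw [Subgroup.normalizer_eq_top_iff.mpr hTn]; trivial
  set Ut := U.map π with hUt
  have hUtc : (Nat.card Ut).Coprime p := Nat.Coprime.coprime_dvd_left (Subgroup.card_map_dvd _ _) hUc
  have hcop₁ : (Nat.card (Subgroup.zpowers f)).Coprime (Nat.card K) := by
    obtain ⟨n, hn⟩ := IsPGroup.iff_card.mp hf
    rw [hn]
    exact Nat.Coprime.pow_left _ (H06.coprime_card_pPrimeCore p).symm
  have hfN : Subgroup.zpowers f ≤ Subgroup.normalizer (K : Set W) := fun g _ => by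
    rw [Subgroup.normalizer_eq_top_iff.mpr hKn]; trivial
  have hPxQ := H01.thompson_PxQ p (Subgroup.zpowers (π f)) Ut T (hf.map π |> fun h => by
      have e : Subgroup.zpowers (π f) = (Subgroup.zpowers f).map π := (MonoidHom.map_zpowers π f).symm
      rw [e]; exact h) hUtc hTp
    (by
      rw [Subgroup.zpowers_le]
      apply Subgroup.mem_centralizer_iff.mpr
      rintro _ ⟨u, hu, rfl⟩
      have := Subgroup.mem_centralizer_singleton_iff.mp (hUf hu)
      rw [← map_mul, ← map_mul, this])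
    (fun g _ => hTN g) (fun g _ => hTN g)
    (by
      rintro t ⟨ht, htf⟩
      apply Subgroup.mem_centralizer_iff.mpr
      rintro _ ⟨u, hu, rfl⟩
      obtain ⟨t₀, rfl⟩ := hπs t
      have hft : π f * π t₀ = π t₀ * π f :=
        (Subgroup.mem_centralizer_iff.mp htf (π f) (Subgroup.mem_zpowers _))
      have hcomm : ∀ b ∈ Subgroup.zpowers f, t₀ * b * t₀⁻¹ * b⁻¹ ∈ K := by
        rintro _ ⟨n, rfl⟩
        rw [hker]
        have h1 : Commute (π t₀) (π (f ^ n)) := by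
          rw [map_zpow]
          exact (Commute.zpow_right (show Commute (π t₀) (π f) from hft.symm) n)
        simp only [map_mul, map_inv]
        rw [h1.eq]
        group
      obtain ⟨n, hn, hnt⟩ := H01.key_lemma' hfN hcop₁ (Or.inr inferInstance) hcomm
      set c := n * t₀ with hc
      have hπc : π c = π t₀ := by
        rw [hc, map_mul, (hker n).mp hn, one_mul]
      have hcf : c ∈ Subgroup.centralizer ({f} : Set W) := by
        apply Subgroup.mem_centralizer_singleton_iff.mpr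
        have h1 : ⁅c, f⁆ ∈ Subgroup.zpowers f :=
          comm_mem_of_norm' (Subgroup.mem_zpowers f) hnt
        have h2 : ⁅c, f⁆ ∈ K := by
          rw [hker, map_commutatorElement, hπc, commutatorElement_eq_one_iff_mul_comm]
          exact hft.symm
        have h3 := eq_one_of_mem_both hf (H06.coprime_card_pPrimeCore p) h2 h1
        rwa [commutatorElement_eq_one_iff_mul_comm] at h3
      have h4 : ⁅u, c⁆ ∈ U := comm_mem_of_norm hu (hUn hcf)
      have h5 : ⁅π u, π t₀⁆ ∈ Ut := by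
        rw [← hπc, ← map_commutatorElement]
        exact ⟨_, h4, rfl⟩
      have h6 : ⁅π u, π t₀⁆ ∈ T := comm_mem_of_norm' ht (hTN _)
      have h7 := eq_one_of_mem_both hTp hUtc h5 h6
      rwa [commutatorElement_eq_one_iff_mul_comm] at h7)
  intro u hu
  have h1 : π u ∈ Ut := ⟨u, hu, rfl⟩
  have h2 := eq_one_of_mem_both hTp hUtc h1 (hcent (hPxQ h1))
  exact (hker u).mpr h2

end Cfsg.Agent.H26.BG
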