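import Mathlib
import Cfsg.Agent.Lib.H01.Coprime4
import Cfsg.Agent.Lib.H06.Nilp
import Cfsg.Agent.Lib.H06.Meta

/-! The Baer correspondence in class two and odd exponent, used for fixed points on quotients:
a `p'`-group of automorphisms normalized by `A` splits `D → D/C`. -/

set_option autoImplicit false
set_option linter.style.haveILetI false
set_option linter.unusedVariables false
set_option linter.unusedSectionVars false
set_option linter.unusedSimpArgs false

namespace Cfsg.Agent.H26.BaerFix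

open scoped commutatorElement

section Additive

/-- Splitting off the fixed points in the additive setting. -/
theorem additive_fix {L W ι : Type*} [AddCommGroup L] [Group W] [Fintype W] {p : ℕ} (hp1 : 1 < p)
    (hpL : ∀ x : L, p • x = 0) (hn : (Fintype.card W).Coprime p)
    (τ : W → L → L) (τadd : ∀ w x y, τ w (x + y) = τ w x + τ w y)
    (τmul : ∀ w w' y, τ (w * w') y = τ w (τ w' y))
    (C : AddSubgroup L) (hC : ∀ w, ∀ c ∈ C, τ w c = c) (hCW : ∀ y, (∀ w, τ w y = y) → y ∈ C)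
    (α : ι → L → L) (αadd : ∀ i x y, α i (x + y) = α i x + α i y)
    (e : ι → W ≃ W) (hαW : ∀ i w y, α i (τ w y) = τ (e i w) (α i y))
    (x : L) (hx : ∀ i, ∃ c ∈ C, α i x = x + c) : ∃ c ∈ C, ∀ i, α i (x + c) = x + c := by
  classical
  let τh : W → L →+ L := fun w => AddMonoidHom.mk' (τ w) (τadd w)
  let αh : ι → L →+ L := fun i => AddMonoidHom.mk' (α i) (αadd i)
  let P : L →+ L := ∑ w : W, τh w
  have hP : ∀ y, P y = ∑ w : W, τ w y := by
    intro y
    simp only [P, AddMonoidHom.finsetSum_apply]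
    rfl
  have hPfix : ∀ (w₀ : W) (y : L), τ w₀ (P y) = P y := by
    intro w₀ y
    have h1 : τ w₀ (P y) = τh w₀ (P y) := rfl
    rw [h1, hP, map_sum]
    simp only [τh, AddMonoidHom.mk'_apply, ← τmul]
    exact Equiv.sum_comp (Equiv.mulLeft w₀) (fun w => τ w y)
  have hPC : ∀ y, P y ∈ C := fun y => hCW _ (fun w => hPfix w y)
  set n := Fintype.card W with hndef
  have hPc : ∀ c ∈ C, P c = n • c := by
    intro c hc
    rw [hP]
    simp only [hC _ c hc, Finset.sum_const, Finset.card_univ, hndef]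
  have hPα : ∀ i y, α i (P y) = P (α i y) := by
    intro i y
    have h1 : α i (P y) = αh i (P y) := rfl
    rw [h1, hP, map_sum, hP]
    simp only [αh, AddMonoidHom.mk'_apply, hαW]
    exact Equiv.sum_comp (e i) (fun w => τ w (α i y))
  obtain ⟨n', -, hn'⟩ := Nat.exists_mul_mod_eq_one_of_coprime hn hp1
  have hnn : ∀ y : L, (n * n') • y = y := by
    intro y
    have h1 : n * n' = p * (n * n' / p) + 1 := by
      have := Nat.div_add_mod (n * n') p
      omega
    rw [h1, add_smul, mul_comm p, mul_smul, hpL, smul_zero, zero_add, one_smul]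
  have hnn' : ∀ y : L, n' • (n • y) = y := by
    intro y
    rw [← mul_smul, mul_comm, hnn]
  have hnn'' : ∀ y : L, n • (n' • y) = y := by
    intro y
    rw [← mul_smul, hnn]
  let c₀ : L := - (n' • P x)
  have hc₀ : c₀ ∈ C := C.neg_mem (C.nsmul_mem (hPC x) n')
  have hPx' : P (x + c₀) = 0 := by
    rw [map_add, hPc _ hc₀]
    simp only [c₀, smul_neg, hnn'', add_neg_cancel]
  have hαc₀ : ∀ i, α i c₀ ∈ C := by
    intro i
    have h1 : α i c₀ = αh i c₀ := rfl
    have h2 : αh i c₀ = - (n' • αh i (P x)) := by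
      simp only [c₀, map_neg, map_nsmul]
    rw [h1, h2]
    apply C.neg_mem
    apply C.nsmul_mem
    change α i (P x) ∈ C
    rw [hPα]
    exact hPC _
  refine ⟨c₀, hc₀, ?_⟩
  intro i
  obtain ⟨c, hc, hci⟩ := hx i
  let c₁ : L := c + α i c₀ - c₀
  have hc₁ : c₁ ∈ C := C.sub_mem (C.add_mem hc (hαc₀ i)) hc₀
  have h1 : α i (x + c₀) = (x + c₀) + c₁ := by
    rw [αadd, hci]
    simp only [c₁]
    abel
  have h2 : P (α i (x + c₀)) = 0 := by
    rw [← hPα, hPx']
    have : α i 0 = αh i 0 := rfl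
    rw [this, map_zero]
  rw [h1, map_add, hPx', zero_add, hPc _ hc₁] at h2
  have h3 : c₁ = 0 := by
    rw [← hnn' c₁, h2, smul_zero]
  rw [h1, h3, add_zero]

end Additive

section Baer

variable {D : Type*} [Group D]

theorem comm_mul_left (hc : ∀ x y z : D, ⁅x, y⁆ * z = z * ⁅x, y⁆) (x y z : D) :
    ⁅x * y, z⁆ = ⁅x, z⁆ * ⁅y, z⁆ := by
  have h1 : ⁅y, z⁆ * (x * z * x⁻¹ * z⁻¹) = (x * z * x⁻¹ * z⁻¹) * ⁅y, z⁆ := hc _ _ _
  have h2 : x * ⁅y, z⁆ = ⁅y, z⁆ * x := (hc _ _ _).symm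
  calc ⁅x * y, z⁆ = x * (y * z * y⁻¹ * z⁻¹) * z * x⁻¹ * z⁻¹ := by
        simp only [commutatorElement_def]
        group
    _ = (x * ⁅y, z⁆) * z * x⁻¹ * z⁻¹ := by rw [commutatorElement_def]
    _ = ⁅y, z⁆ * (x * z * x⁻¹ * z⁻¹) := by rw [h2]; group
    _ = ⁅x, z⁆ * ⁅y, z⁆ := by rw [h1]; rfl

theorem comm_mul_right (hc : ∀ x y z : D, ⁅x, y⁆ * z = z * ⁅x, y⁆) (x y z : D) :
    ⁅x, y * z⁆ = ⁅x, y⁆ * ⁅x, z⁆ := by
  rw [← commutatorElement_inv (y * z) x, comm_mul_left hc, mul_inv_rev, commutatorElement_inv,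
    commutatorElement_inv]
  exact hc _ _ _

/-- The Baer sum. -/
@[reducible] def baerGroup (h : ℕ) (c2 : ∀ c : D, (∃ x y : D, c = ⁅x, y⁆) → c ^ (2 * h) = c)
    (hc : ∀ x y z : D, ⁅x, y⁆ * z = z * ⁅x, y⁆) : AddCommGroup D :=
  letI iA : Add D := ⟨fun x y => x * y * ⁅y, x⁆ ^ h⟩
  letI iZ : Zero D := ⟨1⟩
  letI iN : Neg D := ⟨fun x => x⁻¹⟩
  { AddGroup.ofLeftAxioms (by
      intro x y z
      change x * y * ⁅y, x⁆ ^ h * z * ⁅z, x * y * ⁅y, x⁆ ^ h⁆ ^ h =
        x * (y * z * ⁅z, y⁆ ^ h) * ⁅y * z * ⁅z, y⁆ ^ h, x⁆ ^ h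
      have hcp : ∀ (a b : D) (t : D), ⁅a, b⁆ ^ h * t = t * ⁅a, b⁆ ^ h := fun a b t =>
        (Commute.pow_left (show Commute ⁅a, b⁆ t from hc a b t) h).eq
      have e1 : ⁅z, x * y * ⁅y, x⁆ ^ h⁆ = ⁅z, x⁆ * ⁅z, y⁆ := by
        have h0 : ⁅z, ⁅y, x⁆ ^ h⁆ = 1 := by
          rw [commutatorElement_def, ← hcp y x z]
          group
        rw [comm_mul_right hc, comm_mul_right hc, h0, mul_one]
      have e2 : ⁅y * z * ⁅z, y⁆ ^ h, x⁆ = ⁅y, x⁆ * ⁅z, x⁆ := by
        have h0 : ⁅⁅z, y⁆ ^ h, x⁆ = 1 := by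
          rw [commutatorElement_def, hcp z y x]
          group
        rw [comm_mul_left hc, comm_mul_left hc, h0, mul_one]
      rw [e1, e2, (show Commute ⁅z, x⁆ ⁅z, y⁆ from hc _ _ _).mul_pow,
        (show Commute ⁅y, x⁆ ⁅z, x⁆ from hc _ _ _).mul_pow]
      calc x * y * ⁅y, x⁆ ^ h * z * (⁅z, x⁆ ^ h * ⁅z, y⁆ ^ h)
          = x * y * (⁅y, x⁆ ^ h * z) * (⁅z, x⁆ ^ h * ⁅z, y⁆ ^ h) := by group
        _ = x * y * z * (⁅y, x⁆ ^ h * (⁅z, x⁆ ^ h * ⁅z, y⁆ ^ h)) := by
            rw [hcp y x z]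
            group
        _ = x * y * z * (⁅z, y⁆ ^ h * (⁅y, x⁆ ^ h * ⁅z, x⁆ ^ h)) := by
            rw [hcp z y (⁅y, x⁆ ^ h * ⁅z, x⁆ ^ h)]
            group
        _ = x * (y * z * ⁅z, y⁆ ^ h) * (⁅y, x⁆ ^ h * ⁅z, x⁆ ^ h) := by group)
      (by
        intro y
        change 1 * y * ⁅y, 1⁆ ^ h = y
        simp)
      (by
        intro x
        change x⁻¹ * x * ⁅x, x⁻¹⁆ ^ h = 1
        have : ⁅x, x⁻¹⁆ = 1 := by
          rw [commutatorElement_def]
          group
        rw [this]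
        simp) with
    add_comm := by
      intro x y
      change x * y * ⁅y, x⁆ ^ h = y * x * ⁅x, y⁆ ^ h
      have h1 : ⁅y, x⁆ = ⁅x, y⁆⁻¹ := (commutatorElement_inv x y).symm
      have h2 : x * y = ⁅x, y⁆ * (y * x) := by
        rw [commutatorElement_def]
        group
      have h3 : ⁅x, y⁆ ^ h * ⁅x, y⁆ ^ h = ⁅x, y⁆ := by
        rw [← pow_add, ← two_mul]
        exact c2 _ ⟨x, y, rfl⟩
      have h4 : ⁅x, y⁆ * (y * x) = y * x * ⁅x, y⁆ := hc _ _ _
      rw [h1, h2, h4, inv_pow, mul_assoc]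
      congr 1
      nth_rewrite 1 [← h3]
      group }

theorem baer_add (h : ℕ) (c2 : ∀ c : D, (∃ x y : D, c = ⁅x, y⁆) → c ^ (2 * h) = c)
    (hc : ∀ x y z : D, ⁅x, y⁆ * z = z * ⁅x, y⁆) (x y : D) :
    (baerGroup h c2 hc).add x y = x * y * ⁅y, x⁆ ^ h := rfl

end Baer

section Fix

variable {X : Type*} [Group X] [Finite X] {p : ℕ} [hp : Fact p.Prime]

/-- Conjugation on a subgroup by an element of its normalizer. -/
def cD (D : Subgroup X) (g : X) (hg : g ∈ Subgroup.normalizer (D : Set X)) : ↥D →* ↥D where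
  toFun y := ⟨g * y * g⁻¹, (Subgroup.mem_normalizer_iff.mp hg y).mp y.2⟩
  map_one' := by
    apply Subtype.ext
    simp
  map_mul' x y := by
    apply Subtype.ext
    simp only [Subgroup.coe_mul]
    group

theorem cD_coe (D : Subgroup X) (g : X) (hg : g ∈ Subgroup.normalizer (D : Set X)) (y : ↥D) :
    ((cD D g hg y : ↥D) : X) = g * y * g⁻¹ := rfl

theorem baer_fix (hp2 : p ≠ 2) (D W A C : Subgroup X)
    (hDW : W ≤ Subgroup.normalizer (D : Set X)) (hDA : A ≤ Subgroup.normalizer (D : Set X))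
    (hAW : A ≤ Subgroup.normalizer (W : Set X)) (hCD : C ≤ D)
    (hCZ : ∀ c ∈ C, ∀ y ∈ D, c * y = y * c)
    (hDC : ∀ x ∈ D, ∀ y ∈ D, x * y * x⁻¹ * y⁻¹ ∈ C)
    (hexp : ∀ y ∈ D, y ^ p = 1)
    (hWc : ∀ w ∈ W, ∀ c ∈ C, w * c = c * w)
    (hCW : ∀ y ∈ D, (∀ w ∈ W, w * y = y * w) → y ∈ C)
    (hn : (Nat.card W).Coprime p)
    (x : X) (hx : x ∈ D) (hxA : ∀ a ∈ A, a * x * a⁻¹ * x⁻¹ ∈ C) :
    ∃ c ∈ C, ∀ a ∈ A, a * (x * c) * a⁻¹ = x * c := by
  classical
  have hpp : p.Prime := hp.out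
  obtain ⟨m, hm⟩ := hpp.odd_of_ne_two hp2
  have hcommC : ∀ y z : ↥D, ((⁅y, z⁆ : ↥D) : X) ∈ C := by
    intro y z
    exact hDC y.1 y.2 z.1 z.2
  have hcen : ∀ x y z : ↥D, ⁅x, y⁆ * z = z * ⁅x, y⁆ := fun x y z =>
    Subtype.ext (hCZ _ (hcommC x y) z.1 z.2)
  have hc2 : ∀ c : ↥D, (∃ x y : ↥D, c = ⁅x, y⁆) → c ^ (2 * (m + 1)) = c := by
    intro c _
    have e : 2 * (m + 1) = p + 1 := by omega
    rw [e, pow_succ]
    have : c ^ p = 1 := Subtype.ext (hexp c.1 c.2)
    rw [this, one_mul]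
  letI iB : AddCommGroup ↥D := baerGroup (m + 1) hc2 hcen
  have hadd : ∀ y z : ↥D, y + z = y * z * ⁅z, y⁆ ^ (m + 1) := fun _ _ => rfl
  have haddc : ∀ (y c : ↥D), c.1 ∈ C → y + c = y * c := by
    intro y c hc
    have h1 : ⁅c, y⁆ = 1 := by
      rw [commutatorElement_eq_one_iff_mul_comm]
      exact Subtype.ext (hCZ _ hc y.1 y.2)
    rw [hadd, h1, one_pow, mul_one]
  have hmap : ∀ (f : ↥D →* ↥D) (y z : ↥D), f (y + z) = f y + f z := by
    intro f y z
    rw [hadd, hadd, map_mul, map_mul, map_pow, map_commutatorElement]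
  let C' : AddSubgroup ↥D :=
    { carrier := {y | y.1 ∈ C}
      add_mem' := by
        intro y z hy hz
        change (y + z).1 ∈ C
        rw [haddc y z hz]
        exact C.mul_mem hy hz
      zero_mem' := C.one_mem
      neg_mem' := fun {y} hy => C.inv_mem hy }
  haveI : Fintype ↥W := Fintype.ofFinite _
  let τ : ↥W → ↥D → ↥D := fun w => cD D w.1 (hDW w.2)
  let α : ↥A → ↥D → ↥D := fun a => cD D a.1 (hDA a.2)
  let e : ↥A → ↥W ≃ ↥W := fun a =>
    { toFun := fun w => ⟨a.1 * w.1 * a.1⁻¹, (Subgroup.mem_normalizer_iff.mp (hAW a.2) w.1).mp w.2⟩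
      invFun := fun w => ⟨a.1⁻¹ * w.1 * a.1, by
        have := (Subgroup.mem_normalizer_iff.mp (hAW (A.inv_mem a.2)) w.1).mp w.2
        rwa [inv_inv] at this⟩
      left_inv := fun w => Subtype.ext (by simp [mul_assoc])
      right_inv := fun w => Subtype.ext (by simp [mul_assoc]) }
  have hsm : ∀ (n : ℕ) (y : ↥D), n • y = y ^ n := by
    intro n y
    induction n with
    | zero =>
      rw [zero_smul, pow_zero]
      rfl
    | succ n ih =>
      rw [succ_nsmul, ih, hadd]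
      have h1 : ⁅y, y ^ n⁆ = 1 := by
        rw [commutatorElement_eq_one_iff_mul_comm]
        exact ((Commute.refl y).pow_right n).eq
      rw [h1, one_pow, mul_one, pow_succ]
  have hpL : ∀ y : ↥D, p • y = 0 := by
    intro y
    rw [hsm]
    exact Subtype.ext (hexp y.1 y.2)
  have hn' : (Fintype.card ↥W).Coprime p := by
    rwa [← Nat.card_eq_fintype_card]
  obtain ⟨c, hc, hci⟩ := additive_fix hpp.one_lt hpL hn' τ (fun w y z => hmap _ y z)
    (fun w w' y => Subtype.ext (by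
      change ((w : X) * w') * y * ((w : X) * w')⁻¹ = w * (w' * y * (w' : X)⁻¹) * (w : X)⁻¹
      group))
    C' (fun w c hc => Subtype.ext (by
      change (w : X) * c * (w : X)⁻¹ = c
      rw [hWc _ w.2 _ hc]
      group))
    (fun y hy => hCW y.1 y.2 (fun w hw => by
      have h1 := congrArg Subtype.val (hy ⟨w, hw⟩)
      change w * y * w⁻¹ = y at h1
      exact mul_inv_eq_iff_eq_mul.mp h1))
    α (fun a y z => hmap _ y z) e
    (fun a w y => Subtype.ext (by
      change (a : X) * (w * y * (w : X)⁻¹) * (a : X)⁻¹ =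
        ((a : X) * (w : X) * (a : X)⁻¹) * ((a : X) * (y : X) * (a : X)⁻¹) * ((a : X) * (w : X) * (a : X)⁻¹)⁻¹
      group))
    ⟨x, hx⟩
    (fun a => ⟨⟨a.1 * x * a.1⁻¹ * x⁻¹, hCD (hxA a.1 a.2)⟩,
      hxA a.1 a.2, by
      rw [haddc _ _ (hxA a.1 a.2)]
      apply Subtype.ext
      change a.1 * x * a.1⁻¹ = x * (a.1 * x * a.1⁻¹ * x⁻¹)
      have h1 := hCZ _ (hxA a.1 a.2) x hx
      rw [← h1]
      group⟩)
  refine ⟨c.1, hc, ?_⟩
  intro a ha
  have h1 := congrArg Subtype.val (hci ⟨a, ha⟩)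
  rw [haddc _ _ hc] at h1
  exact h1

/-- A `p`-group acting on a nontrivial section has a fixed point. -/
theorem exists_fixed_coset (D C A : Subgroup X) (hD : IsPGroup p D) (hA : IsPGroup p A)
    (hCD : C ≤ D) (hne : C ≠ D) (hDC : D ≤ Subgroup.normalizer (C : Set X))
    (hAD : A ≤ Subgroup.normalizer (D : Set X)) (hAC : A ≤ Subgroup.normalizer (C : Set X)) :
    ∃ x ∈ D, x ∉ C ∧ ∀ a ∈ A, a * x * a⁻¹ * x⁻¹ ∈ C := by
  classical
  let R : Subgroup X := A ⊔ D
  have hR : IsPGroup p R := hA.to_sup_of_normal_right' hD hAD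
  have hDR : D ≤ R := le_sup_right
  have hCR : C ≤ R := hCD.trans hDR
  have hRN : R ≤ Subgroup.normalizer (C : Set X) := sup_le hAC hDC
  have hRD : R ≤ Subgroup.normalizer (D : Set X) := sup_le hAD Subgroup.le_normalizer
  haveI hC1 : (C.subgroupOf R).Normal := (Subgroup.normal_subgroupOf_iff_le_normalizer hCR).mpr hRN
  haveI hD1 : (D.subgroupOf R).Normal := (Subgroup.normal_subgroupOf_iff_le_normalizer hDR).mpr hRD
  have hQp : IsPGroup p (↥R ⧸ C.subgroupOf R) := hR.to_quotient _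
  haveI : Group.IsNilpotent (↥R ⧸ C.subgroupOf R) := hQp.isNilpotent
  let N : Subgroup (↥R ⧸ C.subgroupOf R) := (D.subgroupOf R).map (QuotientGroup.mk' _)
  have hNn : N.Normal := Subgroup.Normal.map hD1 _ (QuotientGroup.mk'_surjective _)
  have hNne : N ≠ ⊥ := by
    obtain ⟨y, hyD, hyC⟩ : ∃ y ∈ D, y ∉ C := by
      by_contra hcon
      push Not at hcon
      exact hne (le_antisymm hCD hcon)
    rw [Subgroup.ne_bot_iff_exists_ne_one]
    refine ⟨⟨((⟨y, hDR hyD⟩ : ↥R) : ↥R ⧸ C.subgroupOf R), ⟨⟨y, hDR hyD⟩, hyD, rfl⟩⟩, ?_⟩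
    intro h
    have h1 : ((⟨y, hDR hyD⟩ : ↥R) : ↥R ⧸ C.subgroupOf R) = 1 := congrArg Subtype.val h
    have h3 : (⟨y, hDR hyD⟩ : ↥R) ∈ C.subgroupOf R := (QuotientGroup.eq_one_iff _).mp h1
    exact hyC h3
  obtain ⟨z, hzN, hz1, hzc⟩ := Cfsg.Agent.H06.exists_central_of_normal hNn hNne
  obtain ⟨x, hxD, rfl⟩ := hzN
  refine ⟨x.1, hxD, ?_, ?_⟩
  · intro h
    exact hz1 ((QuotientGroup.eq_one_iff _).mpr h)
  · intro a ha
    let aa : ↥R := ⟨a, (le_sup_left : A ≤ R) ha⟩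
    have h1 := (Subgroup.mem_center_iff.mp hzc) (QuotientGroup.mk' _ aa)
    have h2 : QuotientGroup.mk' (C.subgroupOf R) (aa * x * aa⁻¹ * x⁻¹) = 1 := by
      rw [map_mul, map_mul, map_mul, h1, map_inv, map_inv]
      group
    have h3 : aa * x * aa⁻¹ * x⁻¹ ∈ C.subgroupOf R := (QuotientGroup.eq_one_iff _).mp h2
    exact h3

end Fix

section Main

variable {X : Type*} [Group X] [Finite X] {p : ℕ} [hp : Fact p.Prime]

/-- For odd `p`: a `p'`-group `W` normalized by `A` and normalizing a `p`-group `Q₀` centralizes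
`Q₀`, if all elements of order `p` of `C_{Q₀}(A)` lie in `A`. -/
theorem main_fix (hp2 : p ≠ 2) (A W Q₀ : Subgroup X) (hQ₀ : IsPGroup p Q₀)
    (hWc : (Nat.card W).Coprime p) (hWQ : W ≤ Subgroup.normalizer (Q₀ : Set X))
    (hAQ : A ≤ Subgroup.normalizer (Q₀ : Set X)) (hAW : A ≤ Subgroup.normalizer (W : Set X))
    (hAp : IsPGroup p A)
    (hΩ : ∀ x ∈ Q₀, x ∈ Subgroup.centralizer (A : Set X) → orderOf x = p → x ∈ A) :
    W ≤ Subgroup.centralizer (Q₀ : Set X) := by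
  classical
  have hpp : p.Prime := hp.out
  by_contra hcon
  let S : Set (Subgroup X) := {D | D ≤ Q₀ ∧ W ≤ Subgroup.normalizer (D : Set X) ∧
    A ≤ Subgroup.normalizer (D : Set X) ∧ ¬ W ≤ Subgroup.centralizer (D : Set X)}
  have hQS : Q₀ ∈ S := ⟨le_rfl, hWQ, hAQ, hcon⟩
  obtain ⟨D, hDmin⟩ := Set.Finite.exists_minimal (Set.toFinite S) ⟨Q₀, hQS⟩
  obtain ⟨hDQ, hDW, hDA, hDnot⟩ := hDmin.1
  have hmin : ∀ E : Subgroup X, E ≤ D → W ≤ Subgroup.normalizer (E : Set X) →
      A ≤ Subgroup.normalizer (E : Set X) → E ≠ D → W ≤ Subgroup.centralizer (E : Set X) := by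
    intro E hED hEW hEA hne
    by_contra hE
    exact hne (le_antisymm hED (hDmin.2 ⟨hED.trans hDQ, hEW, hEA, hE⟩ hED))
  have hDp : IsPGroup p D := hQ₀.to_le hDQ
  have hWsub : W ≤ Subgroup.normalizer (W : Set X) := Subgroup.le_normalizer
  have hcopWD : (Nat.card W).Coprime (Nat.card D) := by
    obtain ⟨k, hk⟩ := IsPGroup.iff_card.mp hDp
    rw [hk]
    exact Nat.Coprime.pow_right _ hWc
  haveI : Group.IsNilpotent ↥D := hDp.isNilpotent
  have hsolvD : Group.IsSolvable ↥D := inferInstance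
  -- `D = [D, W]`
  have hDeq : ⁅D, W⁆ = D := by
    by_contra hne
    have hle : ⁅D, W⁆ ≤ D := by
      rw [Subgroup.commutator_le]
      intro y hy w hw
      have h1 := (Subgroup.mem_normalizer_iff.mp (hDW hw) y⁻¹).mp (D.inv_mem hy)
      have e : ⁅y, w⁆ = y * (w * y⁻¹ * w⁻¹) := by
        rw [commutatorElement_def]
        group
      rw [e]
      exact D.mul_mem hy h1
    have h2 := hmin _ hle
      (fun w hw => Cfsg.Agent.H01.mem_normalizer_commutator (hDW hw) (hWsub hw))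
      (fun a ha => Cfsg.Agent.H01.mem_normalizer_commutator (hDA ha) (hAW ha)) hne
    have h3 := Cfsg.Agent.H01.commutator_commutator_eq hDW hcopWD (Or.inr hsolvD)
    have h4 : ⁅⁅D, W⁆, W⁆ = ⊥ := by
      rw [Subgroup.commutator_comm, Subgroup.commutator_eq_bot_iff_le_centralizer]
      exact h2
    rw [h4] at h3
    apply hDnot
    rw [← Subgroup.commutator_eq_bot_iff_le_centralizer, Subgroup.commutator_comm]
    exact h3.symm
  have hDeq' : ⁅W, D⁆ = D := by rw [Subgroup.commutator_comm, hDeq]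
  have hDne : D ≠ ⊥ := by
    intro h
    apply hDnot
    rw [h]
    intro w _
    rw [Subgroup.mem_centralizer_iff]
    intro y hy
    have : y = 1 := by simpa using hy
    simp [this]
  -- the centralizer
  let C : Subgroup X := D ⊓ Subgroup.centralizer (W : Set X)
  have hCD : C ≤ D := inf_le_left
  have hmemC : ∀ y, y ∈ C ↔ y ∈ D ∧ ∀ w ∈ W, w * y = y * w := by
    intro y
    constructor
    · rintro ⟨h1, h2⟩
      exact ⟨h1, fun w hw => Subgroup.mem_centralizer_iff.mp h2 w hw⟩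
    · rintro ⟨h1, h2⟩
      exact ⟨h1, Subgroup.mem_centralizer_iff.mpr h2⟩
  have hCne : C ≠ D := by
    intro h
    apply hDnot
    intro w hw
    rw [Subgroup.mem_centralizer_iff]
    intro y hy
    have h1 : y ∈ C := by rw [h]; exact hy
    exact (((hmemC y).mp h1).2 w hw).symm
  have hCN : ∀ g, g ∈ Subgroup.normalizer (W : Set X) → g ∈ Subgroup.normalizer (D : Set X) →
      g ∈ Subgroup.normalizer (C : Set X) := by
    intro g hg1 hg2
    rw [Subgroup.mem_normalizer_iff]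
    intro y
    rw [hmemC, hmemC, ← Subgroup.mem_normalizer_iff.mp hg2 y]
    constructor
    · rintro ⟨h1, h2⟩
      refine ⟨h1, fun w hw => ?_⟩
      have h3 : g⁻¹ * w * g ∈ W := by
        have := (Subgroup.mem_normalizer_iff.mp (Subgroup.inv_mem _ hg1) w).mp hw
        rwa [inv_inv] at this
      have h4 := h2 _ h3
      calc w * (g * y * g⁻¹) = g * ((g⁻¹ * w * g) * y) * g⁻¹ := by group
        _ = g * (y * (g⁻¹ * w * g)) * g⁻¹ := by rw [h4]
        _ = (g * y * g⁻¹) * w := by group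
    · rintro ⟨h1, h2⟩
      refine ⟨h1, fun w hw => ?_⟩
      have h3 := (Subgroup.mem_normalizer_iff.mp hg1 w).mp hw
      have h4 := h2 _ h3
      have h5 : g * (w * y) * g⁻¹ = g * (y * w) * g⁻¹ := by
        calc g * (w * y) * g⁻¹ = (g * w * g⁻¹) * (g * y * g⁻¹) := by group
          _ = (g * y * g⁻¹) * (g * w * g⁻¹) := h4
          _ = g * (y * w) * g⁻¹ := by group
      have h6 := mul_left_cancel (mul_right_cancel h5)
      exact h6
  have hCW : W ≤ Subgroup.normalizer (C : Set X) := fun w hw => hCN w (hWsub hw) (hDW hw)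
  have hCA : A ≤ Subgroup.normalizer (C : Set X) := fun a ha => hCN a (hAW ha) (hDA ha)
  have hWcC : ∀ w ∈ W, ∀ c ∈ C, w * c = c * w := fun w hw c hc => ((hmemC c).mp hc).2 w hw
  -- derived subgroup
  have hder : ⁅D, D⁆ ≤ C := by
    have hne : ⁅D, D⁆ ≠ D := by
      intro h
      haveI : Nontrivial ↥D := (Subgroup.nontrivial_iff_ne_bot D).mpr hDne
      have h1 := Group.IsSolvable.commutator_lt_top_of_nontrivial ↥D
      apply h1.ne
      rw [eq_top_iff]
      rintro ⟨y, hy⟩ -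
      have h2 : y ∈ ⁅D, D⁆ := by rw [h]; exact hy
      rw [← Subgroup.map_subtype_commutator] at h2
      obtain ⟨z, hz, hzy⟩ := h2
      have : z = ⟨y, hy⟩ := Subtype.ext hzy
      rwa [← this]
    have hle : ⁅D, D⁆ ≤ D := by
      rw [Subgroup.commutator_le]
      intro x hx y hy
      rw [commutatorElement_def]
      exact D.mul_mem (D.mul_mem (D.mul_mem hx hy) (D.inv_mem hx)) (D.inv_mem hy)
    have h2 := hmin _ hle
      (fun w hw => Cfsg.Agent.H01.mem_normalizer_commutator (hDW hw) (hDW hw))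
      (fun a ha => Cfsg.Agent.H01.mem_normalizer_commutator (hDA ha) (hDA ha)) hne
    intro y hy
    refine (hmemC y).mpr ⟨hle hy, fun w hw => ?_⟩
    exact Subgroup.mem_centralizer_iff.mp (h2 hw) y hy |>.symm
  have hcommC : ∀ x ∈ D, ∀ y ∈ D, x * y * x⁻¹ * y⁻¹ ∈ C := fun x hx y hy =>
    hder (Subgroup.commutator_mem_commutator hx hy)
  have hDCn : D ≤ Subgroup.normalizer (C : Set X) := by
    intro y hy
    rw [Subgroup.mem_normalizer_iff]
    intro c
    have key : ∀ y ∈ D, ∀ c ∈ C, y * c * y⁻¹ ∈ C := by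
      intro y hy c hc
      have h1 := hcommC y hy c (hCD hc)
      have h2 := C.mul_mem h1 hc
      simpa using h2
    constructor
    · exact key y hy c
    · intro h
      have := key y⁻¹ (D.inv_mem hy) _ h
      simpa [mul_assoc] using this
  -- `C` is central in `D`
  have hCZ : ∀ c ∈ C, ∀ y ∈ D, c * y = y * c := by
    intro c hc y hy
    have hle : ⁅W, D⁆ ≤ Subgroup.centralizer ({c} : Set X) := by
      rw [Subgroup.commutator_le]
      intro w hw y hy
      rw [Subgroup.mem_centralizer_iff]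
      intro c' hc'
      rw [Set.mem_singleton_iff] at hc'
      rw [hc']
      have h1 : y⁻¹ * c * y * c⁻¹ ∈ C := by
        have := hcommC y⁻¹ (D.inv_mem hy) c (hCD hc)
        simpa using this
      have h2 := hWcC w hw _ h1
      have hwc := hWcC w hw c hc
      have hwci : w * c⁻¹ = c⁻¹ * w := by
        have := hWcC w hw c⁻¹ (C.inv_mem hc)
        exact this
      set t := w * y * w⁻¹ with ht
      have h3 : t⁻¹ * c * t * c⁻¹ = y⁻¹ * c * y * c⁻¹ := by
        have e : t⁻¹ * c * t * c⁻¹ = w * (y⁻¹ * c * y * c⁻¹) * w⁻¹ := by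
          have e1 : c = w * c * w⁻¹ := by rw [hwc]; group
          calc t⁻¹ * c * t * c⁻¹ = t⁻¹ * (w * c * w⁻¹) * t * (w * c * w⁻¹)⁻¹ := by rw [← e1]
            _ = w * (y⁻¹ * c * y * c⁻¹) * w⁻¹ := by rw [ht]; group
        rw [e, h2]
        group
      have h4 : t⁻¹ * c * t = y⁻¹ * c * y := mul_right_cancel h3
      change c * ⁅w, y⁆ = ⁅w, y⁆ * c
      have e2 : ⁅w, y⁆ = t * y⁻¹ := by
        rw [commutatorElement_def, ht]
      rw [e2]
      calc c * (t * y⁻¹) = t * (t⁻¹ * c * t) * y⁻¹ := by group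
        _ = t * (y⁻¹ * c * y) * y⁻¹ := by rw [h4]
        _ = t * y⁻¹ * c := by group
    rw [hDeq'] at hle
    exact Subgroup.mem_centralizer_iff.mp (hle hy) c rfl
  -- `p`-th powers
  have hpowC : ∀ y ∈ D, y ^ p ∈ C := by
    let E : Subgroup X := Subgroup.closure ((fun y => y ^ p) '' (D : Set X))
    have hEle : E ≤ (frattini ↥D).map D.subtype := by
      rw [Subgroup.closure_le]
      rintro _ ⟨y, hy, rfl⟩
      exact ⟨(⟨y, hy⟩ : ↥D) ^ p, Cfsg.Agent.H01.pow_mem_frattini_of_isPGroup hDp ⟨y, hy⟩, by simp⟩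
    have hED : E ≤ D := hEle.trans (Subgroup.map_subtype_le _)
    have hEne : E ≠ D := by
      intro h
      have h1 : frattini ↥D = ⊤ := by
        rw [eq_top_iff]
        rintro y -
        have h2 : y.1 ∈ (frattini ↥D).map D.subtype := hEle (by rw [h]; exact y.2)
        obtain ⟨z, hz, hzy⟩ := h2
        have : z = y := Subtype.ext hzy
        rwa [← this]
      haveI : Nontrivial ↥D := (Subgroup.nontrivial_iff_ne_bot D).mpr hDne
      obtain ⟨M, hM⟩ : ∃ M : Subgroup ↥D, IsCoatom M := by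
        obtain h3 | ⟨M, hM, -⟩ := eq_top_or_exists_le_coatom (⊥ : Subgroup ↥D)
        · exact absurd h3 bot_ne_top
        · exact ⟨M, hM⟩
      have h4 := frattini_le_coatom hM
      rw [h1] at h4
      exact hM.1 (top_le_iff.mp h4)
    have hEN : ∀ g, g ∈ Subgroup.normalizer (D : Set X) → g ∈ Subgroup.normalizer (E : Set X) := by
      intro g hg
      rw [Subgroup.mem_normalizer_iff_map_conj_eq] at hg ⊢
      simp only [E]
      rw [MonoidHom.map_closure]
      congr 1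
      ext z
      constructor
      · rintro ⟨_, ⟨y, hy, rfl⟩, rfl⟩
        refine ⟨MulAut.conj g y, ?_, ?_⟩
        · rw [← hg]
          exact ⟨y, hy, rfl⟩
        · simp [map_pow]
      · rintro ⟨y, hy, rfl⟩
        rw [SetLike.mem_coe, ← hg] at hy
        obtain ⟨y', hy', rfl⟩ := hy
        exact ⟨y' ^ p, ⟨y', hy', rfl⟩, by simp [map_pow]⟩
    have h2 := hmin E hED (fun w hw => hEN w (hDW hw)) (fun a ha => hEN a (hDA ha)) hEne
    intro y hy
    have h3 : y ^ p ∈ E := Subgroup.subset_closure ⟨y, hy, rfl⟩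
    refine (hmemC _).mpr ⟨hED h3, fun w hw => ?_⟩
    exact (Subgroup.mem_centralizer_iff.mp (h2 hw) _ h3).symm
  -- exponent `p`
  have hcl : ∀ x y z : ↥D, ⁅x, y⁆ * z = z * ⁅x, y⁆ := fun x y z =>
    Subtype.ext (hCZ _ (hcommC x.1 x.2 y.1 y.2) z.1 z.2)
  have hcommpow : ∀ (n : ℕ) (y x : ↥D), ⁅y ^ n, x⁆ = ⁅y, x⁆ ^ n := by
    intro n y x
    induction n with
    | zero => simp
    | succ n ih => rw [pow_succ, comm_mul_left hcl, ih, pow_succ]
  have hcp : ∀ y x : ↥D, ⁅y, x⁆ ^ p = 1 := by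
    intro y x
    rw [← hcommpow, commutatorElement_eq_one_iff_mul_comm]
    exact Subtype.ext (hCZ _ (hpowC y.1 y.2) x.1 x.2)
  have hpowmul : ∀ x y : ↥D, (x * y) ^ p = x ^ p * y ^ p := by
    intro x y
    have hs : y * x = x * y * ⁅y⁻¹, x⁻¹⁆ := by
      rw [commutatorElement_def]
      group
    rw [Cfsg.Agent.H06.Meta.mul_pow_central (fun g => hcl _ _ g) hs p]
    obtain ⟨m, hm⟩ := hpp.odd_of_ne_two hp2
    have hch : p.choose 2 = p * m := by
      rw [Nat.choose_two_right]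
      have e : p - 1 = 2 * m := by omega
      rw [e, mul_comm 2 m, ← mul_assoc, Nat.mul_div_cancel _ (by norm_num)]
    rw [hch, pow_mul, hcp, one_pow, mul_one]
  have hexp : ∀ y ∈ D, y ^ p = 1 := by
    let Ω : Subgroup X :=
      { carrier := {z | ∃ h : z ∈ D, z ^ p = 1}
        mul_mem' := by
          rintro a b ⟨ha, ha'⟩ ⟨hb, hb'⟩
          refine ⟨D.mul_mem ha hb, ?_⟩
          have := congrArg Subtype.val (hpowmul ⟨a, ha⟩ ⟨b, hb⟩)
          simp only [Subgroup.coe_mul, SubgroupClass.coe_pow] at this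
          rw [this, ha', hb', one_mul]
        one_mem' := ⟨D.one_mem, one_pow p⟩
        inv_mem' := by
          rintro a ⟨ha, ha'⟩
          exact ⟨D.inv_mem ha, by rw [inv_pow, ha', inv_one]⟩ }
    have hle : ⁅W, D⁆ ≤ Ω := by
      rw [Subgroup.commutator_le]
      intro w hw y hy
      have ht : w * y * w⁻¹ ∈ D := (Subgroup.mem_normalizer_iff.mp (hDW hw) y).mp hy
      refine ⟨?_, ?_⟩
      · rw [commutatorElement_def]
        exact D.mul_mem ht (D.inv_mem hy)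
      · have h1 := congrArg Subtype.val (hpowmul ⟨w * y * w⁻¹, ht⟩ ⟨y⁻¹, D.inv_mem hy⟩)
        simp only [Subgroup.coe_mul, SubgroupClass.coe_pow] at h1
        rw [commutatorElement_def, h1, conj_pow, inv_pow, hWcC w hw _ (hpowC y hy)]
        group
    rw [hDeq'] at hle
    intro y hy
    obtain ⟨-, h⟩ := hle hy
    exact h
  obtain ⟨x, hxD, hxC, hxA⟩ := exists_fixed_coset D C A hDp hAp hCD hCne hDCn hDA hCA
  obtain ⟨c, hc, hfix⟩ := baer_fix hp2 D W A C hDW hDA hAW hCD hCZ hcommC hexp hWcC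
    (fun y hy h => (hmemC y).mpr ⟨hy, h⟩) hWc x hxD hxA
  have hx'D : x * c ∈ D := D.mul_mem hxD (hCD hc)
  have hx'C : x * c ∉ C := by
    intro h
    apply hxC
    have := C.mul_mem h (C.inv_mem hc)
    simpa using this
  have hx'cent : x * c ∈ Subgroup.centralizer (A : Set X) := by
    rw [Subgroup.mem_centralizer_iff]
    intro a ha
    exact mul_inv_eq_iff_eq_mul.mp (hfix a ha)
  have hord : orderOf (x * c) = p :=
    orderOf_eq_prime (hexp _ hx'D) (fun h => hx'C (by rw [h]; exact C.one_mem))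
  have hx'A : x * c ∈ A := hΩ _ (hDQ hx'D) hx'cent hord
  apply hx'C
  refine (hmemC _).mpr ⟨hx'D, fun w hw => ?_⟩
  have hdisj : Disjoint W D := Subgroup.disjoint_of_coprime_natCard hcopWD
  have h1 : w * (x * c) * w⁻¹ * (x * c)⁻¹ ∈ D :=
    D.mul_mem ((Subgroup.mem_normalizer_iff.mp (hDW hw) _).mp hx'D) (D.inv_mem hx'D)
  have h2 : w * (x * c) * w⁻¹ * (x * c)⁻¹ ∈ W := by
    have h3 := (Subgroup.mem_normalizer_iff.mp (hAW hx'A) _).mp (W.inv_mem hw)
    have h4 := W.mul_mem hw h3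
    have e : w * (x * c) * w⁻¹ * (x * c)⁻¹ = w * ((x * c) * w⁻¹ * (x * c)⁻¹) := by group
    rw [e]
    exact h4
  have h3 : w * (x * c) * w⁻¹ * (x * c)⁻¹ = 1 := by
    have := (Subgroup.disjoint_def.mp hdisj) h2 h1
    exact this
  have h4 : w * (x * c) * w⁻¹ = x * c := mul_inv_eq_one.mp h3
  exact mul_inv_eq_iff_eq_mul.mp h4

end Main

end Cfsg.Agent.H26.BaerFix
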