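import Cfsg.Agent.Lib.H26.FrobFree5
import Mathlib
set_option autoImplicit false
set_option linter.style.haveILetI false
set_option linter.unusedVariables false
set_option linter.unusedSectionVars false
set_option linter.unusedSimpArgs false

open Module

namespace Cfsg.Agent.H26.FrobFree

theorem free_fix_dim {k V E : Type*} [Field k] [AddCommGroup V] [Module k V]
    [FiniteDimensional k V] [Group E] [Fintype E]
    (σ : E →* (V →ₗ[k] V)) (hE : (Fintype.card E : k) ≠ 0) (W : Submodule k V)
    (h1 : (⨆ h, W.map (σ h)) = ⊤) (h2 : Nat.card E * finrank k W ≤ finrank k V)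
    (F : Submodule k V) (hF : ∀ v, v ∈ F ↔ ∀ h, σ h v = v) :
    finrank k V = Fintype.card E * finrank k F := by
  classical
  have hI := internal_of_dim σ W h1 h2
  have hd : finrank k V = ∑ h : E, finrank k (W.map (σ h)) := by
    rw [← (LinearEquiv.ofBijective (DirectSum.coeLinearMap fun h : E => W.map (σ h)) hI).finrank_eq,
      Module.finrank_directSum k]
  have hd2 : ∑ h : E, finrank k (W.map (σ h)) ≤ Fintype.card E * finrank k W := by
    refine le_trans (Finset.sum_le_sum (g := fun _ => finrank k W)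
      fun h _ => Submodule.finrank_map_le _ _) ?_
    simp
  have hd3 : finrank k V = Fintype.card E * finrank k W := by
    rw [Nat.card_eq_fintype_card] at h2
    omega
  let g : W →ₗ[k] V := ∑ h : E, (σ h) ∘ₗ W.subtype
  have hg : ∀ w : W, g w = ∑ h : E, σ h (w : V) := by
    intro w
    simp [g, LinearMap.sum_apply]
  have hginj : Function.Injective g := by
    rw [← LinearMap.ker_eq_bot, LinearMap.ker_eq_bot']
    intro w hw
    rw [hg] at hw
    have hind := hI.submodule_iSupIndep
    have hdis := hind 1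
    rw [Submodule.disjoint_def] at hdis
    have hw1 : (w : V) ∈ W.map (σ 1) := by
      refine ⟨w, w.2, ?_⟩
      simp
    have hw2 : (w : V) ∈ ⨆ (j : E) (_ : j ≠ 1), W.map (σ j) := by
      have hsplit : (w : V) = - ∑ h ∈ Finset.univ.erase (1 : E), σ h (w : V) := by
        have := Finset.add_sum_erase Finset.univ (fun h : E => σ h (w : V)) (Finset.mem_univ 1)
        rw [hw] at this
        simp only [map_one, Module.End.one_apply] at this
        exact eq_neg_of_add_eq_zero_left this
      rw [hsplit]
      refine neg_mem (Submodule.sum_mem _ ?_)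
      intro h hh
      refine Submodule.mem_iSup_of_mem h (Submodule.mem_iSup_of_mem (Finset.ne_of_mem_erase hh) ?_)
      exact Submodule.mem_map_of_mem w.2
    exact Subtype.ext (hdis _ hw1 hw2)
  have hrange : LinearMap.range g = F := by
    apply le_antisymm
    · rintro _ ⟨w, rfl⟩
      rw [hF]
      intro h'
      rw [hg, map_sum]
      refine Fintype.sum_equiv (Equiv.mulLeft h') _ _ ?_
      intro h
      simp [map_mul]
    · intro v hv
      have hP : ∀ x : V, (∑ h : E, σ h x) ∈ LinearMap.range g := by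
        intro x
        have hx : x ∈ ⨆ h, W.map (σ h) := by rw [h1]; trivial
        refine Submodule.iSup_induction _ (motive := fun x => (∑ h : E, σ h x) ∈ LinearMap.range g)
          hx ?_ ?_ ?_
        · rintro h₀ _ ⟨w, hw, rfl⟩
          refine ⟨⟨w, hw⟩, ?_⟩
          rw [hg]
          refine Fintype.sum_equiv (Equiv.mulRight h₀⁻¹) _ _ ?_
          intro h
          show σ h w = σ (h * h₀⁻¹) (σ h₀ w)
          rw [← Module.End.mul_apply, ← map_mul]
          simp
        · simp
        · intro a b ha hb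
          simp only [map_add, Finset.sum_add_distrib]
          exact add_mem ha hb
      have h3 := hP v
      have h4 : ∑ h : E, σ h v = (Fintype.card E : k) • v := by
        simp only [(hF v).mp hv, Finset.sum_const, Finset.card_univ, Nat.cast_smul_eq_nsmul]
      rw [h4] at h3
      have h5 := Submodule.smul_mem _ (Fintype.card E : k)⁻¹ h3
      rwa [smul_smul, inv_mul_cancel₀ hE, one_smul] at h5
  rw [hd3, ← hrange, LinearMap.finrank_range_of_inj hginj]

theorem dim_formula {k U E V : Type*} [Field k] [Group U] [Fintype U] [Group E] [Fintype E]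
    [AddCommGroup V] [Module k V] [FiniteDimensional k V]
    (α : E →* MulAut U) (hfpf : ∀ h, h ≠ 1 → ∀ f, α h f = f → f = 1) (hnil : Group.IsNilpotent U)
    (hU : (Fintype.card U : k) ≠ 0) (hE : (Fintype.card E : k) ≠ 0)
    (σ : E →* (V →ₗ[k] V)) (τ : U →* (V →ₗ[k] V))
    (hc : ∀ h f v, σ h (τ f v) = τ (α h f) (σ h v))
    (FU FE : Submodule k V) (hFU : ∀ v, v ∈ FU ↔ ∀ u, τ u v = v)
    (hFE : ∀ v, v ∈ FE ↔ ∀ e, σ e v = v) :
    Fintype.card E * finrank k ↥(FU ⊓ FE) + finrank k V =
      Fintype.card E * finrank k FE + finrank k FU := by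
  classical
  let c : k := (Fintype.card U : k)⁻¹
  let e : V →ₗ[k] V := c • ∑ u : U, τ u
  have hev : ∀ v, e v = c • ∑ u : U, τ u v := by
    intro v
    simp [e, LinearMap.sum_apply]
  have hsum : ∀ v, ∑ u : U, τ u v = (Fintype.card U : k) • e v := by
    intro v
    rw [hev, smul_smul, mul_inv_cancel₀ hU, one_smul]
  have he1 : ∀ v, e v ∈ FU := by
    intro v
    rw [hFU]
    intro u'
    rw [hev, map_smul, map_sum]
    congr 1
    refine Fintype.sum_equiv (Equiv.mulLeft u') _ _ ?_
    intro u
    simp [map_mul]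
  have he2 : ∀ v ∈ FU, e v = v := by
    intro v hv
    rw [hev]
    simp only [(hFU v).mp hv, Finset.sum_const, Finset.card_univ]
    rw [← Nat.cast_smul_eq_nsmul k, smul_smul, inv_mul_cancel₀ hU, one_smul]
  have he3 : ∀ h v, σ h (e v) = e (σ h v) := by
    intro h v
    rw [hev, hev, map_smul, map_sum]
    congr 1
    simp only [hc]
    exact Fintype.sum_equiv (α h).toEquiv _ _ (fun u => rfl)
  have he4 : ∀ u v, e (τ u v) = e v := by
    intro u v
    rw [hev, hev]
    congr 1
    refine Fintype.sum_equiv (Equiv.mulRight u) _ _ ?_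
    intro u'
    simp [map_mul]
  have hidem : ∀ v, e (e v) = e v := fun v => he2 _ (he1 v)
  let V₁ : Submodule k V := LinearMap.ker e
  have hV₁σ : ∀ h, V₁ ≤ V₁.comap (σ h) := by
    intro h v hv
    show e (σ h v) = 0
    rw [← he3, show e v = 0 from hv, map_zero]
  have hV₁τ : ∀ u, V₁ ≤ V₁.comap (τ u) := by
    intro u v hv
    show e (τ u v) = 0
    rw [he4]
    exact hv
  let σ₁ : E →* (V₁ →ₗ[k] V₁) := Representation.subrepresentation σ V₁ hV₁σ
  let τ₁ : U →* (V₁ →ₗ[k] V₁) := Representation.subrepresentation τ V₁ hV₁τ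
  obtain ⟨W, hW1, hW2⟩ := core α hfpf hnil hU (finrank k V₁) V₁ σ₁ τ₁
    (by
      intro h f v
      apply Subtype.ext
      exact hc h f v)
    (by
      intro v
      apply Subtype.ext
      rw [AddSubmonoidClass.coe_finsetSum]
      have h0 : e (v : V) = 0 := v.2
      have := hsum (v : V)
      rw [h0, smul_zero] at this
      exact this) rfl
  let F₁ : Submodule k V₁ := (FE ⊓ V₁).comap V₁.subtype
  have hF₁ : ∀ v, v ∈ F₁ ↔ ∀ h, σ₁ h v = v := by
    intro v
    constructor
    · intro hv h
      apply Subtype.ext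
      exact (hFE v).mp hv.1 h
    · intro hv
      refine ⟨(hFE v).mpr fun h => congrArg Subtype.val (hv h), v.2⟩
  have hfr1 := free_fix_dim σ₁ hE W hW1 hW2 F₁ hF₁
  have hfr2 : finrank k F₁ = finrank k ↥(FE ⊓ V₁) := by
    have hmap : F₁.map V₁.subtype = FE ⊓ V₁ := by
      apply le_antisymm
      · rintro _ ⟨x, hx, rfl⟩
        exact hx
      · intro x hx
        exact ⟨⟨x, hx.2⟩, hx, rfl⟩
    rw [← Submodule.finrank_map_subtype_eq V₁ F₁, hmap]
  have hrk : finrank k V = finrank k FU + finrank k V₁ := by
    have h1 := LinearMap.finrank_range_add_finrank_ker e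
    have h2 : LinearMap.range e = FU := by
      apply le_antisymm
      · rintro _ ⟨v, rfl⟩
        exact he1 v
      · intro v hv
        exact ⟨v, he2 v hv⟩
    rw [h2] at h1
    exact h1.symm
  have hsplit : finrank k FE = finrank k ↥(FU ⊓ FE) + finrank k ↥(FE ⊓ V₁) := by
    have h1 := Submodule.finrank_sup_add_finrank_inf_eq (FU ⊓ FE) (FE ⊓ V₁)
    have hsup : (FU ⊓ FE) ⊔ (FE ⊓ V₁) = FE := by
      apply le_antisymm
      · exact sup_le inf_le_right inf_le_left
      · intro v hv
        have hev' : e v ∈ FE := by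
          rw [hFE]
          intro h
          rw [he3, (hFE v).mp hv h]
        have h2 : e v ∈ FU ⊓ FE := ⟨he1 v, hev'⟩
        have h3 : v - e v ∈ FE ⊓ V₁ := by
          refine ⟨sub_mem hv hev', ?_⟩
          show e (v - e v) = 0
          rw [map_sub, hidem, sub_self]
        have h4 : e v + (v - e v) ∈ (FU ⊓ FE) ⊔ (FE ⊓ V₁) :=
          add_mem (Submodule.mem_sup_left h2) (Submodule.mem_sup_right h3)
        simpa using h4
    have hinf : (FU ⊓ FE) ⊓ (FE ⊓ V₁) = ⊥ := by
      rw [eq_bot_iff]
      intro v hv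
      have h2 : e v = v := he2 v hv.1.1
      have h3 : e v = 0 := hv.2.2
      rw [Submodule.mem_bot, ← h2, h3]
    rw [hsup, hinf, finrank_bot, add_zero] at h1
    exact h1
  rw [hrk, hfr1, hsplit, hfr2]
  ring

end Cfsg.Agent.H26.FrobFree
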