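import Cfsg.Agent.Lib.H26.FrobFree6
import Mathlib
set_option autoImplicit false
set_option linter.style.haveILetI false
set_option linter.unusedVariables false
set_option linter.unusedSectionVars false
set_option linter.unusedSimpArgs false

open Module

namespace Cfsg.Agent.H26.FrobFree

/-- Additive form of an automorphism. -/
noncomputable def linOf {Q : Type*} [CommGroup Q] (p : ℕ) [Module (ZMod p) (Additive Q)] :
    MulAut Q →* (Additive Q →ₗ[ZMod p] Additive Q) where
  toFun f := AddMonoidHom.toZModLinearMap p (MonoidHom.toAdditive f.toMonoidHom)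
  map_one' := LinearMap.ext fun x => rfl
  map_mul' a b := LinearMap.ext fun x => rfl

theorem card_formula_elem_aux {Q U E : Type*} [CommGroup Q] [Finite Q] [Group U] [Finite U]
    [Group E] [Finite E] (p : ℕ) [Fact p.Prime] [Module (ZMod p) (Additive Q)]
    (hU : ¬ p ∣ Nat.card U) (hE : ¬ p ∣ Nat.card E) (α : E →* MulAut U)
    (hfpf : ∀ h, h ≠ 1 → ∀ f, α h f = f → f = 1) (hnil : Group.IsNilpotent U)
    (σ : E →* MulAut Q) (τ : U →* MulAut Q)
    (hc : ∀ e u q, σ e (τ u q) = τ (α e u) (σ e q)) :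
    Nat.card {q : Q // (∀ u, τ u q = q) ∧ (∀ e, σ e q = q)} ^ Nat.card E * Nat.card Q =
      Nat.card {q : Q // ∀ e, σ e q = q} ^ Nat.card E * Nat.card {q : Q // ∀ u, τ u q = q} := by
  classical
  haveI := Fintype.ofFinite U
  haveI := Fintype.ofFinite E
  haveI : Finite (Additive Q) := inferInstanceAs (Finite Q)
  haveI : FiniteDimensional (ZMod p) (Additive Q) := Module.Finite.of_finite
  let lin : MulAut Q →* (Additive Q →ₗ[ZMod p] Additive Q) := linOf p
  have hlin : ∀ (f : MulAut Q) (x : Q), lin f (Additive.ofMul x) = Additive.ofMul (f x) :=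
    fun _ _ => rfl
  let σ' : E →* (Additive Q →ₗ[ZMod p] Additive Q) := lin.comp σ
  let τ' : U →* (Additive Q →ₗ[ZMod p] Additive Q) := lin.comp τ
  let FU : Submodule (ZMod p) (Additive Q) :=
    { carrier := {v | ∀ u, τ' u v = v}
      add_mem' := by
        intro a b ha hb u
        rw [map_add, ha u, hb u]
      zero_mem' := by
        intro u
        simp
      smul_mem' := by
        intro c x hx u
        rw [map_smul, hx u] }
  let FE : Submodule (ZMod p) (Additive Q) :=
    { carrier := {v | ∀ e, σ' e v = v}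
      add_mem' := by
        intro a b ha hb u
        rw [map_add, ha u, hb u]
      zero_mem' := by
        intro u
        simp
      smul_mem' := by
        intro c x hx u
        rw [map_smul, hx u] }
  have hcardU : ((Fintype.card U : ℕ) : ZMod p) ≠ 0 := by
    rw [Ne, ZMod.natCast_eq_zero_iff, ← Nat.card_eq_fintype_card]
    exact hU
  have hcardE : ((Fintype.card E : ℕ) : ZMod p) ≠ 0 := by
    rw [Ne, ZMod.natCast_eq_zero_iff, ← Nat.card_eq_fintype_card]
    exact hE
  have hform := dim_formula α hfpf hnil hcardU hcardE σ' τ'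
    (fun h f v => hc h f (Additive.toMul v)) FU FE (fun _ => Iff.rfl) (fun _ => Iff.rfl)
  have hpc : Nat.card (ZMod p) = p := by
    rw [Nat.card_eq_fintype_card, ZMod.card]
  have hc1 : Nat.card {q : Q // ∀ u, τ u q = q} = p ^ finrank (ZMod p) FU := by
    have hpw := Module.natCard_eq_pow_finrank (K := ZMod p) (V := FU)
    rw [hpc] at hpw
    rw [← hpw]
    refine Nat.card_congr ⟨fun q => ⟨Additive.ofMul q.1, fun u => congrArg Additive.ofMul (q.2 u)⟩,
      fun v => ⟨Additive.toMul v.1, fun u => congrArg Additive.toMul (v.2 u)⟩, fun _ => rfl,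
      fun _ => rfl⟩
  have hc2 : Nat.card {q : Q // ∀ e, σ e q = q} = p ^ finrank (ZMod p) FE := by
    have hpw := Module.natCard_eq_pow_finrank (K := ZMod p) (V := FE)
    rw [hpc] at hpw
    rw [← hpw]
    refine Nat.card_congr ⟨fun q => ⟨Additive.ofMul q.1, fun u => congrArg Additive.ofMul (q.2 u)⟩,
      fun v => ⟨Additive.toMul v.1, fun u => congrArg Additive.toMul (v.2 u)⟩, fun _ => rfl,
      fun _ => rfl⟩
  have hc3 : Nat.card {q : Q // (∀ u, τ u q = q) ∧ (∀ e, σ e q = q)} =
      p ^ finrank (ZMod p) ↥(FU ⊓ FE) := by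
    have hpw := Module.natCard_eq_pow_finrank (K := ZMod p) (V := ↥(FU ⊓ FE))
    rw [hpc] at hpw
    rw [← hpw]
    refine Nat.card_congr ⟨fun q => ⟨Additive.ofMul q.1,
      ⟨fun u => congrArg Additive.ofMul (q.2.1 u), fun u => congrArg Additive.ofMul (q.2.2 u)⟩⟩,
      fun v => ⟨Additive.toMul v.1, ⟨fun u => congrArg Additive.toMul (v.2.1 u),
        fun u => congrArg Additive.toMul (v.2.2 u)⟩⟩, fun _ => rfl, fun _ => rfl⟩
  have hc4 : Nat.card Q = p ^ finrank (ZMod p) (Additive Q) := by
    have hpw := Module.natCard_eq_pow_finrank (K := ZMod p) (V := Additive Q)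
    rw [hpc] at hpw
    rw [← hpw]
    rfl
  rw [hc1, hc2, hc3, hc4, Nat.card_eq_fintype_card (α := E), ← pow_mul, ← pow_add, ← pow_mul,
    ← pow_add, mul_comm (finrank (ZMod p) ↥(FU ⊓ FE)), mul_comm (finrank (ZMod p) FE), hform]

theorem card_formula_elem {Q U E : Type*} [CommGroup Q] [Finite Q] [Group U] [Finite U]
    [Group E] [Finite E] (p : ℕ) [Fact p.Prime] (hp : ∀ q : Q, q ^ p = 1)
    (hU : ¬ p ∣ Nat.card U) (hE : ¬ p ∣ Nat.card E) (α : E →* MulAut U)
    (hfpf : ∀ h, h ≠ 1 → ∀ f, α h f = f → f = 1) (hnil : Group.IsNilpotent U)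
    (σ : E →* MulAut Q) (τ : U →* MulAut Q)
    (hc : ∀ e u q, σ e (τ u q) = τ (α e u) (σ e q)) :
    Nat.card {q : Q // (∀ u, τ u q = q) ∧ (∀ e, σ e q = q)} ^ Nat.card E * Nat.card Q =
      Nat.card {q : Q // ∀ e, σ e q = q} ^ Nat.card E * Nat.card {q : Q // ∀ u, τ u q = q} := by
  letI : Module (ZMod p) (Additive Q) := AddCommGroup.zmodModule (n := p) (fun x => by
    show Additive.ofMul (Additive.toMul x ^ p) = 0
    rw [hp]
    rfl)
  exact card_formula_elem_aux p hU hE α hfpf hnil σ τ hc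

end Cfsg.Agent.H26.FrobFree
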