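import Cfsg.Agent.Lib.H26.GolayModData
import Cfsg.Agent.Lib.H27.GolayLists

/-!
# The permutation module of the Mathieu group on binary words: basic reductions

Words as masks; cosets of the code; the orbits of `M24` on the code.
-/

set_option autoImplicit false
set_option maxRecDepth 100000
set_option linter.unusedSimpArgs false
set_option linter.unusedVariables false

namespace Cfsg.Agent.H26.GolayMod

open Cfsg Cfsg.Agent.H27.Golay
open scoped Pointwise

/-- Words have order two. -/
theorem word_add_self (w : GolayPt → ZMod 2) : w + w = 0 := by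
  funext p
  have : ∀ a : ZMod 2, a + a = 0 := by decide
  exact this (w p)

theorem word_sub_eq_add (a b : GolayPt → ZMod 2) : a - b = a + b := by
  funext p
  have : ∀ a b : ZMod 2, a - b = a + b := by decide
  exact this (a p) (b p)

theorem word_neg_eq (a : GolayPt → ZMod 2) : -a = a := by
  funext p
  have : ∀ a : ZMod 2, -a = a := by decide
  exact this (a p)

/-- The all-ones word lies in the code. -/
theorem allOnes_mem : (fun _ => (1 : ZMod 2) : GolayPt → ZMod 2) ∈ golayCode :=
  Submodule.subset_span (Or.inr rfl)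

theorem pw_add (g : Equiv.Perm GolayPt) (a b : GolayPt → ZMod 2) :
    pw g (a + b) = pw g a + pw g b := rfl

theorem pw_sub (g : Equiv.Perm GolayPt) (a b : GolayPt → ZMod 2) :
    pw g (a - b) = pw g a - pw g b := rfl

theorem pw_mul (g h : Equiv.Perm GolayPt) (a : GolayPt → ZMod 2) :
    pw (g * h) a = pw g (pw h a) := by
  funext p
  simp [pw, mul_inv_rev]

theorem pw_one (a : GolayPt → ZMod 2) : pw 1 a = a := by
  funext p
  simp [pw]

theorem pw_inv_pw (g : Equiv.Perm GolayPt) (a : GolayPt → ZMod 2) : pw g⁻¹ (pw g a) = a := by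
  rw [← pw_mul, inv_mul_cancel, pw_one]

theorem pw_pw_inv (g : Equiv.Perm GolayPt) (a : GolayPt → ZMod 2) : pw g (pw g⁻¹ a) = a := by
  rw [← pw_mul, mul_inv_cancel, pw_one]

theorem pw_const (g : Equiv.Perm GolayPt) (c : ZMod 2) :
    pw g (fun _ => c) = fun _ => c := rfl

/-- Elements of `M24` preserve the code. -/
theorem pw_mem_code {g : Equiv.Perm GolayPt} (hg : g ∈ M24) {w : GolayPt → ZMod 2}
    (hw : w ∈ golayCode) : pw g w ∈ golayCode := by
  have h1 : support₂ w ∈ supports (golayCode : Set (GolayPt → ZMod 2)) := ⟨w, hw, rfl⟩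
  have h2 := smul_mem_supports hg h1
  rw [← support_pw, mem_supports_iff, ← wd_mem_iff (maskOf_lt _), wd_support] at h2
  exact h2

theorem pw_mem_code_iff {g : Equiv.Perm GolayPt} (hg : g ∈ M24) {w : GolayPt → ZMod 2} :
    pw g w ∈ golayCode ↔ w ∈ golayCode := by
  constructor
  · intro h
    have := pw_mem_code (M24.inv_mem hg) h
    rwa [pw_inv_pw] at this
  · exact pw_mem_code hg

/-- Every word is a code word plus a word supported on the high twelve coordinates. -/
theorem exists_decomp (m : ℕ) (hm : m < 2 ^ 24) :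
    ∃ c < 4096, ∃ s < 4096, m = cw c ^^^ (s <<< 12) := by
  refine ⟨m % 4096, Nat.mod_lt _ (by norm_num), (m ^^^ cw (m % 4096)) >>> 12, ?_, ?_⟩
  · rw [Nat.shiftRight_eq_div_pow]
    have h1 : m ^^^ cw (m % 4096) < 2 ^ 24 := Nat.xor_lt_two_pow hm (cw_lt _)
    omega
  · have hlow : (m ^^^ cw (m % 4096)) % 2 ^ 12 = 0 := by
      rw [Nat.xor_mod_two_pow]
      have h2 : cw (m % 4096) % 2 ^ 12 = m % 4096 := cw_low _ (Nat.mod_lt _ (by norm_num))
      rw [h2, show m % 2 ^ 12 = m % 4096 by norm_num, Nat.xor_self]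
    have h3 : ((m ^^^ cw (m % 4096)) >>> 12) <<< 12 = m ^^^ cw (m % 4096) := by
      rw [Nat.shiftRight_eq_div_pow, Nat.shiftLeft_eq]
      have := Nat.div_add_mod (m ^^^ cw (m % 4096)) (2 ^ 12)
      rw [hlow] at this
      omega
    rw [h3]
    rw [← Nat.xor_assoc, Nat.xor_comm (cw _) m, Nat.xor_assoc, Nat.xor_self, Nat.xor_zero]

theorem wd_cw_mem {c : ℕ} (hc : c < 4096) : wd (cw c) ∈ golayCode := by
  rw [cw_eq_cwF c hc]
  exact wd_cwF_mem c

theorem am_eq_of_lt {π : ℕ} (hπ : isM24 π = true) (m : ℕ) :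
    pw (P π) (wd m) = wd (am π m) := pw_wd (isM24_permOK hπ) m

theorem shift_lt {s : ℕ} (hs : s < 4096) : s <<< 12 < 2 ^ 24 := by
  rw [Nat.shiftLeft_eq]
  omega

/-! ### A check for codeword stabilisers -/

theorem allL_of {f : ℕ → Bool} {l : List ℕ} (h : ∀ x ∈ l, f x = true) : allL f l = true := by
  induction l with
  | nil => rfl
  | cons a as ih =>
    show Bool.rec false (allL f as) (f a) = true
    rw [h a (List.mem_cons_self)]
    exact ih (fun x hx => h x (List.mem_cons_of_mem _ hx))

/-- The stabiliser of `u0` (generated by the elements of `G`) fixes no non-zero coset, by a check. -/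
def noFixedCoset (G : List ℕ) : Bool :=
  allBelow (fun s => Nat.beq s 0 ||
    !(allL (fun σ => inCode (am σ (s <<< 12) ^^^ (s <<< 12))) G)) 4096

theorem exists_moved (G : List ℕ) (hG : ∀ σ ∈ G, isM24 σ = true)
    (hc : noFixedCoset G = true) {w : GolayPt → ZMod 2} (hw : w ∉ golayCode) :
    ∃ σ ∈ G, pw (P σ) w - w ∉ golayCode := by
  by_contra hcon
  push Not at hcon
  obtain ⟨m, hm, rfl⟩ := exists_wd w
  obtain ⟨c, hc', s, hs, rfl⟩ := exists_decomp m hm
  rw [wd_xor] at hw
  have hcm := wd_cw_mem hc'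
  have hs0 : s ≠ 0 := by
    rintro rfl
    apply hw
    simpa [wd_zero] using hcm
  have h := allBelow_spec hc s hs
  simp only [Bool.or_eq_true, Bool.not_eq_true', Nat.beq_eq] at h
  rcases h with h | h
  · exact hs0 h
  · rw [allL_of] at h
    · cases h
    intro σ hσ
    have hσ' := hG σ hσ
    have h1 := hcon σ hσ
    rw [wd_xor, pw_add, am_eq_of_lt hσ', am_eq_of_lt hσ'] at h1
    have h2 : pw (P σ) (wd (cw c)) ∈ golayCode := pw_mem_code (P_mem_M24 hσ') hcm
    rw [am_eq_of_lt hσ'] at h2
    rw [← wd_mem_iff (Nat.xor_lt_two_pow (am_lt (isM24_permOK hσ') _) (shift_lt hs)), wd_xor]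
    have h3 := golayCode.sub_mem (golayCode.sub_mem h1 h2) hcm
    have h4 : wd (am σ (cw c)) + wd (am σ (s <<< 12)) - (wd (cw c) + wd (s <<< 12)) -
        wd (am σ (cw c)) - wd (cw c) = wd (am σ (s <<< 12)) + wd (s <<< 12) := by
      funext p
      simp only [Pi.sub_apply, Pi.add_apply]
      have : ∀ a b c d : ZMod 2, a + b - (c + d) - a - c = b + d := by decide
      exact this _ _ _ _
    rwa [h4] at h3

/-! ### Orbits on the code -/

/-- The dodecad of squares. -/
def D0 : ℕ := 340831

theorem dodecadT_ok : allL isM24 dodecadT = true := by decide +kernel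

theorem dodecadT_img : dodecadT.map (fun t => am t D0) = dodecadL := by decide +kernel

/-- `M24` is transitive on dodecads. -/
theorem exists_smul_D0 {o : Finset GolayPt} (ho : o ∈ dodecads) : ∃ g ∈ M24, g • fs D0 = o := by
  obtain ⟨m, hm, rfl⟩ := (mem_dodecads_iff_list o).1 ho
  rw [← dodecadT_img, List.mem_map] at hm
  obtain ⟨t, ht, rfl⟩ := hm
  have h := allL_spec dodecadT_ok t ht
  exact ⟨P t, P_mem_M24 h, (fs_am (isM24_permOK h) D0).symm⟩

theorem card_support_add_one (u : GolayPt → ZMod 2) :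
    (support₂ (u + fun _ => 1)).card = 24 - (support₂ u).card := by
  have h1 : support₂ (u + fun _ => 1) = (support₂ u)ᶜ := by
    ext p
    rw [Finset.mem_compl, mem_support₂, mem_support₂]
    simp only [Pi.add_apply]
    have : ∀ a : ZMod 2, a + 1 ≠ 0 ↔ ¬ a ≠ 0 := by decide
    exact this _
  rw [h1, Finset.card_compl]
  rfl

theorem word_eq_pw_of_smul {g : Equiv.Perm GolayPt} {m : ℕ} {u : GolayPt → ZMod 2}
    (h : g • fs m = support₂ u) : u = pw g (wd m) := by
  rw [← wd_support u, ← wd_support (pw g (wd m)), support_pw, support_wd, h]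

/-- The orbits of `M24` on code words. -/
theorem code_cases {u : GolayPt → ZMod 2} (hu : u ∈ golayCode) :
    u = 0 ∨ u = (fun _ => 1) ∨ (∃ h ∈ M24, u = pw h (wd O0)) ∨
      (∃ h ∈ M24, u = pw h (wd O0) + fun _ => 1) ∨ (∃ h ∈ M24, u = pw h (wd D0)) := by
  have hs : support₂ u ∈ supports (golayCode : Set (GolayPt → ZMod 2)) := ⟨u, hu, rfl⟩
  have hu1 : u + (fun _ => 1) ∈ golayCode := golayCode.add_mem hu allOnes_mem
  have hs1 : support₂ (u + fun _ => 1) ∈ supports (golayCode : Set (GolayPt → ZMod 2)) :=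
    ⟨_, hu1, rfl⟩
  have hc : (support₂ u).card ≤ 24 := by
    have := Finset.card_le_univ (support₂ u)
    simpa using this
  have eq0 : ∀ v : GolayPt → ZMod 2, support₂ v = ∅ → v = 0 := by
    intro v hv
    funext p
    by_contra hp
    have : p ∈ support₂ v := mem_support₂.2 hp
    rw [hv] at this
    cases this
  have hadd : ∀ v : GolayPt → ZMod 2, v + (fun _ => 1) + (fun _ => 1) = v := by
    intro v
    rw [add_assoc, word_add_self, add_zero]
  rcases supports_weights hs with h0 | ⟨h8, h4⟩
  · exact Or.inl (eq0 u h0)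
  · obtain ⟨k, hk⟩ := h4
    have hk' : k = 2 ∨ k = 3 ∨ k = 4 ∨ k = 5 ∨ k = 6 := by omega
    have h1c := card_support_add_one u
    rcases hk' with rfl | rfl | rfl | rfl | rfl
    · -- octad
      have ho : support₂ u ∈ octads := ⟨hs, by omega⟩
      obtain ⟨g, hg, h⟩ := exists_smul_O0 ho
      exact Or.inr (Or.inr (Or.inl ⟨g, hg, word_eq_pw_of_smul h⟩))
    · -- dodecad
      have ho : support₂ u ∈ dodecads := ⟨hs, by omega⟩
      obtain ⟨g, hg, h⟩ := exists_smul_D0 ho
      exact Or.inr (Or.inr (Or.inr (Or.inr ⟨g, hg, word_eq_pw_of_smul h⟩)))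
    · -- complement of an octad
      have ho : support₂ (u + fun _ => 1) ∈ octads := ⟨hs1, by omega⟩
      obtain ⟨g, hg, h⟩ := exists_smul_O0 ho
      refine Or.inr (Or.inr (Or.inr (Or.inl ⟨g, hg, ?_⟩)))
      rw [← word_eq_pw_of_smul h, hadd]
    · -- weight 20 does not occur
      exfalso
      rcases supports_weights hs1 with h0 | ⟨h8', _⟩
      · rw [h0] at h1c
        simp at h1c
        omega
      · omega
    · -- all ones
      right; left
      rcases supports_weights hs1 with h0 | ⟨h8', _⟩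
      · have := eq0 _ h0
        have h2 := hadd u
        rw [this, zero_add] at h2
        exact h2.symm
      · omega

end Cfsg.Agent.H26.GolayMod
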