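import Mathlib
import Cfsg.Agent.Lib.H26.GolayMod

/-!
# Basic facts on the lattice of the definitions

`leechSet` is closed under addition and negation, so it is the carrier of `leechLattice`;
the minimal squared length is `32`; squared lengths are multiples of `16`.
-/

set_option autoImplicit false
set_option linter.unusedSimpArgs false
set_option linter.unusedVariables false

namespace Cfsg.Agent.H26.Leech

open Cfsg Cfsg.Agent.H27.Golay Cfsg.Agent.H26.GolayMod

/-- The high bit of the residue modulo `4`. -/
def hiZ (a : ℤ) : ZMod 2 := if a % 4 = 2 ∨ a % 4 = 3 then 1 else 0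

/-- The word of high bits. -/
def hi (x : GolayPt → ℤ) : GolayPt → ZMod 2 := fun i => hiZ (x i)

theorem hiZ_add (a b : ℤ) : hiZ (a + b) = hiZ a + hiZ b + if a % 2 = 1 ∧ b % 2 = 1 then 1 else 0 := by
  have h1 : a % 4 = 0 ∨ a % 4 = 1 ∨ a % 4 = 2 ∨ a % 4 = 3 := by omega
  have h2 : b % 4 = 0 ∨ b % 4 = 1 ∨ b % 4 = 2 ∨ b % 4 = 3 := by omega
  unfold hiZ
  rcases h1 with h1 | h1 | h1 | h1 <;> rcases h2 with h2 | h2 | h2 | h2 <;>
  · have h3 : (a + b) % 4 = (a % 4 + b % 4) % 4 := by omega
    have h4 : a % 2 = (a % 4) % 2 := by omega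
    have h5 : b % 2 = (b % 4) % 2 := by omega
    rw [h3, h4, h5, h1, h2]
    decide

theorem hiZ_neg (a : ℤ) : hiZ (-a) = hiZ a + if a % 2 = 1 then 1 else 0 := by
  have h1 : a % 4 = 0 ∨ a % 4 = 1 ∨ a % 4 = 2 ∨ a % 4 = 3 := by omega
  unfold hiZ
  rcases h1 with h1 | h1 | h1 | h1
  all_goals
    have h3 : (-a) % 4 = (- (a % 4)) % 4 := by omega
    have h4 : a % 2 = (a % 4) % 2 := by omega
    rw [h3, h4, h1]
    decide

/-- The constant words lie in the code. -/
theorem const_mem (c : ZMod 2) : (fun _ => c : GolayPt → ZMod 2) ∈ golayCode := by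
  have : c = 0 ∨ c = 1 := by revert c; decide
  rcases this with rfl | rfl
  · exact golayCode.zero_mem
  · exact allOnes_mem

/-- The description of `leechSet` by the word of high bits. -/
theorem mem_leechSet_iff {x : GolayPt → ℤ} :
    x ∈ leechSet ↔ ∃ m : ℤ, (∀ i, x i ≡ m [ZMOD 2]) ∧ (∑ i, x i ≡ 4 * m [ZMOD 8]) ∧
      hi x ∈ golayCode := by
  constructor
  · rintro ⟨m, h1, h2, h3⟩
    refine ⟨m, h1, h2, ?_⟩
    have hpar : ∀ i, (x i) % 2 = m % 2 := h1
    obtain ⟨w, hw, hwe⟩ := h3 (if m % 2 = 0 then 2 else 3)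
    have : hi x = w := by
      funext i
      have hi1 : i ∈ support₂ w ↔ x i ≡ (if m % 2 = 0 then 2 else 3) [ZMOD 4] := by
        rw [hwe]
        simp
      have hi2 := hpar i
      have hw2 : w i ≠ 0 ↔ x i ≡ (if m % 2 = 0 then 2 else 3) [ZMOD 4] := by
        rw [← hi1, mem_support₂]
      have h01 : ∀ a : ZMod 2, a = 0 ∨ a = 1 := by decide
      show hiZ (x i) = w i
      unfold hiZ
      by_cases hm : m % 2 = 0
      · rw [if_pos hm] at hw2
        unfold Int.ModEq at hw2
        by_cases hx : x i % 4 = 2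
        · have : w i ≠ 0 := hw2.2 (by rw [hx]; rfl)
          rcases h01 (w i) with h | h
          · exact absurd h this
          · rw [h, if_pos (Or.inl hx)]
        · have : ¬ (w i ≠ 0) := fun h => hx (by have := hw2.1 h; omega)
          push Not at this
          rw [this, if_neg]
          omega
      · rw [if_neg hm] at hw2
        unfold Int.ModEq at hw2
        by_cases hx : x i % 4 = 3
        · have : w i ≠ 0 := hw2.2 (by rw [hx]; rfl)
          rcases h01 (w i) with h | h
          · exact absurd h this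
          · rw [h, if_pos (Or.inr hx)]
        · have : ¬ (w i ≠ 0) := fun h => hx (by have := hw2.1 h; omega)
          push Not at this
          rw [this, if_neg]
          omega
    rw [this]
    exact hw
  · rintro ⟨m, h1, h2, h3⟩
    refine ⟨m, h1, h2, fun k => ?_⟩
    have hpar : ∀ i, (x i) % 2 = m % 2 := h1
    have h01 : ∀ a : ZMod 2, a = 0 ∨ a = 1 := by decide
    -- the candidates
    by_cases hkm : k % 2 = m % 2
    · -- the set is the support of `hi x` or its complement
      have hk : k % 4 = 2 ∨ k % 4 = 3 ∨ k % 4 = 0 ∨ k % 4 = 1 := by omega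
      rcases hk with hk | hk | hk | hk
      · refine ⟨hi x, h3, ?_⟩
        ext i
        rw [mem_support₂]
        simp only [Finset.mem_filter, Finset.mem_univ, true_and, Int.ModEq, hk]
        have := hpar i
        show hiZ (x i) ≠ 0 ↔ _
        unfold hiZ
        constructor
        · intro h
          by_contra hne
          apply h
          rw [if_neg]
          omega
        · intro h
          rw [if_pos (by omega)]
          decide
      · refine ⟨hi x, h3, ?_⟩
        ext i
        rw [mem_support₂]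
        simp only [Finset.mem_filter, Finset.mem_univ, true_and, Int.ModEq, hk]
        have := hpar i
        show hiZ (x i) ≠ 0 ↔ _
        unfold hiZ
        constructor
        · intro h
          by_contra hne
          apply h
          rw [if_neg]
          omega
        · intro h
          rw [if_pos (by omega)]
          decide
      · refine ⟨hi x + fun _ => 1, golayCode.add_mem h3 allOnes_mem, ?_⟩
        ext i
        rw [mem_support₂]
        simp only [Finset.mem_filter, Finset.mem_univ, true_and, Int.ModEq, hk, Pi.add_apply]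
        have := hpar i
        show hiZ (x i) + 1 ≠ 0 ↔ _
        unfold hiZ
        constructor
        · intro h
          by_contra hne
          apply h
          rw [if_pos (by omega)]
          decide
        · intro h
          rw [if_neg (by omega)]
          decide
      · refine ⟨hi x + fun _ => 1, golayCode.add_mem h3 allOnes_mem, ?_⟩
        ext i
        rw [mem_support₂]
        simp only [Finset.mem_filter, Finset.mem_univ, true_and, Int.ModEq, hk, Pi.add_apply]
        have := hpar i
        show hiZ (x i) + 1 ≠ 0 ↔ _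
        unfold hiZ
        constructor
        · intro h
          by_contra hne
          apply h
          rw [if_pos (by omega)]
          decide
        · intro h
          rw [if_neg (by omega)]
          decide
    · -- the set is empty
      refine ⟨0, golayCode.zero_mem, ?_⟩
      ext i
      rw [mem_support₂]
      simp only [Finset.mem_filter, Finset.mem_univ, true_and, Int.ModEq, Pi.zero_apply, ne_eq,
        not_true_eq_false, false_iff]
      have := hpar i
      intro h
      have h' := (Finset.mem_filter.1 h).2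
      apply hkm
      omega

theorem leechSet_zero : (0 : GolayPt → ℤ) ∈ leechSet := by
  rw [mem_leechSet_iff]
  refine ⟨0, fun i => rfl, by simp, ?_⟩
  have : hi 0 = 0 := by
    funext i
    simp [hi, hiZ]
  rw [this]
  exact golayCode.zero_mem

theorem par_eq {x : GolayPt → ℤ} {m : ℤ} (h : ∀ i, x i ≡ m [ZMOD 2]) (i : GolayPt) :
    x i % 2 = m % 2 := h i

theorem leechSet_add {x y : GolayPt → ℤ} (hx : x ∈ leechSet) (hy : y ∈ leechSet) :
    x + y ∈ leechSet := by
  rw [mem_leechSet_iff] at hx hy ⊢
  obtain ⟨m, h1, h2, h3⟩ := hx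
  obtain ⟨n, h4, h5, h6⟩ := hy
  refine ⟨m + n, fun i => Int.ModEq.add (h1 i) (h4 i), ?_, ?_⟩
  · simp only [Pi.add_apply, Finset.sum_add_distrib]
    have := Int.ModEq.add h2 h5
    rwa [← mul_add] at this
  · have hw : hi (x + y) = hi x + hi y + fun _ => if m % 2 = 1 ∧ n % 2 = 1 then 1 else 0 := by
      funext i
      simp only [hi, Pi.add_apply]
      rw [hiZ_add, par_eq h1, par_eq h4]
    rw [hw]
    exact golayCode.add_mem (golayCode.add_mem h3 h6) (const_mem _)

theorem leechSet_neg {x : GolayPt → ℤ} (hx : x ∈ leechSet) : -x ∈ leechSet := by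
  rw [mem_leechSet_iff] at hx ⊢
  obtain ⟨m, h1, h2, h3⟩ := hx
  refine ⟨-m, fun i => Int.ModEq.neg (h1 i), ?_, ?_⟩
  · simp only [Pi.neg_apply, Finset.sum_neg_distrib]
    have := Int.ModEq.neg h2
    rwa [← mul_neg] at this
  · have hw : hi (-x) = hi x + fun _ => if m % 2 = 1 then 1 else 0 := by
      funext i
      simp only [hi, Pi.add_apply, Pi.neg_apply]
      rw [hiZ_neg, par_eq h1]
    rw [hw]
    exact golayCode.add_mem h3 (const_mem _)

/-- `leechSet` as a subgroup. -/
def leechSub : AddSubgroup (GolayPt → ℤ) where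
  carrier := leechSet
  add_mem' := leechSet_add
  zero_mem' := leechSet_zero
  neg_mem' := leechSet_neg

theorem mem_leechLattice_iff {x : GolayPt → ℤ} : x ∈ leechLattice ↔ x ∈ leechSet := by
  constructor
  · intro hx
    have : leechLattice ≤ leechSub := (AddSubgroup.closure_le _).2 fun y hy => hy
    exact this hx
  · exact fun hx => AddSubgroup.subset_closure hx

/-- Even or odd: the parity. -/
theorem even_or_odd {x : GolayPt → ℤ} (hx : x ∈ leechSet) :
    ((∀ i, x i % 2 = 0) ∧ (∑ i, x i) % 8 = 0 ∧ hi x ∈ golayCode) ∨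
      ((∀ i, x i % 2 = 1) ∧ (∑ i, x i) % 8 = 4 ∧ hi x ∈ golayCode) := by
  rw [mem_leechSet_iff] at hx
  obtain ⟨m, h1, h2, h3⟩ := hx
  have h4 : (∑ i, x i) % 8 = (4 * m) % 8 := h2
  rcases Int.emod_two_eq_zero_or_one m with hm | hm
  · left
    exact ⟨fun i => by rw [par_eq h1, hm], by omega, h3⟩
  · right
    exact ⟨fun i => by rw [par_eq h1, hm], by omega, h3⟩

/-- Cardinality of the set of points with high bit one. -/
theorem hi_weights {x : GolayPt → ℤ} (h : hi x ∈ golayCode) :
    support₂ (hi x) = ∅ ∨ (8 ≤ (support₂ (hi x)).card ∧ 4 ∣ (support₂ (hi x)).card) :=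
  supports_weights ⟨_, h, rfl⟩

theorem mem_support_hi {x : GolayPt → ℤ} {i : GolayPt} :
    i ∈ support₂ (hi x) ↔ x i % 4 = 2 ∨ x i % 4 = 3 := by
  rw [mem_support₂]
  show hiZ (x i) ≠ 0 ↔ _
  unfold hiZ
  by_cases h : x i % 4 = 2 ∨ x i % 4 = 3
  · simp [h]
  · simp [h]

theorem sqNorm_nonneg' (x : GolayPt → ℤ) : 0 ≤ sqNorm x :=
  Finset.sum_nonneg fun i _ => sq_nonneg _

/-- The minimal squared length. -/
theorem min_norm {x : GolayPt → ℤ} (hx : x ∈ leechLattice) (h0 : x ≠ 0) : 32 ≤ sqNorm x := by
  classical
  rw [mem_leechLattice_iff] at hx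
  rcases even_or_odd hx with ⟨h1, h2, h3⟩ | ⟨h1, h2, h3⟩
  · -- even vectors
    rcases hi_weights h3 with hw | ⟨h8, _⟩
    · -- all coordinates divisible by four
      have h4 : ∀ i, x i % 4 = 0 := by
        intro i
        have h5 : i ∉ support₂ (hi x) := by rw [hw]; simp
        rw [mem_support_hi] at h5
        have := h1 i
        omega
      choose y hy using fun i => Int.dvd_of_emod_eq_zero (h4 i)
      have hxy : x = fun i => 4 * y i := funext hy
      have hsum : (∑ i, y i) % 2 = 0 := by
        have : ∑ i, x i = 4 * ∑ i, y i := by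
          rw [Finset.mul_sum]
          exact Finset.sum_congr rfl fun i _ => hy i
        omega
      have hnorm : sqNorm x = 16 * ∑ i, y i ^ 2 := by
        unfold sqNorm
        rw [Finset.mul_sum]
        refine Finset.sum_congr rfl fun i _ => ?_
        rw [hy i]
        ring
      obtain ⟨i0, hi0⟩ : ∃ i, y i ≠ 0 := by
        by_contra hcon
        push Not at hcon
        apply h0
        funext i
        rw [hy i, hcon i]
        rfl
      have hsq : ∀ a : ℤ, (a ^ 2) % 2 = a % 2 := by
        intro a
        rcases Int.even_or_odd' a with ⟨c, rfl | rfl⟩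
        · have : (2 * c) ^ 2 = 2 * (2 * c ^ 2) := by ring
          rw [this]
          omega
        · have : (2 * c + 1) ^ 2 = 2 * (2 * c ^ 2 + 2 * c) + 1 := by ring
          rw [this]
          omega
      have hsq2 : (∑ i, y i ^ 2) % 2 = (∑ i, y i) % 2 := by
        rw [Finset.sum_int_mod, Finset.sum_int_mod (f := fun i => y i)]
        congr 1
        exact Finset.sum_congr rfl fun i _ => hsq _
      have hpos : 1 ≤ ∑ i, y i ^ 2 := by
        have h5 : y i0 ^ 2 ≤ ∑ i, y i ^ 2 :=
          Finset.single_le_sum (f := fun i => y i ^ 2) (fun i _ => sq_nonneg _) (Finset.mem_univ i0)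
        have h6 : 0 < y i0 ^ 2 := by positivity
        omega
      rw [hnorm]
      omega
    · -- at least eight coordinates of absolute value at least two
      have h4 : ∀ i ∈ support₂ (hi x), 4 ≤ x i ^ 2 := by
        intro i hi'
        rw [mem_support_hi] at hi'
        have h5 := h1 i
        have h6 : x i ≠ 0 := by
          intro h
          rw [h] at hi'
          omega
        have h7 : x i ≠ 1 ∧ x i ≠ -1 := by omega
        nlinarith [sq_nonneg (x i - 2), sq_nonneg (x i + 2), sq_abs (x i), abs_nonneg (x i),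
          (by
            have : 2 ≤ |x i| := by
              rcases abs_cases (x i) with ⟨h, _⟩ | ⟨h, _⟩ <;> omega
            exact this : 2 ≤ |x i|)]
      have h5 : ((support₂ (hi x)).card : ℤ) * 4 ≤ sqNorm x := by
        calc ((support₂ (hi x)).card : ℤ) * 4 = ∑ i ∈ support₂ (hi x), (4 : ℤ) := by
              simp [Finset.sum_const]
          _ ≤ ∑ i ∈ support₂ (hi x), x i ^ 2 := Finset.sum_le_sum h4
          _ ≤ sqNorm x := Finset.sum_le_sum_of_subset_of_nonneg (Finset.subset_univ _)
              (fun i _ _ => sq_nonneg _)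
      have : (8 : ℤ) ≤ (support₂ (hi x)).card := by exact_mod_cast h8
      omega
  · -- odd vectors
    by_contra hlt
    push Not at hlt
    have hodd : ∀ i, 1 ≤ x i ^ 2 := by
      intro i
      have h5 := h1 i
      have h6 : x i ≠ 0 := by
        intro h
        rw [h] at h5
        omega
      have : 0 < x i ^ 2 := by positivity
      omega
    have hsmall : ∀ i, x i = 1 ∨ x i = -1 := by
      intro i
      by_contra hcon
      push Not at hcon
      have h5 := h1 i
      have h6 : 9 ≤ x i ^ 2 := by
        have h7 : 3 ≤ |x i| := by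
          rcases abs_cases (x i) with ⟨h, _⟩ | ⟨h, _⟩ <;> omega
        nlinarith [sq_abs (x i), abs_nonneg (x i)]
      have h8 : sqNorm x = x i ^ 2 + ∑ j ∈ Finset.univ.erase i, x j ^ 2 := by
        exact (Finset.add_sum_erase _ (fun j => x j ^ 2) (Finset.mem_univ i)).symm
      have h9 : ∑ j ∈ Finset.univ.erase i, (1 : ℤ) ≤ ∑ j ∈ Finset.univ.erase i, x j ^ 2 :=
        Finset.sum_le_sum fun j _ => hodd j
      have h10 : ∑ j ∈ Finset.univ.erase i, (1 : ℤ) = 23 := by
        rw [Finset.sum_const, Finset.card_erase_of_mem (Finset.mem_univ i)]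
        rfl
      omega
    -- the sum is `24 - 2 t`
    have hsum : ∑ i, x i = 24 - 2 * ((support₂ (hi x)).card : ℤ) := by
      have h5 : ∀ i, x i = 1 - 2 * (if i ∈ support₂ (hi x) then 1 else 0) := by
        intro i
        rcases hsmall i with h | h
        · rw [if_neg (by rw [mem_support_hi, h]; norm_num), h]
          norm_num
        · rw [if_pos (by rw [mem_support_hi, h]; norm_num), h]
          norm_num
      rw [Finset.sum_congr rfl fun i _ => h5 i, Finset.sum_sub_distrib, ← Finset.mul_sum]
      simp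
    rcases hi_weights h3 with hw | ⟨h8, k, hk⟩
    · rw [hw, Finset.card_empty] at hsum
      rw [hsum] at h2
      norm_num at h2
    · rw [hk] at hsum
      rw [hsum] at h2
      push_cast at h2
      omega

/-- Squares modulo `16` of odd numbers. -/
theorem odd_sq (a : ℤ) (h : a % 4 = 1) : (a ^ 2) % 16 = ((a - 1) * 2 + 1) % 16 := by
  obtain ⟨c, rfl⟩ : ∃ c, a = 4 * c + 1 := ⟨a / 4, by omega⟩
  have : (4 * c + 1) ^ 2 = (4 * c + 1 - 1) * 2 + 1 + 16 * c ^ 2 := by ring
  rw [this]
  omega

theorem odd_sq' (a : ℤ) (h : a % 4 = 3) : (a ^ 2) % 16 = ((a + 1) * 2 + 1) % 16 := by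
  obtain ⟨c, rfl⟩ : ∃ c, a = 4 * c + 3 := ⟨a / 4, by omega⟩
  have : (4 * c + 3) ^ 2 = (4 * c + 3 + 1) * 2 + 1 + 16 * (c ^ 2 + c) := by ring
  rw [this]
  omega

/-- Squared lengths are multiples of `16`. -/
theorem norm_dvd {x : GolayPt → ℤ} (hx : x ∈ leechLattice) : (16 : ℤ) ∣ sqNorm x := by
  classical
  rw [mem_leechLattice_iff] at hx
  have hw : ∀ {x : GolayPt → ℤ}, hi x ∈ golayCode → (4 : ℤ) ∣ ((support₂ (hi x)).card : ℤ) := by
    intro x h
    rcases hi_weights h with hw | ⟨h8, k, hk⟩
    · rw [hw]
      simp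
    · rw [hk]
      exact ⟨k, by push_cast; ring⟩
  rcases even_or_odd hx with ⟨h1, h2, h3⟩ | ⟨h1, h2, h3⟩
  · have h4 : ∀ i, (x i ^ 2) % 16 = (4 * (if i ∈ support₂ (hi x) then 1 else 0)) % 16 := by
      intro i
      have h5 := h1 i
      by_cases h6 : x i % 4 = 2
      · obtain ⟨c, hc⟩ : ∃ c, x i = 4 * c + 2 := ⟨x i / 4, by omega⟩
        rw [if_pos (mem_support_hi.2 (Or.inl h6)), hc]
        have : (4 * c + 2) ^ 2 = 4 + 16 * (c ^ 2 + c) := by ring
        rw [this]
        omega
      · have h7 : x i % 4 = 0 := by omega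
        obtain ⟨c, hc⟩ : ∃ c, x i = 4 * c := ⟨x i / 4, by omega⟩
        rw [if_neg (by rw [mem_support_hi]; omega), hc]
        have : (4 * c) ^ 2 = 16 * c ^ 2 := by ring
        rw [this]
        omega
    have h5 : sqNorm x % 16 = (4 * ((support₂ (hi x)).card : ℤ)) % 16 := by
      unfold sqNorm
      rw [Finset.sum_int_mod, Finset.sum_congr rfl fun i _ => h4 i, ← Finset.sum_int_mod,
        ← Finset.mul_sum]
      simp
    obtain ⟨k, hk⟩ := hw h3
    rw [hk] at h5
    omega
  · -- odd vectors: squares in terms of coordinates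
    have h4 : ∀ i, (x i ^ 2) % 16 = (2 * x i - 1 + 4 * (if i ∈ support₂ (hi x) then 1 else 0)) % 16 := by
      intro i
      have h5 := h1 i
      by_cases h6 : x i % 4 = 3
      · rw [if_pos (mem_support_hi.2 (Or.inr h6)), odd_sq' _ h6]
        omega
      · have h7 : x i % 4 = 1 := by omega
        rw [if_neg (by rw [mem_support_hi]; omega), odd_sq _ h7]
        omega
    have h5 : sqNorm x % 16 = (2 * (∑ i, x i) - 24 + 4 * ((support₂ (hi x)).card : ℤ)) % 16 := by
      unfold sqNorm
      rw [Finset.sum_int_mod, Finset.sum_congr rfl fun i _ => h4 i, ← Finset.sum_int_mod,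
        Finset.sum_add_distrib, Finset.sum_sub_distrib, ← Finset.mul_sum, ← Finset.mul_sum]
      simp
    obtain ⟨k, hk⟩ := hw h3
    rw [hk] at h5
    omega

end Cfsg.Agent.H26.Leech
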