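import Cfsg.Prelude.Def_AxialAlgebras
import Mathlib

/-! Basic API for Majorana pairs: eigenspaces, fusion rules, decomposition. -/

set_option autoImplicit false
set_option linter.unusedSimpArgs false
set_option linter.unusedVariables false

namespace Cfsg.Agent.H26.Maj

open Cfsg.Axial

variable {V : Type*} [AddCommGroup V] [Module ℝ V]

theorem mem_eigen {mul : V →ₗ[ℝ] V →ₗ[ℝ] V} {a : V} {c : ℝ} {u : V} :
    u ∈ eigen mul a c ↔ mul a u = c • u := by
  show u ∈ Module.End.eigenspace (mul a) c ↔ _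
  rw [Module.End.mem_eigenspace_iff]

theorem eigenSum_singleton (mul : V →ₗ[ℝ] V →ₗ[ℝ] V) (a : V) (c : ℝ) :
    eigenSum mul a {c} = eigen mul a c := by
  show (⨆ d ∈ ({c} : Set ℝ), eigen mul a d) = _
  simp

theorem eigenSum_pair (mul : V →ₗ[ℝ] V →ₗ[ℝ] V) (a : V) (c d : ℝ) :
    eigenSum mul a {c, d} = eigen mul a c ⊔ eigen mul a d := by
  show (⨆ e ∈ ({c, d} : Set ℝ), eigen mul a e) = _
  rw [iSup_insert, iSup_singleton]

theorem eigenSum_triple (mul : V →ₗ[ℝ] V →ₗ[ℝ] V) (a : V) (c d e : ℝ) :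
    eigenSum mul a {c, d, e} = eigen mul a c ⊔ (eigen mul a d ⊔ eigen mul a e) := by
  show (⨆ f ∈ ({c, d, e} : Set ℝ), eigen mul a f) = _
  rw [iSup_insert, iSup_insert, iSup_singleton]

theorem eigenSum_quad (mul : V →ₗ[ℝ] V →ₗ[ℝ] V) (a : V) (c d e f : ℝ) :
    eigenSum mul a {c, d, e, f} = eigen mul a c ⊔ (eigen mul a d ⊔ (eigen mul a e ⊔ eigen mul a f)) := by
  show (⨆ g ∈ ({c, d, e, f} : Set ℝ), eigen mul a g) = _
  rw [iSup_insert, iSup_insert, iSup_insert, iSup_singleton]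

section Pair

variable {mul : V →ₗ[ℝ] V →ₗ[ℝ] V} {B : LinearMap.BilinForm ℝ V} {μ : V ≃ₗ[ℝ] V} {a : V}

theorem Pair_idem (h : IsMajoranaPair mul B μ a) : mul a a = a := h.2.2.1.1.2.1

theorem Pair_ne (h : IsMajoranaPair mul B μ a) : a ≠ 0 := h.2.2.1.1.1

theorem Pair_eig1 (h : IsMajoranaPair mul B μ a) : eigen mul a 1 = Submodule.span ℝ {a} := h.2.2.1.2

theorem Pair_mul (h : IsMajoranaPair mul B μ a) (u v : V) : μ (mul u v) = mul (μ u) (μ v) := h.1 u v

theorem Pair_form (h : IsMajoranaPair mul B μ a) (u v : V) : B (μ u) (μ v) = B u v := h.2.1 u v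

theorem Pair_neg (h : IsMajoranaPair mul B μ a) {v : V} (hv : v ∈ eigen mul a (1/32)) : μ v = -v :=
  h.2.2.2.2 v hv

theorem Pair_fix (h : IsMajoranaPair mul B μ a) {v : V} (hv : v ∈ eigenSum mul a {1, 0, 1/4}) : μ v = v :=
  h.2.2.2.1 v hv

/-- decomposition of a vector -/
theorem Pair_decomp (h : IsMajoranaPair mul B μ a) (v : V) :
    ∃ v₁ v₀ v₄ v₃₂ : V, v₁ ∈ eigen mul a 1 ∧ v₀ ∈ eigen mul a 0 ∧ v₄ ∈ eigen mul a (1/4) ∧
      v₃₂ ∈ eigen mul a (1/32) ∧ v = v₁ + v₀ + v₄ + v₃₂ := by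
  have htop : eigenSum mul a majoranaSpectrum = ⊤ := h.2.2.1.1.2.2.1
  have hv : v ∈ eigenSum mul a majoranaSpectrum := by rw [htop]; trivial
  have h2 : eigenSum mul a majoranaSpectrum = eigen mul a 1 ⊔ (eigen mul a 0 ⊔ (eigen mul a (1/4) ⊔ eigen mul a (1/32))) :=
    eigenSum_quad mul a 1 0 (1/4) (1/32)
  rw [h2] at hv
  obtain ⟨v₁, h₁, w, hw, rfl⟩ := Submodule.mem_sup.1 hv
  obtain ⟨v₀, h₀, w', hw', rfl⟩ := Submodule.mem_sup.1 hw
  obtain ⟨v₄, h₄, v₃₂, h₃₂, rfl⟩ := Submodule.mem_sup.1 hw'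
  exact ⟨v₁, v₀, v₄, v₃₂, h₁, h₀, h₄, h₃₂, by abel⟩

private theorem fusion_raw (h : IsMajoranaPair mul B μ a) {c d : ℝ} (hc : c ∈ majoranaSpectrum)
    (hd : d ∈ majoranaSpectrum) {u v : V} (hu : u ∈ eigen mul a c) (hv : v ∈ eigen mul a d) :
    mul u v ∈ eigenSum mul a (monsterLaw (1/4) (1/32) c d) :=
  h.2.2.1.1.2.2.2 c hc d hd u hu v hv

theorem mem_spec1 : (1 : ℝ) ∈ majoranaSpectrum := by simp [majoranaSpectrum]
theorem mem_spec0 : (0 : ℝ) ∈ majoranaSpectrum := by simp [majoranaSpectrum]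
theorem mem_spec4 : (1/4 : ℝ) ∈ majoranaSpectrum := by simp [majoranaSpectrum]
theorem mem_spec32 : (1/32 : ℝ) ∈ majoranaSpectrum := by simp [majoranaSpectrum]

theorem law_44 : monsterLaw (1/4 : ℝ) (1/32) (1/4) (1/4) = {1, 0} := by
  unfold monsterLaw
  rw [if_neg (by norm_num), if_neg (by norm_num), if_pos (by norm_num)]

theorem law_04 : monsterLaw (1/4 : ℝ) (1/32) 0 (1/4) = {1/4} := by
  unfold monsterLaw
  rw [if_neg (by norm_num), if_neg (by norm_num), if_neg (by norm_num), if_pos (by norm_num)]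

theorem law_00 : monsterLaw (1/4 : ℝ) (1/32) 0 0 = {0} := by
  unfold monsterLaw
  rw [if_neg (by norm_num), if_neg (by norm_num), if_neg (by norm_num), if_neg (by norm_num), if_pos rfl]

theorem law_3232 : monsterLaw (1/4 : ℝ) (1/32) (1/32) (1/32) = {1, 0, 1/4} := by
  unfold monsterLaw
  rw [if_pos (by norm_num)]

theorem law_0_32 : monsterLaw (1/4 : ℝ) (1/32) 0 (1/32) = {1/32} := by
  unfold monsterLaw
  rw [if_neg (by norm_num), if_pos (by norm_num)]

theorem law_4_32 : monsterLaw (1/4 : ℝ) (1/32) (1/4) (1/32) = {1/32} := by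
  unfold monsterLaw
  rw [if_neg (by norm_num), if_pos (by norm_num)]

theorem fusion_44 (h : IsMajoranaPair mul B μ a) {u v : V} (hu : u ∈ eigen mul a (1/4))
    (hv : v ∈ eigen mul a (1/4)) : mul u v ∈ eigen mul a 1 ⊔ eigen mul a 0 := by
  have := fusion_raw h mem_spec4 mem_spec4 hu hv
  rwa [law_44, eigenSum_pair] at this

theorem fusion_04 (h : IsMajoranaPair mul B μ a) {u v : V} (hu : u ∈ eigen mul a 0)
    (hv : v ∈ eigen mul a (1/4)) : mul u v ∈ eigen mul a (1/4) := by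
  have := fusion_raw h mem_spec0 mem_spec4 hu hv
  rwa [law_04, eigenSum_singleton] at this

theorem fusion_00 (h : IsMajoranaPair mul B μ a) {u v : V} (hu : u ∈ eigen mul a 0)
    (hv : v ∈ eigen mul a 0) : mul u v ∈ eigen mul a 0 := by
  have := fusion_raw h mem_spec0 mem_spec0 hu hv
  rwa [law_00, eigenSum_singleton] at this

theorem fusion_3232 (h : IsMajoranaPair mul B μ a) {u v : V} (hu : u ∈ eigen mul a (1/32))
    (hv : v ∈ eigen mul a (1/32)) : mul u v ∈ eigen mul a 1 ⊔ (eigen mul a 0 ⊔ eigen mul a (1/4)) := by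
  have := fusion_raw h mem_spec32 mem_spec32 hu hv
  rwa [law_3232, eigenSum_triple] at this

theorem fusion_0_32 (h : IsMajoranaPair mul B μ a) {u v : V} (hu : u ∈ eigen mul a 0)
    (hv : v ∈ eigen mul a (1/32)) : mul u v ∈ eigen mul a (1/32) := by
  have := fusion_raw h mem_spec0 mem_spec32 hu hv
  rwa [law_0_32, eigenSum_singleton] at this

theorem fusion_4_32 (h : IsMajoranaPair mul B μ a) {u v : V} (hu : u ∈ eigen mul a (1/4))
    (hv : v ∈ eigen mul a (1/32)) : mul u v ∈ eigen mul a (1/32) := by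
  have := fusion_raw h mem_spec4 mem_spec32 hu hv
  rwa [law_4_32, eigenSum_singleton] at this

/-- A vector in the 1/4-eigenspace and the sum of the 1- and 0-eigenspaces vanishes. -/
theorem inter_10_4 {w : V} (h1 : w ∈ eigen mul a 1 ⊔ eigen mul a 0) (h2 : w ∈ eigen mul a (1/4)) :
    w = 0 := by
  obtain ⟨w₁, hw₁, w₀, hw₀, rfl⟩ := Submodule.mem_sup.1 h1
  rw [mem_eigen] at hw₁ hw₀ h2
  rw [map_add, hw₁, hw₀] at h2
  have e : (4 : ℝ) • ((1 : ℝ) • w₁ + (0 : ℝ) • w₀) = w₁ + w₀ := by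
    rw [h2, smul_smul]; norm_num
  have e2 : (3 : ℝ) • w₁ = w₀ := by
    have : (4 : ℝ) • w₁ = w₁ + w₀ := by simpa using e
    have h4 : (4 : ℝ) • w₁ = (3 : ℝ) • w₁ + w₁ := by
      rw [show (4 : ℝ) = 3 + 1 by norm_num, add_smul, one_smul]
    rw [h4] at this
    rw [add_comm] at this
    exact add_left_cancel this
  -- apply a ∘
  have e3 : mul a ((3 : ℝ) • w₁) = mul a w₀ := by rw [e2]
  rw [map_smul, hw₁, hw₀, smul_smul] at e3
  have e4 : w₁ = 0 := by
    have : (3 * 1 : ℝ) • w₁ = 0 := by simpa using e3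
    have h3 : (3 * 1 : ℝ) ≠ 0 := by norm_num
    exact (smul_eq_zero.1 this).resolve_left h3
  subst e4
  simp only [smul_zero] at e2
  rw [← e2]; simp

end Pair

/-! ### Orthogonality of eigenspaces in the Majorana ambient setting -/

section Ambient

variable {mul : V →ₗ[ℝ] V →ₗ[ℝ] V} {B : LinearMap.BilinForm ℝ V}

theorem Amb_comm (h : IsMajoranaAmbient mul B) (u v : V) : mul u v = mul v u := h.1 u v

theorem Amb_symm (h : IsMajoranaAmbient mul B) (u v : V) : B u v = B v u := h.2.1 u v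

theorem Amb_pos (h : IsMajoranaAmbient mul B) {u : V} (hu : u ≠ 0) : 0 < B u u := h.2.2.1 u hu

theorem Amb_assoc (h : IsMajoranaAmbient mul B) (u v w : V) : B u (mul v w) = B (mul u v) w :=
  h.2.2.2.1 u v w

theorem Amb_norton (h : IsMajoranaAmbient mul B) (u v : V) :
    B (mul u v) (mul u v) ≤ B (mul u u) (mul v v) := h.2.2.2.2 u v

/-- `a ∘` is self-adjoint. -/
theorem Amb_selfadj (h : IsMajoranaAmbient mul B) (a u v : V) : B (mul a u) v = B u (mul a v) := by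
  rw [Amb_assoc h u a v, Amb_comm h u a]

theorem Amb_orth (h : IsMajoranaAmbient mul B) {a u v : V} {c d : ℝ} (hcd : c ≠ d)
    (hu : u ∈ eigen mul a c) (hv : v ∈ eigen mul a d) : B u v = 0 := by
  rw [mem_eigen] at hu hv
  have h1 := Amb_selfadj h a u v
  rw [hu, hv] at h1
  simp only [map_smul, LinearMap.smul_apply, smul_eq_mul] at h1
  have h2 : (c - d) * B u v = 0 := by linarith
  exact (mul_eq_zero.1 h2).resolve_left (sub_ne_zero.2 hcd)

/-- Reading off the coefficient: a 1-eigenvector `u` of the axis `a` with `B a a = 1` is `B a u • a`. -/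
theorem eig1_eq {μ : V ≃ₗ[ℝ] V} {a u : V} (hamb : IsMajoranaAmbient mul B) (h : IsMajoranaPair mul B μ a)
    (hn : B a a = 1) (hu : u ∈ eigen mul a 1) : u = (B a u) • a := by
  rw [Pair_eig1 h, Submodule.mem_span_singleton] at hu
  obtain ⟨c, rfl⟩ := hu
  simp [hn]

end Ambient

end Cfsg.Agent.H26.Maj
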