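import Cfsg.Agent.Lib.H26.Majorana
import Mathlib

/-! Transport of Majorana pairs by automorphisms; the decomposition of one axis with respect to another. -/

set_option autoImplicit false
set_option linter.unusedSimpArgs false
set_option linter.unusedVariables false

namespace Cfsg.Agent.H26.Maj

open Cfsg.Axial

variable {V : Type*} [AddCommGroup V] [Module ℝ V]
variable {mul : V →ₗ[ℝ] V →ₗ[ℝ] V} {B : LinearMap.BilinForm ℝ V}

theorem eigen_map (φ : V ≃ₗ[ℝ] V) (hφ : ∀ u v, φ (mul u v) = mul (φ u) (φ v)) (a : V) (c : ℝ) :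
    eigen mul (φ a) c = (eigen mul a c).map (φ : V →ₗ[ℝ] V) := by
  ext w
  rw [mem_eigen]
  constructor
  · intro h
    refine ⟨φ.symm w, ?_, by simp⟩
    show φ.symm w ∈ eigen mul a c
    rw [mem_eigen]
    apply φ.injective
    rw [hφ, map_smul]
    simpa using h
  · rintro ⟨u, hu, rfl⟩
    have hu' : u ∈ eigen mul a c := hu
    rw [mem_eigen] at hu'
    show mul (φ a) (φ u) = c • φ u
    rw [← hφ, hu', map_smul]

theorem eigenSum_map (φ : V ≃ₗ[ℝ] V) (hφ : ∀ u v, φ (mul u v) = mul (φ u) (φ v)) (a : V) (S : Set ℝ) :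
    eigenSum mul (φ a) S = (eigenSum mul a S).map (φ : V →ₗ[ℝ] V) := by
  show (⨆ c ∈ S, eigen mul (φ a) c) = (⨆ c ∈ S, eigen mul a c).map (φ : V →ₗ[ℝ] V)
  simp only [Submodule.map_iSup, eigen_map φ hφ]

/-- If `φ` is an automorphism commuting with `μ` then `(μ, φ a)` is a Majorana pair when `(μ, a)` is. -/
theorem Pair_transport {μ : V ≃ₗ[ℝ] V} {a : V} (h : IsMajoranaPair mul B μ a) (φ : V ≃ₗ[ℝ] V)
    (hφ : ∀ u v, φ (mul u v) = mul (φ u) (φ v)) (hc : ∀ v, μ (φ v) = φ (μ v)) :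
    IsMajoranaPair mul B μ (φ a) := by
  obtain ⟨h1, h2, ⟨⟨h3, h4, h5, h6⟩, h7⟩, h8, h9⟩ := h
  refine ⟨h1, h2, ⟨⟨?_, ?_, ?_, ?_⟩, ?_⟩, ?_, ?_⟩
  · intro h0
    apply h3
    exact (map_eq_zero_iff φ φ.injective).1 h0
  · rw [← hφ, h4]
  · rw [eigenSum_map φ hφ, h5]
    simp
  · intro c hc' d hd u hu v hv
    rw [eigen_map φ hφ] at hu hv
    obtain ⟨u', hu', rfl⟩ := hu
    obtain ⟨v', hv', rfl⟩ := hv
    show mul (φ u') (φ v') ∈ _
    rw [← hφ, eigenSum_map φ hφ]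
    exact ⟨_, h6 c hc' d hd u' hu' v' hv', rfl⟩
  · rw [eigen_map φ hφ, h7, Submodule.map_span]
    simp
  · intro v hv
    rw [eigenSum_map φ hφ] at hv
    obtain ⟨w, hw, rfl⟩ := hv
    show μ (φ w) = φ w
    rw [hc, (show μ w = w from h8 w hw)]
  · intro v hv
    rw [eigen_map φ hφ] at hv
    obtain ⟨w, hw, rfl⟩ := hv
    show μ (φ w) = - φ w
    rw [hc, (show μ w = -w from h9 w hw), map_neg]

/-- The decomposition of a vector `b` fixed by the involution of an axis `a`. -/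
theorem decomp_of_fixed {μ : V ≃ₗ[ℝ] V} {a b : V} (hamb : IsMajoranaAmbient mul B)
    (h : IsMajoranaPair mul B μ a) (hn : B a a = 1) (hb : μ b = b) :
    ∃ x y : V, x ∈ eigen mul a 0 ∧ y ∈ eigen mul a (1/4) ∧ b = (B a b) • a + x + y := by
  obtain ⟨v₁, v₀, v₄, v₃₂, h1, h0, h4, h32, hdec⟩ := Pair_decomp h b
  have hfix : v₁ + v₀ + v₄ ∈ eigenSum mul a {1, 0, 1/4} := by
    rw [eigenSum_triple]
    refine Submodule.mem_sup.2 ⟨v₁, h1, v₀ + v₄, Submodule.mem_sup.2 ⟨v₀, h0, v₄, h4, rfl⟩, by abel⟩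
  have hμ1 : μ (v₁ + v₀ + v₄) = v₁ + v₀ + v₄ := Pair_fix h hfix
  have hμ2 : μ v₃₂ = -v₃₂ := Pair_neg h h32
  have hb2 : b = (v₁ + v₀ + v₄) + v₃₂ := hdec
  have hz : v₃₂ = 0 := by
    have h3 : μ b = (v₁ + v₀ + v₄) + (-v₃₂) := by
      rw [hb2, map_add, hμ1, hμ2]
    rw [hb] at h3
    rw [hb2] at h3
    have h5 : v₃₂ = -v₃₂ := add_left_cancel h3
    have h6 : (2 : ℝ) • v₃₂ = 0 := by
      rw [two_smul]
      nth_rewrite 1 [h5]
      simp
    exact (smul_eq_zero.1 h6).resolve_left (by norm_num)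
  have haeig : a ∈ eigen mul a 1 := by
    rw [mem_eigen, Pair_idem h, one_smul]
  have hB0 : B a v₀ = 0 := Amb_orth hamb (by norm_num) haeig h0
  have hB4 : B a v₄ = 0 := Amb_orth hamb (by norm_num) haeig h4
  have hB1 : B a b = B a v₁ := by
    rw [hb2, hz]
    simp [hB0, hB4]
  refine ⟨v₀, v₄, h0, h4, ?_⟩
  rw [hB1, ← eig1_eq hamb h hn h1, hb2, hz, add_zero]

end Cfsg.Agent.H26.Maj
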