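import Cfsg.Agent.Lib.H26.Majorana2
import Mathlib

/-! Sakuma's theorem, first part: the dihedral sequence of axes, the basic product rules. -/

set_option autoImplicit false
set_option linter.unusedSimpArgs false
set_option linter.unusedVariables false

namespace Cfsg.Agent.H26.Sak

open Cfsg.Axial Cfsg.Agent.H26.Maj

variable {V : Type*} [AddCommGroup V] [Module ℝ V]
variable {mul : V →ₗ[ℝ] V →ₗ[ℝ] V} {B : LinearMap.BilinForm ℝ V}

/-- A bi-infinite dihedral sequence of norm one axes. -/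
structure Dih (mul : V →ₗ[ℝ] V →ₗ[ℝ] V) (B : LinearMap.BilinForm ℝ V) where
  a : ℤ → V
  τ : ℤ → (V ≃ₗ[ℝ] V)
  amb : IsMajoranaAmbient mul B
  pair : ∀ i, IsMajoranaPair mul B (τ i) (a i)
  norm : ∀ i, B (a i) (a i) = 1
  act : ∀ i j, τ i (a j) = a (2 * i - j)

theorem mem_32_of_anti {μ : V ≃ₗ[ℝ] V} {a v : V} (h : IsMajoranaPair mul B μ a) (hv : μ v = -v) :
    v ∈ eigen mul a (1/32) := by
  obtain ⟨v₁, v₀, v₄, v₃₂, h1, h0, h4, h32, hdec⟩ := Pair_decomp h v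
  have hfix : v₁ + v₀ + v₄ ∈ eigenSum mul a {1, 0, 1/4} := by
    rw [eigenSum_triple]
    refine Submodule.mem_sup.2 ⟨v₁, h1, v₀ + v₄, Submodule.mem_sup.2 ⟨v₀, h0, v₄, h4, rfl⟩, by abel⟩
  have hμ1 : μ (v₁ + v₀ + v₄) = v₁ + v₀ + v₄ := Pair_fix h hfix
  have hμ2 : μ v₃₂ = -v₃₂ := Pair_neg h h32
  have hb2 : v = (v₁ + v₀ + v₄) + v₃₂ := hdec
  set p := v₁ + v₀ + v₄ with hp
  have h3 : μ v = p + (-v₃₂) := by rw [hb2, map_add, hμ1, hμ2]
  rw [hv, hb2] at h3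
  have h5 : (2 : ℝ) • p = 0 := by
    have : p + p = 0 := by
      have h6 : -(p + v₃₂) - (p + -v₃₂) = 0 := sub_eq_zero.2 h3
      have h7 : p + p = -(-(p + v₃₂) - (p + -v₃₂)) := by abel
      rw [h7, h6, neg_zero]
    rw [two_smul]; exact this
  have hp0 : p = 0 := (smul_eq_zero.1 h5).resolve_left (by norm_num)
  rw [hb2, hp0, zero_add]; exact h32

/-- The product of two `1/4`-eigenvectors has `a`-part given by their inner product. -/
theorem mul_a_ww {μ : V ≃ₗ[ℝ] V} {a w w' : V} (hamb : IsMajoranaAmbient mul B)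
    (h : IsMajoranaPair mul B μ a) (hn : B a a = 1) (hw : w ∈ eigen mul a (1/4))
    (hw' : w' ∈ eigen mul a (1/4)) : mul a (mul w w') = ((1/4) * B w w') • a := by
  obtain ⟨u₁, hu₁, u₀, hu₀, e⟩ := Submodule.mem_sup.1 (fusion_44 h hw hw')
  have haeig : a ∈ eigen mul a 1 := by rw [mem_eigen, Pair_idem h, one_smul]
  have h1 : B a u₀ = 0 := Amb_orth hamb (by norm_num) haeig hu₀
  have h2 : u₁ = (B a u₁) • a := eig1_eq hamb h hn hu₁
  have h3 : B a (mul w w') = (1/4) * B w w' := by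
    rw [Amb_assoc hamb]
    rw [mem_eigen] at hw
    rw [hw]; simp
  have h4 : B a u₁ = (1/4) * B w w' := by
    rw [← h3, ← e]; simp [h1]
  rw [← e, map_add]
  rw [mem_eigen] at hu₁ hu₀
  rw [hu₁, hu₀, one_smul, zero_smul, add_zero, ← h4]; exact h2

namespace Dih

variable (D : Dih mul B)

/-- Relabelling the axes. -/
def shift (c : ℤ) : Dih mul B where
  a i := D.a (i + c)
  τ i := D.τ (i + c)
  amb := D.amb
  pair i := D.pair (i + c)
  norm i := D.norm (i + c)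
  act i j := by
    rw [D.act]; congr 1; ring

/-- The element `s(i,j) = a_i a_j - (a_i + a_j)/32`. -/
noncomputable def S (i j : ℤ) : V := mul (D.a i) (D.a j) - (1/32 : ℝ) • (D.a i + D.a j)

theorem shift_a (c i : ℤ) : (D.shift c).a i = D.a (i + c) := rfl
theorem shift_S (c i j : ℤ) : (D.shift c).S i j = D.S (i + c) (j + c) := rfl

theorem mul_aa (i j : ℤ) : mul (D.a i) (D.a j) = D.S i j + (1/32 : ℝ) • (D.a i + D.a j) := by
  unfold S; abel

theorem S_symm (i j : ℤ) : D.S i j = D.S j i := by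
  unfold S; rw [Amb_comm D.amb, add_comm]

theorem idem (i : ℤ) : mul (D.a i) (D.a i) = D.a i := Pair_idem (D.pair i)

theorem bb_symm (D : Dih mul B) (u v : V) : B u v = B v u := Amb_symm D.amb u v

theorem bb_refl (c i j : ℤ) : B (D.a i) (D.a j) = B (D.a (2 * c - i)) (D.a (2 * c - j)) := by
  rw [← D.act, ← D.act, Pair_form (D.pair c)]

theorem bb_add (c i j : ℤ) : B (D.a i) (D.a j) = B (D.a (i + 2 * c)) (D.a (j + 2 * c)) := by
  rw [D.bb_refl 0 i j, D.bb_refl c (2 * 0 - i) (2 * 0 - j)]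
  congr 2 <;> congr 1 <;> ring

theorem S_refl (c i j : ℤ) (h : i + j = 2 * c) : D.S c i = D.S c j := by
  have hj : j = 2 * c - i := by linarith
  have hi : i = 2 * c - j := by linarith
  have h1 : D.τ c (D.a i - D.a j) = -(D.a i - D.a j) := by
    rw [map_sub, D.act, D.act, ← hj, ← hi]; abel
  have h2 := mem_32_of_anti (D.pair c) h1
  rw [mem_eigen, map_sub] at h2
  unfold S
  have h3 : (1/32 : ℝ) • (D.a i - D.a j) = (1/32 : ℝ) • D.a i - (1/32 : ℝ) • D.a j := smul_sub _ _ _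
  linear_combination (norm := module) h2

theorem S1_const (i : ℤ) : D.S i (i + 1) = D.S 0 1 := by
  induction i using Int.induction_on with
  | zero => rfl
  | succ i ih =>
    rw [← ih, D.S_refl ((i : ℤ) + 1) ((i : ℤ) + 1 + 1) i (by ring), D.S_symm]
  | pred i ih =>
    have e : (-(i : ℤ) - 1 + 1) = -(i : ℤ) := by ring
    rw [← ih, e, D.S_symm, D.S_refl (-(i : ℤ)) (-(i : ℤ) - 1) (-(i : ℤ) + 1) (by ring)]

theorem S_step (i j : ℤ) : D.S j (2 * j - i) = D.S i j := by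
  rw [D.S_symm i j, D.S_refl j i (2 * j - i) (by ring)]

theorem S_k (k i m : ℤ) : D.S (i + m * k) (i + m * k + k) = D.S i (i + k) := by
  induction m using Int.induction_on with
  | zero => simp
  | succ m ih =>
    rw [← ih, ← D.S_step (i + (m : ℤ) * k) (i + (m : ℤ) * k + k)]
    congr 1 <;> ring
  | pred m ih =>
    rw [← ih, ← D.S_step (i + (-(m : ℤ) - 1) * k) (i + (-(m : ℤ) - 1) * k + k)]
    congr 1 <;> ring

theorem ip_center (c j : ℤ) : B (D.a c) (D.S c j) = (31 * B (D.a c) (D.a j) - 1) / 32 := by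
  unfold S
  rw [map_sub, Amb_assoc D.amb, D.idem, map_smul, map_add, D.norm]
  simp only [smul_eq_mul]
  ring

theorem ip_mid (j : ℤ) : B (D.a j) (D.S (j - 1) (j + 1)) =
    (31 * B (D.a (j + 1)) (D.a j) - 1) / 32 + (B (D.a j) (D.a (j + 1)) + B (D.a (j - 1)) (D.a (j + 1))) / 32
      - (B (D.a j) (D.a (j - 1)) + B (D.a j) (D.a (j + 1))) / 32 := by
  have h1 : D.S j (j - 1) = D.S j (j + 1) := D.S_refl j _ _ (by ring)
  have h2 : B (D.a j) (mul (D.a (j - 1)) (D.a (j + 1))) = B (mul (D.a j) (D.a (j - 1))) (D.a (j + 1)) :=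
    Amb_assoc D.amb _ _ _
  have h3 : B (D.S j (j + 1)) (D.a (j + 1)) = (31 * B (D.a (j + 1)) (D.a j) - 1) / 32 := by
    rw [D.bb_symm, D.S_symm, D.ip_center]
  have key : mul (D.a j) (D.a (j - 1)) = D.S j (j + 1) + (1/32 : ℝ) • (D.a j + D.a (j - 1)) := by
    rw [D.mul_aa, h1]
  have e : D.S (j - 1) (j + 1) = mul (D.a (j - 1)) (D.a (j + 1)) - (1/32 : ℝ) • (D.a (j - 1) + D.a (j + 1)) := rfl
  rw [e, map_sub, h2, key, map_smul]
  simp only [map_add, LinearMap.add_apply, map_smul, LinearMap.smul_apply, smul_eq_mul, h3]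
  rw [D.bb_symm (D.a (j - 1)) (D.a (j + 1))]
  rw [D.bb_symm (D.a (j + 1)) (D.a (j - 1))]
  ring

/-- `x_k = a_k + a_{-k}` -/
noncomputable def xx (k : ℤ) : V := D.a k + D.a (-k)
/-- The `1/4`-eigenvector of `a_0`. -/
noncomputable def wv (k : ℤ) : V :=
  (4 : ℝ) • D.S 0 k + (1/16 : ℝ) • D.xx k + ((1/8 : ℝ) - 4 * B (D.a 0) (D.a k)) • D.a 0
/-- `x_k / 2 - β_k a_0` -/
noncomputable def pv (k : ℤ) : V := (1/2 : ℝ) • D.xx k - (B (D.a 0) (D.a k)) • D.a 0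

theorem mul_a0_xx (k : ℤ) :
    mul (D.a 0) (D.xx k) = (2 : ℝ) • D.S 0 k + (1/16 : ℝ) • D.a 0 + (1/32 : ℝ) • D.xx k := by
  have h := D.S_refl 0 k (-k) (by ring)
  unfold xx
  rw [map_add, D.mul_aa, D.mul_aa, ← h]
  module

theorem ip_xx (k : ℤ) : B (D.a 0) (D.xx k) = 2 * B (D.a 0) (D.a k) := by
  have h := D.bb_refl 0 0 k
  norm_num at h
  unfold xx
  rw [map_add, ← h]
  ring

theorem eig_dec (k : ℤ) : D.wv k ∈ eigen mul (D.a 0) (1/4) ∧ D.pv k - D.wv k ∈ eigen mul (D.a 0) 0 := by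
  have hfix : D.τ 0 (D.xx k) = D.xx k := by
    unfold xx
    rw [map_add, D.act, D.act]
    norm_num
    abel
  obtain ⟨x, y, hx, hy, e⟩ := decomp_of_fixed D.amb (D.pair 0) (D.norm 0) hfix
  rw [D.ip_xx] at e
  have hx' := hx
  have hy' := hy
  rw [mem_eigen] at hx' hy'
  have h0 : mul (D.a 0) (D.xx k) = (2 * B (D.a 0) (D.a k)) • D.a 0 + (1/4 : ℝ) • y := by
    rw [e, map_add, map_add, map_smul, D.idem, hx', hy']
    module
  have h1 := D.mul_a0_xx k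
  rw [h0] at h1
  have hw : D.wv k = (1/2 : ℝ) • y := by
    unfold wv
    linear_combination (norm := module) (-2 : ℝ) • h1
  have hp : D.pv k - D.wv k = (1/2 : ℝ) • x := by
    rw [hw]
    unfold pv
    rw [e]
    module
  rw [hp, hw]
  exact ⟨Submodule.smul_mem _ _ hy, Submodule.smul_mem _ _ hx⟩

/-- The action of `a_0` on `s(0,k)`. -/
theorem A_S (k : ℤ) : mul (D.a 0) (D.S 0 k) =
    (7/32 : ℝ) • D.S 0 k + (7/2048 : ℝ) • D.xx k + ((3/4 : ℝ) * B (D.a 0) (D.a k) - 25/1024) • D.a 0 := by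
  have h := (D.eig_dec k).1
  rw [mem_eigen] at h
  have h2 := D.mul_a0_xx k
  unfold wv at h
  simp only [map_add, map_smul, D.idem, h2] at h
  linear_combination (norm := module) (1/4 : ℝ) • h

/-- The action of `a_c` on `s(c,j)`. -/
theorem A_S_c (c j : ℤ) : mul (D.a c) (D.S c j) =
    (7/32 : ℝ) • D.S c j + (7/2048 : ℝ) • (D.a j + D.a (2 * c - j)) +
      ((3/4 : ℝ) * B (D.a c) (D.a j) - 25/1024) • D.a c := by
  have h := (D.shift c).A_S (j - c)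
  have e1 : (0 : ℤ) + c = c := by ring
  have e2 : j - c + c = j := by ring
  have e3 : -(j - c) + c = 2 * c - j := by ring
  simpa only [xx, shift_a, shift_S, e1, e2, e3] using h

/-- `(a_0, a_1)` -/
noncomputable def b : ℝ := B (D.a 0) (D.a 1)
/-- `(a_0, a_2)` -/
noncomputable def c : ℝ := B (D.a 0) (D.a 2)
/-- `(a_{-1}, a_1)` -/
noncomputable def d : ℝ := B (D.a (-1)) (D.a 1)

theorem b_succ (j : ℤ) : B (D.a j) (D.a (j + 1)) = D.b := by
  induction j using Int.induction_on with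
  | zero => rfl
  | succ j ih =>
    rw [← ih, D.bb_refl ((j : ℤ) + 1) ((j : ℤ) + 1) ((j : ℤ) + 1 + 1), D.bb_symm]
    congr 2 <;> ring
  | pred j ih =>
    rw [← ih, D.bb_symm, D.bb_refl (-(j : ℤ)) (-(j : ℤ) - 1 + 1) (-(j : ℤ) - 1)]
    congr 2 <;> ring

theorem b_pred (j : ℤ) : B (D.a j) (D.a (j - 1)) = D.b := by
  rw [D.bb_symm, ← D.b_succ (j - 1)]
  congr 2; ring

theorem ip_S1 (j : ℤ) : B (D.a j) (D.S 0 1) = (31 * D.b - 1) / 32 := by
  rw [← D.S1_const j, D.ip_center, D.b_succ]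

theorem S01_neg : D.S 0 (-1) = D.S 0 1 := D.S_refl 0 _ _ (by norm_num)
theorem S02_neg : D.S 0 (-2) = D.S 0 2 := D.S_refl 0 _ _ (by norm_num)

theorem r01 : mul (D.a 0) (D.a 1) = D.S 0 1 + (1/32 : ℝ) • (D.a 0 + D.a 1) := D.mul_aa 0 1
theorem r10 : mul (D.a 1) (D.a 0) = D.S 0 1 + (1/32 : ℝ) • (D.a 0 + D.a 1) := by
  rw [Amb_comm D.amb, D.r01]
theorem r0m1 : mul (D.a 0) (D.a (-1)) = D.S 0 1 + (1/32 : ℝ) • (D.a 0 + D.a (-1)) := by
  rw [D.mul_aa, D.S01_neg]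
theorem rm10 : mul (D.a (-1)) (D.a 0) = D.S 0 1 + (1/32 : ℝ) • (D.a 0 + D.a (-1)) := by
  rw [Amb_comm D.amb, D.r0m1]
theorem r02 : mul (D.a 0) (D.a 2) = D.S 0 2 + (1/32 : ℝ) • (D.a 0 + D.a 2) := D.mul_aa 0 2
theorem r0m2 : mul (D.a 0) (D.a (-2)) = D.S 0 2 + (1/32 : ℝ) • (D.a 0 + D.a (-2)) := by
  rw [D.mul_aa, D.S02_neg]
theorem rm11 : mul (D.a (-1)) (D.a 1) = D.S (-1) 1 + (1/32 : ℝ) • (D.a (-1) + D.a 1) := D.mul_aa _ _
theorem r1m1 : mul (D.a 1) (D.a (-1)) = D.S (-1) 1 + (1/32 : ℝ) • (D.a (-1) + D.a 1) := by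
  rw [Amb_comm D.amb, D.rm11]

theorem rA1 : mul (D.a 0) (D.S 0 1) =
    (7/32 : ℝ) • D.S 0 1 + (7/2048 : ℝ) • (D.a 1 + D.a (-1)) + ((3/4 : ℝ) * D.b - 25/1024) • D.a 0 :=
  D.A_S 1

theorem rA2 : mul (D.a 0) (D.S 0 2) =
    (7/32 : ℝ) • D.S 0 2 + (7/2048 : ℝ) • (D.a 2 + D.a (-2)) + ((3/4 : ℝ) * D.c - 25/1024) • D.a 0 :=
  D.A_S 2

theorem r1S : mul (D.a 1) (D.S 0 1) =
    (7/32 : ℝ) • D.S 0 1 + (7/2048 : ℝ) • (D.a 0 + D.a 2) + ((3/4 : ℝ) * D.b - 25/1024) • D.a 1 := by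
  have h := D.A_S_c 1 0
  have e : (2 * 1 - 0 : ℤ) = 2 := by norm_num
  have e2 : D.S 1 0 = D.S 0 1 := D.S_symm _ _
  have e3 : B (D.a 1) (D.a 0) = D.b := D.bb_symm _ _
  rwa [e, e2, e3] at h

theorem rm1S : mul (D.a (-1)) (D.S 0 1) =
    (7/32 : ℝ) • D.S 0 1 + (7/2048 : ℝ) • (D.a 0 + D.a (-2)) + ((3/4 : ℝ) * D.b - 25/1024) • D.a (-1) := by
  have h := D.A_S_c (-1) 0
  have e : (2 * (-1) - 0 : ℤ) = -2 := by norm_num
  have e2 : D.S (-1) 0 = D.S 0 1 := by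
    have := D.S1_const (-1)
    rwa [show (-1 + 1 : ℤ) = 0 by norm_num] at this
  have e3 : B (D.a (-1)) (D.a 0) = D.b := by
    have := D.b_succ (-1)
    rwa [show (-1 + 1 : ℤ) = 0 by norm_num] at this
  rwa [e, e2, e3] at h

theorem bm10 : B (D.a 0) (D.a (-1)) = D.b := by
  have := D.b_pred 0
  rwa [show (0 - 1 : ℤ) = -1 by norm_num] at this

theorem b1m : B (D.a 1) (D.a (-1)) = D.d := D.bb_symm _ _

theorem ip_S1S1 : B (D.S 0 1) (D.S 0 1) =
    (7/32) * ((31 * D.b - 1) / 32) + (7/2048) * (D.c + 1) + ((3/4) * D.b - 25/1024) * D.b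
      - (1/16) * ((31 * D.b - 1) / 32) := by
  have e : D.S 0 1 = mul (D.a 0) (D.a 1) - (1/32 : ℝ) • (D.a 0 + D.a 1) := rfl
  have h1 : B (mul (D.a 0) (D.a 1)) (D.S 0 1) = B (D.a 0) (mul (D.a 1) (D.S 0 1)) := (Amb_assoc D.amb _ _ _).symm
  have h2 := D.ip_S1 0
  have h3 := D.ip_S1 1
  have h4 : B (D.a 0) (D.a 0) = 1 := D.norm 0
  have h5 : B (D.a 0) (D.a 2) = D.c := rfl
  have h6 : B (D.a 0) (D.a 1) = D.b := rfl
  have key : ∀ v, B (D.S 0 1) v = B (mul (D.a 0) (D.a 1)) v - (1/32) * (B (D.a 0) v + B (D.a 1) v) := by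
    intro v
    rw [e]
    simp only [map_sub, LinearMap.sub_apply, map_add, LinearMap.add_apply, map_smul, LinearMap.smul_apply, smul_eq_mul]
  rw [key, h1, D.r1S]
  simp only [map_add, LinearMap.add_apply, map_smul, LinearMap.smul_apply, smul_eq_mul, h2, h3, h4, h5, h6]
  ring

theorem lam_val : (1/4) * B (D.wv 1) (D.wv 1) =
    -D.b ^ 2 + D.b + (7/512) * D.c + (1/512) * D.d - 1/64 := by
  have h0 := D.ip_S1 0
  have h1 := D.ip_S1 1
  have hm := D.ip_S1 (-1)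
  have h0' : B (D.S 0 1) (D.a 0) = (31 * D.b - 1) / 32 := by rw [D.bb_symm, h0]
  have h1' : B (D.S 0 1) (D.a 1) = (31 * D.b - 1) / 32 := by rw [D.bb_symm, h1]
  have hm' : B (D.S 0 1) (D.a (-1)) = (31 * D.b - 1) / 32 := by rw [D.bb_symm, hm]
  have n0 := D.norm 0
  have n1 := D.norm 1
  have nm := D.norm (-1)
  have e1 : B (D.a 0) (D.a 1) = D.b := rfl
  have e2 : B (D.a 1) (D.a 0) = D.b := D.bb_symm _ _
  have e3 := D.bm10
  have e4 : B (D.a (-1)) (D.a 0) = D.b := by rw [D.bb_symm, e3]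
  have e5 : B (D.a (-1)) (D.a 1) = D.d := rfl
  have e6 := D.b1m
  have hSS := D.ip_S1S1
  unfold wv xx
  rw [show (-1 : ℤ) = -1 from rfl]
  simp only [map_add, LinearMap.add_apply, map_smul, LinearMap.smul_apply, smul_eq_mul,
    h0, h1, hm, h0', h1', hm', n0, n1, nm, e1, e2, e3, e4, e5, e6, hSS]
  ring

/-- The fusion relations for `k = 1`. -/
theorem lvl2_eqs :
    mul (D.a 0) (mul (D.pv 1) (D.pv 1)) - (2 : ℝ) • mul (D.a 0) (mul (D.pv 1) (D.wv 1))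
      + (-D.b ^ 2 + D.b + (7/512) * D.c + (1/512) * D.d - 1/64) • D.a 0 = 0 ∧
    mul (D.a 0) (mul (D.pv 1) (D.wv 1)) - (-D.b ^ 2 + D.b + (7/512) * D.c + (1/512) * D.d - 1/64) • D.a 0
      = (1/4 : ℝ) • (mul (D.pv 1) (D.wv 1) - mul (D.wv 1) (D.wv 1)) := by
  obtain ⟨hw, hα⟩ := D.eig_dec 1
  have hww := mul_a_ww D.amb (D.pair 0) (D.norm 0) hw hw
  rw [D.lam_val] at hww
  have h00 := fusion_00 (D.pair 0) hα hα
  have h04 := fusion_04 (D.pair 0) hα hw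
  rw [mem_eigen] at h00 h04
  have e1 : mul (D.pv 1 - D.wv 1) (D.pv 1 - D.wv 1) =
      mul (D.pv 1) (D.pv 1) - (2 : ℝ) • mul (D.pv 1) (D.wv 1) + mul (D.wv 1) (D.wv 1) := by
    simp only [map_sub, LinearMap.sub_apply]
    rw [Amb_comm D.amb (D.wv 1) (D.pv 1)]
    module
  have e2 : mul (D.pv 1 - D.wv 1) (D.wv 1) = mul (D.pv 1) (D.wv 1) - mul (D.wv 1) (D.wv 1) := by
    rw [map_sub, LinearMap.sub_apply]
  rw [e1, map_add, map_sub, map_smul, hww, zero_smul] at h00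
  rw [e2, map_sub, hww] at h04
  exact ⟨h00, h04⟩

set_option maxHeartbeats 1000000 in
/-- The action of `a_0` on `s(-1,1)`. -/
theorem A_S21 : mul (D.a 0) (D.S (-1) 1) =
    ((1/6) * D.b - 19/3072) • (D.a (-1) + D.a 1) + (7/6144 : ℝ) • (D.a (-2) + D.a 2)
      + (-(32/3) * D.b ^ 2 + (5/3) * D.b - (7/192) * D.c - (1/192) * D.d - 127/3072) • D.a 0
      + ((32/3) * D.b - 19/48) • D.S 0 1 + (7/96 : ℝ) • D.S 0 2 := by
  have h := D.lvl2_eqs.1
  unfold pv wv xx at h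
  have e : (-1 : ℤ) = -1 := rfl
  have h6 : B (D.a 0) (D.a 1) = D.b := rfl
  simp only [map_add, map_sub, map_smul, LinearMap.add_apply, LinearMap.sub_apply, LinearMap.smul_apply,
    h6, D.idem, D.r01, D.r10, D.r0m1, D.rm10, D.r02, D.r0m2, D.rm11, D.r1m1, D.rA1, D.rA2, D.r1S, D.rm1S] at h
  linear_combination (norm := module) (8/3 : ℝ) • h

set_option maxHeartbeats 2000000 in
/-- The square of `s(0,1)`. -/
theorem S1sq : mul (D.S 0 1) (D.S 0 1) =
    ((49/768) * D.b - 245/196608) • (D.a (-1) + D.a 1) + (49/196608 : ℝ) • (D.a (-2) + D.a 2)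
      + ((7/6) * D.b ^ 2 - (7/384) * D.b + (49/12288) * D.c + (7/12288) * D.d - 7/98304) • D.a 0
      + (-(5/12) * D.b - 13/1536) • D.S 0 1 + (-7/1536 : ℝ) • D.S 0 2 + (7/2048 : ℝ) • D.S (-1) 1 := by
  have h := D.lvl2_eqs.2
  unfold pv wv xx at h
  have h6 : B (D.a 0) (D.a 1) = D.b := rfl
  have c1 : mul (D.S 0 1) (D.a 1) = mul (D.a 1) (D.S 0 1) := Amb_comm D.amb _ _
  have c2 : mul (D.S 0 1) (D.a (-1)) = mul (D.a (-1)) (D.S 0 1) := Amb_comm D.amb _ _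
  have c3 : mul (D.S 0 1) (D.a 0) = mul (D.a 0) (D.S 0 1) := Amb_comm D.amb _ _
  simp only [map_add, map_sub, map_smul, LinearMap.add_apply, LinearMap.sub_apply, LinearMap.smul_apply,
    h6, c1, c2, c3, D.idem, D.r01, D.r10, D.r0m1, D.rm10, D.r02, D.r0m2, D.rm11, D.r1m1, D.rA1, D.rA2, D.r1S,
    D.rm1S, D.A_S21] at h
  linear_combination (norm := module) (1/4 : ℝ) • h

theorem shift_b (k : ℤ) : (D.shift k).b = D.b := by
  have h := D.b_succ k
  have e : ((D.shift k).b) = B (D.a (0 + k)) (D.a (1 + k)) := rfl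
  rw [e, ← h]
  congr 2 <;> ring_nf

theorem shift1_c : (D.shift 1).c = D.d := by
  have h := D.bb_add 1 (-1) 1
  exact h.symm

theorem shift1_d : (D.shift 1).d = D.c := rfl

theorem shift2_c : (D.shift 2).c = D.c := by
  have h := D.bb_add 1 0 2
  exact h.symm

theorem shift2_d : (D.shift 2).d = D.d := by
  have h := D.bb_add 1 (-1) 1
  exact h.symm

theorem shift3_c : (D.shift 3).c = D.d := by
  have h := D.bb_add 2 (-1) 1
  exact h.symm

theorem shift3_d : (D.shift 3).d = D.c := by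
  have h := D.bb_add 1 0 2
  exact h.symm

theorem S13 : D.S 1 3 = D.S (-1) 1 := by
  have h := D.S_step (-1) 1
  rwa [show (2 * 1 - -1 : ℤ) = 3 by norm_num] at h

theorem S1sq' : mul (D.S 0 1) (D.S 0 1) =
    ((49/768) * D.b - 245/196608) • (D.a 0 + D.a 2) + (49/196608 : ℝ) • (D.a (-1) + D.a 3)
      + ((7/6) * D.b ^ 2 - (7/384) * D.b + (49/12288) * D.d + (7/12288) * D.c - 7/98304) • D.a 1
      + (-(5/12) * D.b - 13/1536) • D.S 0 1 + (-7/1536 : ℝ) • D.S (-1) 1 + (7/2048 : ℝ) • D.S 0 2 := by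
  have h := (D.shift 1).S1sq
  have e1 : (D.shift 1).S 0 1 = D.S 0 1 := by
    have := D.S1_const 1
    exact this
  have e2 : (D.shift 1).S 0 2 = D.S (-1) 1 := D.S13
  have e3 : (D.shift 1).S (-1) 1 = D.S 0 2 := rfl
  rw [e1, e2, e3, shift_b, shift1_c, shift1_d] at h
  simpa only [shift_a, Int.reduceAdd, Int.reduceNeg] using h

theorem R0 : D.a 3 = D.a (-2) + ((256 : ℝ) * D.b - 6) • (D.a (-1) - D.a 2)
    + ((32768/7) * D.b ^ 2 - (2304/7) * D.b + 16 * D.c + (16/7) * D.d + 33/7) • D.a 0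
    - ((32768/7) * D.b ^ 2 - (2304/7) * D.b + (16/7) * D.c + 16 * D.d + 33/7) • D.a 1
    - (32 : ℝ) • (D.S 0 2 - D.S (-1) 1) := by
  have h1 := D.S1sq
  rw [D.S1sq'] at h1
  linear_combination (norm := module) (196608/49 : ℝ) • h1

theorem b_nonneg : 0 ≤ D.b := by
  have h := Amb_norton D.amb (D.a 0) (D.a 1)
  rw [D.idem, D.idem] at h
  have h2 : 0 ≤ B (mul (D.a 0) (D.a 1)) (mul (D.a 0) (D.a 1)) := by
    by_cases h0 : mul (D.a 0) (D.a 1) = 0
    · rw [h0]; simp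
    · exact (Amb_pos D.amb h0).le
  exact h2.trans h

theorem ip_S02_even (m : ℤ) : B (D.a (2 * m)) (D.S 0 2) = (31 * D.c - 1) / 32 := by
  have h := D.S_k 2 0 m
  have e1 : (0 : ℤ) + m * 2 = 2 * m := by ring
  have e2 : (0 : ℤ) + 2 = 2 := by ring
  rw [e1, e2] at h
  rw [← h, D.ip_center]
  have h2 := D.bb_add m 0 2
  have e3 : (0 : ℤ) + 2 * m = 2 * m := by ring
  have e4 : (2 : ℤ) + 2 * m = 2 * m + 2 := by ring
  rw [e3, e4] at h2
  rw [← h2]; rfl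

theorem ip_S21_odd (m : ℤ) : B (D.a (2 * m + 1)) (D.S (-1) 1) = (31 * D.d - 1) / 32 := by
  have h := (D.shift 1).ip_S02_even m
  rw [shift1_c] at h
  have e : (D.shift 1).S 0 2 = D.S (-1) 1 := D.S13
  rw [e] at h
  exact h

theorem ip_S02_odd (m : ℤ) : B (D.a (2 * m + 1)) (D.S 0 2) = (30 * D.b + D.c - 1) / 32 := by
  have h := D.S_k 2 0 m
  have e1 : (0 : ℤ) + m * 2 = 2 * m := by ring
  have e2 : (0 : ℤ) + 2 = 2 := by ring
  rw [e1, e2] at h
  have h3 := D.ip_mid (2 * m + 1)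
  have e5 : 2 * m + 1 - 1 = 2 * m := by ring
  have e6 : 2 * m + 1 + 1 = 2 * m + 2 := by ring
  rw [e5, e6, h] at h3
  rw [h3]
  have h2 := D.bb_add m 0 2
  have e3 : (0 : ℤ) + 2 * m = 2 * m := by ring
  have e4 : (2 : ℤ) + 2 * m = 2 * m + 2 := by ring
  rw [e3, e4] at h2
  have h4 : B (D.a (2 * m + 2)) (D.a (2 * m + 1)) = D.b := by
    have := D.b_pred (2 * m + 2)
    rwa [show 2 * m + 2 - 1 = 2 * m + 1 by ring] at this
  have h5 : B (D.a (2 * m + 1)) (D.a (2 * m + 2)) = D.b := by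
    have := D.b_succ (2 * m + 1)
    rwa [e6] at this
  have h6 : B (D.a (2 * m + 1)) (D.a (2 * m)) = D.b := by
    have := D.b_pred (2 * m + 1)
    rwa [e5] at this
  rw [h4, h5, h6, ← h2]
  show _ = (30 * D.b + D.c - 1) / 32
  have : B (D.a 0) (D.a 2) = D.c := rfl
  rw [this]
  ring

theorem ip_S21_even (m : ℤ) : B (D.a (2 * m)) (D.S (-1) 1) = (30 * D.b + D.d - 1) / 32 := by
  have h := (D.shift (-1)).ip_S02_odd m
  have e1 : (D.shift (-1)).S 0 2 = D.S (-1) 1 := rfl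
  have e2 : (D.shift (-1)).b = D.b := D.shift_b (-1)
  have e3 : (D.shift (-1)).c = D.d := rfl
  rw [e1, e2, e3] at h
  have e4 : (D.shift (-1)).a (2 * m + 1) = D.a (2 * m) := by
    rw [shift_a]; congr 1; ring
  rwa [e4] at h

/-- `(a_i, a_3)`-values -/
theorem b1m2 : B (D.a 1) (D.a (-2)) = B (D.a 0) (D.a 3) := by
  have h := D.bb_add 1 (-2) 1
  norm_num at h
  rw [D.bb_symm, h]

theorem b13 : B (D.a 1) (D.a 3) = D.d := by
  have h := D.bb_add 1 (-1) 1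
  norm_num at h
  exact h.symm

theorem c_eq_d : D.c = D.d := by
  have hR := D.R0
  have h0 := congrArg (B (D.a 0)) hR
  have h1 := congrArg (B (D.a 1)) hR
  have e0 : B (D.a 0) (D.a (-2)) = D.c := by
    have h := D.bb_refl 0 0 2
    norm_num at h
    exact h.symm
  have e1 := D.ip_S02_even 0
  have e2 := D.ip_S21_even 0
  have e3 := D.ip_S02_odd 0
  have e4 := D.ip_S21_odd 0
  norm_num at e1 e2 e3 e4
  have e5 := D.b1m2
  have e6 := D.b13
  have e7 := D.bm10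
  have e8 := D.b1m
  have e9 : B (D.a 1) (D.a 2) = D.b := D.b_succ 1
  have e10 : B (D.a 1) (D.a 0) = D.b := D.bb_symm _ _
  have e11 : B (D.a 0) (D.a 1) = D.b := rfl
  have e12 : B (D.a 0) (D.a 2) = D.c := rfl
  have n0 := D.norm 0
  have n1 := D.norm 1
  simp only [map_add, map_sub, map_smul, smul_eq_mul, e0, e1, e2, e3, e4, e5, e6, e7, e8, e9, e10, e11, e12,
    n0, n1] at h0 h1
  have key : (D.c - D.d) * (1696 * D.b + 79) = 0 := by
    linear_combination (7 : ℝ) * h0 + (7 : ℝ) * h1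
  have hb := D.b_nonneg
  have : (1696 * D.b + 79) ≠ 0 := by positivity
  have := (mul_eq_zero.1 key).resolve_right this
  linarith

/-- The fundamental linear relation, using `c = d`. -/
theorem R : D.a 3 = D.a (-2) + ((256 : ℝ) * D.b - 6) • (D.a (-1) - D.a 2)
    + ((32768/7) * D.b ^ 2 - (2304/7) * D.b + (128/7) * D.c + 33/7) • (D.a 0 - D.a 1)
    - (32 : ℝ) • (D.S 0 2 - D.S (-1) 1) := by
  have h := D.R0
  rw [← D.c_eq_d] at h
  rw [h]
  module

/-- `(a_0, a_k)` -/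
noncomputable def β (k : ℤ) : ℝ := B (D.a 0) (D.a k)

theorem ip_R (v : V) : B v (D.a 3) = B v (D.a (-2)) + ((256 : ℝ) * D.b - 6) * (B v (D.a (-1)) - B v (D.a 2))
    + ((32768/7) * D.b ^ 2 - (2304/7) * D.b + (128/7) * D.c + 33/7) * (B v (D.a 0) - B v (D.a 1))
    - 32 * (B v (D.S 0 2) - B v (D.S (-1) 1)) := by
  have h := congrArg (B v) D.R
  simpa only [map_add, map_sub, map_smul, smul_eq_mul] using h

theorem rec_b3 : D.β 3 = D.c + ((256 : ℝ) * D.b - 6) * (D.b - D.c)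
    + ((32768/7) * D.b ^ 2 - (2304/7) * D.b + (128/7) * D.c + 33/7) * (1 - D.b)
    - 32 * ((31 * D.c - 1) / 32 - (30 * D.b + D.c - 1) / 32) := by
  have h := D.ip_R (D.a 0)
  have e1 := D.ip_S02_even 0
  have e2 := D.ip_S21_even 0
  norm_num at e1 e2
  rw [← D.c_eq_d] at e2
  have e3 : B (D.a 0) (D.a (-2)) = D.c := by
    have h := D.bb_refl 0 0 2
    norm_num at h
    exact h.symm
  rw [e1, e2, e3, D.bm10, D.norm] at h
  exact h

theorem rec_b4 : D.b = D.β 4 + ((256 : ℝ) * D.b - 6) * (D.β 3 - 1)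
    + ((32768/7) * D.b ^ 2 - (2304/7) * D.b + (128/7) * D.c + 33/7) * (D.c - D.b)
    - 32 * ((31 * D.c - 1) / 32 - (30 * D.b + D.c - 1) / 32) := by
  have h := D.ip_R (D.a 2)
  have e1 := D.ip_S02_even 1
  have e2 := D.ip_S21_even 1
  norm_num at e1 e2
  rw [← D.c_eq_d] at e2
  have e3 : B (D.a 2) (D.a 3) = D.b := D.b_succ 2
  have e4 : B (D.a 2) (D.a (-2)) = D.β 4 := by
    have h := D.bb_add 1 (-2) 2
    norm_num at h
    rw [D.bb_symm, h]; rfl
  have e5 : B (D.a 2) (D.a (-1)) = D.β 3 := by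
    have h := D.bb_refl 1 (-1) 2
    norm_num at h
    rw [D.bb_symm, h, D.bb_symm]; rfl
  have e6 : B (D.a 2) (D.a 0) = D.c := D.bb_symm _ _
  have e7 : B (D.a 2) (D.a 1) = D.b := D.b_pred 2
  rw [e1, e2, e3, e4, e5, e6, e7, D.norm] at h
  exact h

theorem rec_b5 : D.β 5 = 1 + ((256 : ℝ) * D.b - 6) * (D.b - D.β 4)
    + ((32768/7) * D.b ^ 2 - (2304/7) * D.b + (128/7) * D.c + 33/7) * (D.c - D.β 3)
    - 32 * ((31 * D.c - 1) / 32 - (30 * D.b + D.c - 1) / 32) := by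
  have h := D.ip_R (D.a (-2))
  have e1 := D.ip_S02_even (-1)
  have e2 := D.ip_S21_even (-1)
  norm_num at e1 e2
  rw [← D.c_eq_d] at e2
  have e3 : B (D.a (-2)) (D.a 3) = D.β 5 := by
    have h := D.bb_add 1 (-2) 3
    norm_num at h
    rw [h]; rfl
  have e4 : B (D.a (-2)) (D.a (-1)) = D.b := D.b_succ (-2)
  have e5 : B (D.a (-2)) (D.a 2) = D.β 4 := by
    have h := D.bb_add 1 (-2) 2
    norm_num at h
    rw [h]; rfl
  have e6 : B (D.a (-2)) (D.a 0) = D.c := by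
    have h := D.bb_add 1 (-2) 0
    norm_num at h
    rw [h]; rfl
  have e7 : B (D.a (-2)) (D.a 1) = D.β 3 := by
    have h := D.bb_add 1 (-2) 1
    norm_num at h
    rw [h]; rfl
  rw [e1, e2, e3, e4, e5, e6, e7, D.norm] at h
  exact h

theorem rec_b6 : D.b = D.β 6 + ((256 : ℝ) * D.b - 6) * (D.β 5 - D.c)
    + ((32768/7) * D.b ^ 2 - (2304/7) * D.b + (128/7) * D.c + 33/7) * (D.β 4 - D.β 3)
    - 32 * ((31 * D.c - 1) / 32 - (30 * D.b + D.c - 1) / 32) := by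
  have h := D.ip_R (D.a 4)
  have e1 := D.ip_S02_even 2
  have e2 := D.ip_S21_even 2
  norm_num at e1 e2
  rw [← D.c_eq_d] at e2
  have e3 : B (D.a 4) (D.a 3) = D.b := D.b_pred 4
  have e4 : B (D.a 4) (D.a (-2)) = D.β 6 := by
    have h := D.bb_add 1 (-2) 4
    norm_num at h
    rw [D.bb_symm, h]; rfl
  have e5 : B (D.a 4) (D.a (-1)) = D.β 5 := by
    have h := D.bb_refl 2 (-1) 4
    norm_num at h
    rw [D.bb_symm, h, D.bb_symm]; rfl
  have e6 : B (D.a 4) (D.a 2) = D.c := by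
    have h := D.bb_add (-1) 4 2
    norm_num at h
    rw [h, D.bb_symm]; rfl
  have e7 : B (D.a 4) (D.a 0) = D.β 4 := D.bb_symm _ _
  have e8 : B (D.a 4) (D.a 1) = D.β 3 := by
    have h := D.bb_refl 2 4 1
    norm_num at h
    rw [h]; rfl
  rw [e1, e2, e3, e4, e5, e6, e7, e8] at h
  exact h

set_option maxHeartbeats 2000000 in
/-- `s(0,3)` in terms of the lower elements. -/
theorem F0 : D.S 0 3 =
    ((16/3) * D.b - 19/96) • (D.a 1 + D.a (-1)) + (-7/96 : ℝ) • (D.a 2 + D.a (-2))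
      + ((84992/21) * D.b ^ 2 - (5360/21) * D.b - (172/21) * D.c + 1303/336) • D.a 0
      + (-(32768/7) * D.b ^ 2 + (19456/21) * D.b - (128/7) * D.c - 491/21) • D.S 0 1
      + (-256 * D.b + 10/3) • D.S 0 2 + (-1 : ℝ) • D.S (-1) 1 := by
  have h := congrArg (mul (D.a 0)) D.R
  have r3 : mul (D.a 0) (D.a 3) = D.S 0 3 + (1/32 : ℝ) • (D.a 0 + D.a 3) := D.mul_aa 0 3
  have hd := D.c_eq_d
  have hA := D.A_S21
  rw [← hd] at hA
  simp only [map_add, map_sub, map_smul, D.idem, D.r01, D.r0m1, D.r02, D.r0m2, D.rA2, hA, r3] at h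
  linear_combination (norm := module) h - (1/32 : ℝ) • D.R

theorem S36 : D.S 3 6 = D.S 0 3 := by
  have h := D.S_step 0 3
  rwa [show (2 * 3 - 0 : ℤ) = 6 by norm_num] at h

set_option maxHeartbeats 2000000 in
/-- `s(0,3)` computed from the centre `3`. -/
theorem F3 : D.S 0 3 =
    ((16/3) * D.b - 19/96) • (D.a 4 + D.a 2) + (-7/96 : ℝ) • (D.a 5 + D.a 1)
      + ((84992/21) * D.b ^ 2 - (5360/21) * D.b - (172/21) * D.c + 1303/336) • D.a 3
      + (-(32768/7) * D.b ^ 2 + (19456/21) * D.b - (128/7) * D.c - 491/21) • D.S 0 1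
      + (-256 * D.b + 10/3) • D.S (-1) 1 + (-1 : ℝ) • D.S 0 2 := by
  have h := (D.shift 3).F0
  have e1 : (D.shift 3).S 0 3 = D.S 0 3 := D.S36
  have e2 : (D.shift 3).S 0 1 = D.S 0 1 := D.S1_const 3
  have e3 : (D.shift 3).S 0 2 = D.S (-1) 1 := by
    have h := D.S_k 2 (-1) 2
    norm_num at h
    exact h
  have e4 : (D.shift 3).S (-1) 1 = D.S 0 2 := by
    have h := D.S_k 2 0 1
    norm_num at h
    exact h
  have e5 : (D.shift 3).c = D.c := by rw [D.shift3_c, D.c_eq_d]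
  rw [e1, e2, e3, e4, e5, shift_b] at h
  simpa only [shift_a, Int.reduceAdd, Int.reduceNeg] using h

/-- The second polynomial relation, raw form. -/
theorem rawP : (31 * D.β 3 - 1) / 32 =
    ((16/3) * D.b - 19/96) * (D.β 4 + D.c) + (-7/96) * (D.β 5 + D.b)
      + ((84992/21) * D.b ^ 2 - (5360/21) * D.b - (172/21) * D.c + 1303/336) * D.β 3
      + (-(32768/7) * D.b ^ 2 + (19456/21) * D.b - (128/7) * D.c - 491/21) * ((31 * D.b - 1) / 32)
      + (-256 * D.b + 10/3) * ((30 * D.b + D.c - 1) / 32) - (31 * D.c - 1) / 32 := by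
  have h := congrArg (B (D.a 0)) D.F3
  rw [D.ip_center] at h
  have e1 := D.ip_S02_even 0
  have e2 := D.ip_S21_even 0
  have e3 := D.ip_S1 0
  norm_num at e1 e2
  rw [← D.c_eq_d] at e2
  simp only [map_add, map_smul, smul_eq_mul, e1, e2, e3] at h
  have e4 : B (D.a 0) (D.a 1) = D.b := rfl
  have e5 : B (D.a 0) (D.a 2) = D.c := rfl
  rw [e4, e5] at h
  show (31 * B (D.a 0) (D.a 3) - 1) / 32 = ((16/3) * D.b - 19/96) * (B (D.a 0) (D.a 4) + D.c) + (-7/96) * (B (D.a 0) (D.a 5) + D.b)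
      + ((84992/21) * D.b ^ 2 - (5360/21) * D.b - (172/21) * D.c + 1303/336) * B (D.a 0) (D.a 3)
      + (-(32768/7) * D.b ^ 2 + (19456/21) * D.b - (128/7) * D.c - 491/21) * ((31 * D.b - 1) / 32)
      + (-256 * D.b + 10/3) * ((30 * D.b + D.c - 1) / 32) - (31 * D.c - 1) / 32
  rw [h]
  ring

theorem ip_S02_key (v : V) : B (D.S 0 2) v = B (D.a 0) (mul (D.a 2) v) - (1/32) * (B (D.a 0) v + B (D.a 2) v) := by
  have e : D.S 0 2 = mul (D.a 0) (D.a 2) - (1/32 : ℝ) • (D.a 0 + D.a 2) := rfl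
  rw [e, Amb_assoc D.amb]
  simp only [map_sub, LinearMap.sub_apply, map_add, LinearMap.add_apply, map_smul, LinearMap.smul_apply, smul_eq_mul]

theorem ip_S02S02 : B (D.S 0 2) (D.S 0 2) =
    (7/32) * ((31 * D.c - 1) / 32) + (7/2048) * (1 + D.β 4) + ((3/4) * D.c - 25/1024) * D.c
      - (1/16) * ((31 * D.c - 1) / 32) := by
  have h := D.A_S_c 2 0
  have e1 : (2 * 2 - 0 : ℤ) = 4 := by norm_num
  have e2 : D.S 2 0 = D.S 0 2 := D.S_symm _ _
  have e3 : B (D.a 2) (D.a 0) = D.c := D.bb_symm _ _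
  rw [e1, e2, e3] at h
  rw [D.ip_S02_key, h]
  have e4 := D.ip_S02_even 0
  have e5 := D.ip_S02_even 1
  norm_num at e4 e5
  simp only [map_add, map_smul, smul_eq_mul, e4, e5]
  have e6 : B (D.a 0) (D.a 2) = D.c := rfl
  have e7 : B (D.a 0) (D.a 4) = D.β 4 := rfl
  rw [e6, e7, D.norm]
  ring

theorem ip_S02S21 : B (D.S 0 2) (D.S (-1) 1) =
    ((1/6) * D.b - 19/3072) * (D.b + D.β 3) + (7/6144) * (1 + D.β 4)
      + (-(32/3) * D.b ^ 2 + (5/3) * D.b - (7/192) * D.c - (1/192) * D.c - 127/3072) * D.c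
      + ((32/3) * D.b - 19/48) * ((31 * D.b - 1) / 32) + (7/96) * ((31 * D.c - 1) / 32)
      - (1/16) * ((30 * D.b + D.c - 1) / 32) := by
  have h := (D.shift 2).A_S21
  have e1 : (D.shift 2).S (-1) 1 = D.S (-1) 1 := D.S13
  have e2 : (D.shift 2).S 0 1 = D.S 0 1 := D.S1_const 2
  have e3 : (D.shift 2).S 0 2 = D.S 0 2 := by
    have h := D.S_k 2 0 1
    norm_num at h
    exact h
  rw [e1, e2, e3, shift_b, shift2_c, shift2_d, ← D.c_eq_d] at h
  simp only [shift_a, Int.reduceAdd, Int.reduceNeg] at h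
  rw [D.ip_S02_key, h]
  have e4 := D.ip_S21_even 0
  have e5 := D.ip_S21_even 1
  have e6 := D.ip_S02_even 0
  norm_num at e4 e5 e6
  rw [← D.c_eq_d] at e4 e5
  have e8 := D.ip_S1 0
  simp only [map_add, map_smul, smul_eq_mul, e4, e5, e6, e8]
  have e9 : B (D.a 0) (D.a 2) = D.c := rfl
  have e10 : B (D.a 0) (D.a 4) = D.β 4 := rfl
  have e11 : B (D.a 0) (D.a 3) = D.β 3 := rfl
  have e12 : B (D.a 0) (D.a 1) = D.b := rfl
  rw [e9, e10, e11, e12, D.norm]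
  ring

/-- The first polynomial relation, raw form. -/
theorem rawQ : (30 * D.b + D.c - 1) / 32 = (31 * D.c - 1) / 32
    + ((256 : ℝ) * D.b - 6) * ((30 * D.b + D.c - 1) / 32 - (31 * D.c - 1) / 32)
    + ((32768/7) * D.b ^ 2 - (2304/7) * D.b + (128/7) * D.c + 33/7) * ((31 * D.c - 1) / 32 - (30 * D.b + D.c - 1) / 32)
    - 32 * (((7/32) * ((31 * D.c - 1) / 32) + (7/2048) * (1 + D.β 4) + ((3/4) * D.c - 25/1024) * D.c
      - (1/16) * ((31 * D.c - 1) / 32)) - (((1/6) * D.b - 19/3072) * (D.b + D.β 3) + (7/6144) * (1 + D.β 4)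
      + (-(32/3) * D.b ^ 2 + (5/3) * D.b - (7/192) * D.c - (1/192) * D.c - 127/3072) * D.c
      + ((32/3) * D.b - 19/48) * ((31 * D.b - 1) / 32) + (7/96) * ((31 * D.c - 1) / 32)
      - (1/16) * ((30 * D.b + D.c - 1) / 32))) := by
  have h := D.ip_R (D.S 0 2)
  rw [D.ip_S02S02, D.ip_S02S21] at h
  have e1 : B (D.S 0 2) (D.a 3) = (30 * D.b + D.c - 1) / 32 := by
    have := D.ip_S02_odd 1
    norm_num at this
    rw [D.bb_symm, this]
  have e2 : B (D.S 0 2) (D.a (-2)) = (31 * D.c - 1) / 32 := by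
    have := D.ip_S02_even (-1)
    norm_num at this
    rw [D.bb_symm, this]
  have e3 : B (D.S 0 2) (D.a (-1)) = (30 * D.b + D.c - 1) / 32 := by
    have := D.ip_S02_odd (-1)
    norm_num at this
    rw [D.bb_symm, this]
  have e4 : B (D.S 0 2) (D.a 2) = (31 * D.c - 1) / 32 := by
    have := D.ip_S02_even 1
    norm_num at this
    rw [D.bb_symm, this]
  have e5 : B (D.S 0 2) (D.a 0) = (31 * D.c - 1) / 32 := by
    have := D.ip_S02_even 0
    norm_num at this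
    rw [D.bb_symm, this]
  have e6 : B (D.S 0 2) (D.a 1) = (30 * D.b + D.c - 1) / 32 := by
    have := D.ip_S02_odd 0
    norm_num at this
    rw [D.bb_symm, this]
  rw [e1, e2, e3, e4, e5, e6] at h
  exact h

theorem eq_of_beta {k : ℤ} (h : D.β k = 1) : D.a k = D.a 0 := by
  by_contra hne
  have hne' : D.a k - D.a 0 ≠ 0 := sub_ne_zero.2 hne
  have hp := Amb_pos D.amb hne'
  have h1 : B (D.a 0) (D.a k) = 1 := h
  have h2 : B (D.a k) (D.a 0) = 1 := by rw [D.bb_symm, h1]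
  simp only [map_sub, LinearMap.sub_apply, D.norm, h1, h2] at hp
  norm_num at hp

end Dih

set_option maxHeartbeats 4000000 in
theorem alg (b c b3 b4 b5 b6 : ℝ)
    (h3 : b3 = c + (256*b-6)*(b-c) + ((32768/7)*b^2-(2304/7)*b+(128/7)*c+33/7)*(1-b) - 32*((31*c-1)/32-(30*b+c-1)/32))
    (h4 : b = b4 + (256*b-6)*(b3-1) + ((32768/7)*b^2-(2304/7)*b+(128/7)*c+33/7)*(c-b) - 32*((31*c-1)/32-(30*b+c-1)/32))
    (h5 : b5 = 1 + (256*b-6)*(b-b4) + ((32768/7)*b^2-(2304/7)*b+(128/7)*c+33/7)*(c-b3) - 32*((31*c-1)/32-(30*b+c-1)/32))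
    (h6 : b = b6 + (256*b-6)*(b5-c) + ((32768/7)*b^2-(2304/7)*b+(128/7)*c+33/7)*(b4-b3) - 32*((31*c-1)/32-(30*b+c-1)/32))
    (hP : (31*b3-1)/32 = ((16/3)*b-19/96)*(b4+c) + (-7/96)*(b5+b)
      + ((84992/21)*b^2-(5360/21)*b-(172/21)*c+1303/336)*b3
      + (-(32768/7)*b^2+(19456/21)*b-(128/7)*c-491/21)*((31*b-1)/32)
      + (-256*b+10/3)*((30*b+c-1)/32) - (31*c-1)/32)
    (hQ : (30*b+c-1)/32 = (31*c-1)/32
      + (256*b-6)*((30*b+c-1)/32-(31*c-1)/32)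
      + ((32768/7)*b^2-(2304/7)*b+(128/7)*c+33/7)*((31*c-1)/32-(30*b+c-1)/32)
      - 32*(((7/32)*((31*c-1)/32)+(7/2048)*(1+b4)+((3/4)*c-25/1024)*c-(1/16)*((31*c-1)/32))
        - (((1/6)*b-19/3072)*(b+b3)+(7/6144)*(1+b4)
          +(-(32/3)*b^2+(5/3)*b-(7/192)*c-(1/192)*c-127/3072)*c
          +((32/3)*b-19/48)*((31*b-1)/32)+(7/96)*((31*c-1)/32)-(1/16)*((30*b+c-1)/32)))) :
    b = 1 ∨ c = 1 ∨ b3 = 1 ∨ b4 = 1 ∨ b5 = 1 ∨ b6 = 1 := by
  have e3 : b3 = -(32768/7)*b^3 - (1920/7)*b*c + (36864/7)*b^2 - (2169/7)*b - (33/7)*c + (33/7) := by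
    rw [h3]; ring
  have e4 : b4 = (8388608/7)*b^4 + 65536*b^2*c - (9601024/7)*b^3 - (640/7)*b*c + 110592*b^2 - (128/7)*c^2 - (19840/7)*b - 3*c + (156/7) := by
    linear_combination (-1 : ℝ)*h4 - (256*b-6)*e3
  have e5 : b5 = -(13958643712/49)*b^5 - (754974720/49)*b^3*c + (16273899520/49)*b^4 + (475136/49)*b*c^2 + (12582912/49)*b^2*c - (1633419264/49)*b^3 + (259584/49)*b*c + (8683520/7)*b^2 - (256/49)*c^2 - (137721/7)*b - (5256/49)*c + (5512/49) := by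
    linear_combination h5 - (256*b-6)*e4 - ((32768/7)*b^2-(2304/7)*b+(128/7)*c+33/7)*e3
  have e6 : b6 = (3298534883328/49)*b^6 + (177167400960/49)*b^4*c - (3917010173952/49)*b^5 - (25165824/7)*b^2*c^2 - (5511315456/49)*b^3*c + (469317451776/49)*b^4 + (2457600/49)*b*c^2 - (97910784/49)*b^2*c - (22767894528/49)*b^3 + (16384/49)*c^3 + (5162880/49)*b*c + (542429184/49)*b^2 + (1152/49)*c^2 - (904320/7)*b - (46500/49)*c + (29013/49) := by
    linear_combination (-1 : ℝ)*h6 - (256*b-6)*e5 - ((32768/7)*b^2-(2304/7)*b+(128/7)*c+33/7)*(e4-e3)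
  clear h3 h4 h5 h6
  subst e3 e4 e5 e6
  have hQ' : 2097152*b^4 + 40960*b^2*c - 2326528*b^3 + 8896*b*c + 184320*b^2 + 128*c^2 - 4800*b - 167*c + 39 = 0 := by
    linear_combination (56/3)*hQ
  have hP' : -536870912*b^5 - 26214400*b^3*c + 605028352*b^4 - 94208*b*c^2 + 1593344*b^2*c - 44138496*b^3 - 165856*b*c + 860160*b^2 - 2784*c^2 + 2016*b + 2901*c - 117 = 0 := by
    linear_combination (196/3)*hP
  clear hP hQ
  have hE : 1006632960*b^5 + 3932160*b^3*c - 1061683200*b^4 + 9031680*b^2*c + 40919040*b^3 - 95280*b*c + 1336320*b^2 - 73680*b - (2925/4)*c + (2925/4) = 0 := by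
    linear_combination hP' - (-736*b - (87/4))*hQ'
  have hRes : b*(b-1)*(8*b-1)*(32*b-1)*(64*b-1)*(64*b-1)*(256*b-13)*(256*b-5)*(128*b-3) = 0 := by
    linear_combination (-(16777216/49)*b^6 - 1572864*b^5 - (87697408/49)*b^4 + (1873728/49)*b^3 + (71711/784)*b^2 - (77415/25088)*b - (38025/3211264))*hQ' + ((524288/735)*b^5 + (8192/735)*b^3*c + (1257472/105)*b^4 + (128/5)*b^2*c + (382752/245)*b^3 - (397/1470)*b*c - (33293/588)*b^2 + (7849/18816)*b - (13/6272)*c + (507/802816))*hE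
  have hcases : b = 0 ∨ b = 1 ∨ b = 1/8 ∨ b = 1/32 ∨ b = 1/64 ∨ b = 13/256 ∨ b = 5/256 ∨ b = 3/128 := by
    simp only [mul_eq_zero] at hRes
    rcases hRes with ((((((((h|h)|h)|h)|h)|h)|h)|h)|h)
    · exact Or.inl h
    · exact Or.inr (Or.inl (by linarith))
    · exact Or.inr (Or.inr (Or.inl (by linarith)))
    · exact Or.inr (Or.inr (Or.inr (Or.inl (by linarith))))
    · exact Or.inr (Or.inr (Or.inr (Or.inr (Or.inl (by linarith)))))
    · exact Or.inr (Or.inr (Or.inr (Or.inr (Or.inl (by linarith)))))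
    · exact Or.inr (Or.inr (Or.inr (Or.inr (Or.inr (Or.inl (by linarith))))))
    · exact Or.inr (Or.inr (Or.inr (Or.inr (Or.inr (Or.inr (Or.inl (by linarith)))))))
    · exact Or.inr (Or.inr (Or.inr (Or.inr (Or.inr (Or.inr (Or.inr (by linarith)))))))
  rcases hcases with hb | hb | hb | hb | hb | hb | hb | hb
  · rw [hb] at hE
    exact Or.inr (Or.inl (by linarith))
  · exact Or.inl hb
  · rw [hb] at hE
    exact Or.inr (Or.inl (by linarith))
  · rw [hb] at hE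
    have hc : c = 0 := by linarith
    rw [hb, hc]
    norm_num
  · rw [hb] at hQ'
    have h2 : (c - 1/64) * (c - 1/8) = 0 := by linear_combination (1/128 : ℝ) * hQ'
    rcases mul_eq_zero.1 h2 with h | h
    · have hc : c = 1/64 := by linarith
      rw [hb, hc]
      norm_num
    · have hc : c = 1/8 := by linarith
      rw [hb, hc]
      norm_num
  · rw [hb] at hE
    have hc : c = 13/256 := by linarith
    rw [hb, hc]
    norm_num
  · rw [hb] at hE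
    have hc : c = 13/256 := by linarith
    rw [hb, hc]
    norm_num
  · rw [hb] at hE
    have hc : c = 3/128 := by linarith
    rw [hb, hc]
    norm_num


/-- Sakuma's theorem for a dihedral sequence of axes. -/
theorem Dih.exists_axis_eq (D : Dih mul B) : ∃ n : ℕ, 1 ≤ n ∧ n ≤ 6 ∧ D.a (n : ℤ) = D.a 0 := by
  have hb3 := D.rec_b3
  have hb4 := D.rec_b4
  have hb5 := D.rec_b5
  have hb6 := D.rec_b6
  have hP := D.rawP
  have hQ := D.rawQ
  have h := alg D.b D.c (D.β 3) (D.β 4) (D.β 5) (D.β 6) hb3 hb4 hb5 hb6 hP hQ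
  rcases h with h | h | h | h | h | h
  · exact ⟨1, le_refl _, by norm_num, D.eq_of_beta h⟩
  · exact ⟨2, by norm_num, by norm_num, D.eq_of_beta h⟩
  · exact ⟨3, by norm_num, by norm_num, D.eq_of_beta h⟩
  · exact ⟨4, by norm_num, by norm_num, D.eq_of_beta h⟩
  · exact ⟨5, by norm_num, by norm_num, D.eq_of_beta h⟩
  · exact ⟨6, by norm_num, le_refl _, D.eq_of_beta h⟩

end Cfsg.Agent.H26.Sak
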