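import Mathlib
import Cfsg.Agent.Lib.H03.Stable2
import Cfsg.Agent.Lib.H14.GT

/-! The subgroup `W(D)` of a subgroup `D` inside the ambient group. -/

set_option autoImplicit false
set_option linter.style.haveILetI false
set_option linter.unusedVariables false
set_option linter.unusedSectionVars false

namespace Cfsg.Agent.H26.WC

open Cfsg Cfsg.Agent.H03

universe u

section

variable {G G' : Type u} [Group G] [Group G'] {p : ℕ}

/-- `W(D)` inside the ambient group. -/
def wW (p : ℕ) (D : Subgroup G) : Subgroup G := (stableNormalClosure p ↥D).map D.subtype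

theorem wW_le (D : Subgroup G) : wW p D ≤ D := Subgroup.map_subtype_le _

/-- Transport along a homomorphism injective on `D`. -/
theorem wW_map (φ : G →* G') (D : Subgroup G) (hinj : ∀ x ∈ D, φ x = 1 → x = 1) :
    (wW p D).map φ = wW p (D.map φ) := by
  have hi : Function.Injective (φ.subgroupMap D) := by
    rw [injective_iff_map_eq_one]
    rintro ⟨x, hx⟩ h
    exact Subtype.ext (hinj x hx (congrArg Subtype.val h))
  let e : ↥D ≃* ↥(D.map φ) :=
    MulEquiv.ofBijective (φ.subgroupMap D) ⟨hi, φ.subgroupMap_surjective D⟩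
  have h1 := stableNormalClosure_map (p := p) e
  unfold wW
  rw [← h1, Subgroup.map_map, Subgroup.map_map]
  congr 1

/-- Conjugation by a normalizing element preserves `W(D)`. -/
theorem wW_conj {D : Subgroup G} {g : G} (hg : g ∈ Subgroup.normalizer (D : Set G)) {x : G}
    (hx : x ∈ wW p D) : g * x * g⁻¹ ∈ wW p D := by
  have h1 := wW_map (p := p) (MulAut.conj g).toMonoidHom D (fun y _ hy => by
    have : g * y * g⁻¹ = 1 := hy
    have h2 : y = g⁻¹ * (g * y * g⁻¹) * g := by group
    rw [h2, this]; group)
  have h2 : D.map (MulAut.conj g).toMonoidHom = D := by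
    ext y
    constructor
    · rintro ⟨d, hd, rfl⟩
      exact (Subgroup.mem_normalizer_iff.mp hg d).mp hd
    · intro hy
      refine ⟨g⁻¹ * y * g, ?_, ?_⟩
      · apply (Subgroup.mem_normalizer_iff.mp hg _).mpr
        have : g * (g⁻¹ * y * g) * g⁻¹ = y := by group
        rwa [this]
      · change g * (g⁻¹ * y * g) * g⁻¹ = y
        group
  rw [h2] at h1
  rw [← h1]
  exact ⟨x, hx, rfl⟩

theorem normalizer_le_normalizer_wW (D : Subgroup G) :
    Subgroup.normalizer (D : Set G) ≤ Subgroup.normalizer (wW p D : Set G) := by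
  intro g hg
  rw [Subgroup.mem_normalizer_iff]
  intro x
  refine ⟨fun hx => wW_conj hg hx, fun hx => ?_⟩
  have := wW_conj (Subgroup.inv_mem _ hg) hx
  simpa [mul_assoc] using this

theorem wW_ne_bot [Finite G] [Fact p.Prime] {D : Subgroup G} (hD : IsPGroup p D) (hne : D ≠ ⊥) :
    wW p D ≠ ⊥ := by
  classical
  intro h
  have hb : stableNormalClosure p ↥D = ⊥ :=
    (Subgroup.map_eq_bot_iff_of_injective _ D.subtype_injective).mp h
  haveI : Nontrivial ↥D := (Subgroup.nontrivial_iff_ne_bot D).mpr hne
  have hc : Nontrivial (Subgroup.center ↥D) := hD.center_nontrivial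
  have hdvd : p ∣ Nat.card (Subgroup.center ↥D) := by
    obtain ⟨n, hn, hk⟩ := (hD.to_subgroup (Subgroup.center ↥D)).nontrivial_iff_card.mp hc
    rw [hk]
    exact dvd_pow_self p hn.ne'
  obtain ⟨x, hx⟩ := exists_prime_orderOf_dvd_card' p hdvd
  have hxne : (x : ↥D) ≠ 1 := by
    intro h
    have : x = 1 := Subtype.ext h
    rw [this, orderOf_one] at hx
    exact (Fact.out : p.Prime).one_lt.ne hx
  have hmem : (x : ↥D) ∈ omegaOne p (Subgroup.center ↥D) := by
    apply mem_omegaOne_of_mem x.2
    have : x ^ p = 1 := by rw [← hx, pow_orderOf_eq_one]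
    exact congrArg Subtype.val this
  have := omegaOne_center_le_stableNormalClosure hmem
  rw [hb, Subgroup.mem_bot] at this
  exact hxne this

end

end Cfsg.Agent.H26.WC
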