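import Mathlib
import Cfsg.Agent.Lib.H26.WClosure
import Cfsg.Agent.S0624
import Cfsg.Agent.Lib.H14.GT
import Cfsg.Agent.Lib.H01.Basic
import Cfsg.Agent.Lib.H02.SolvH

/-! Action stability from the structure at the end of the Glauberman--Thompson argument. -/

set_option autoImplicit false
set_option linter.style.haveILetI false
set_option linter.unusedVariables false
set_option linter.unusedSectionVars false

namespace Cfsg.Agent.H26.WC

open Cfsg Cfsg.Agent.H14 Cfsg.Agent.H13

open scoped commutatorElement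

section

variable {G : Type*} [Group G] [Finite G] {p : ℕ} [Fact p.Prime]

lemma quad_of_mem_zpowers {V : Subgroup G} {a b : G} (hb : b ∈ Subgroup.zpowers a) {M : Subgroup G}
    (h : ⁅⁅V, Subgroup.zpowers a⁆, Subgroup.zpowers a⁆ ≤ M) :
    ⁅⁅V, Subgroup.zpowers b⁆, Subgroup.zpowers b⁆ ≤ M := by
  have hle : Subgroup.zpowers b ≤ Subgroup.zpowers a := (Subgroup.zpowers_le).mpr hb
  exact (Subgroup.commutator_mono (Subgroup.commutator_mono le_rfl hle) hle).trans h

/-- A conjugate of a `p`-element lies in `P`. -/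
lemma exists_conj_mem_sylow (P : Sylow p G) {a : G} {k : ℕ} (hk : orderOf a = p ^ k) :
    ∃ y : G, y * a * y⁻¹ ∈ (P : Subgroup G) := by
  have hp : p.Prime := Fact.out
  have hz : IsPGroup p (Subgroup.zpowers a) := by
    apply IsPGroup.of_card (n := k)
    rw [Nat.card_zpowers, hk]
  obtain ⟨Q, hQ⟩ := hz.exists_le_sylow
  obtain ⟨y, hy⟩ := MulAction.exists_smul_eq G Q P
  refine ⟨y, ?_⟩
  rw [← hy]
  exact ⟨a, hQ (Subgroup.mem_zpowers a), rfl⟩

/-- Stability data for all elements from stability data for the elements of `P`. -/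
theorem stable_all (P : Sylow p G) (hst : NormalStable p (P : Subgroup G)) {V : Subgroup G}
    (hVp : IsPGroup p V) (hVn : V.Normal) :
    ∃ T : Subgroup G, T.Normal ∧ Subgroup.centralizer (V : Set G) ≤ T ∧
      (∃ m : ℕ, (Subgroup.centralizer (V : Set G)).relIndex T = p ^ m) ∧
      ∀ a : G, ⁅⁅V, Subgroup.zpowers a⁆, Subgroup.zpowers a⁆ = ⊥ → a ∈ T := by
  classical
  obtain ⟨T, hTn, hCT, hm, hT⟩ := hst V hVp hVn
  refine ⟨T, hTn, hCT, hm, fun a ha => ?_⟩
  obtain ⟨a₁, b, rfl, hcomm, ⟨k, hk⟩, hb, ha', hb'⟩ := Cfsg.Agent.H19.exists_primary_decomp p a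
  have hq1 := quad_of_mem_zpowers ha' (le_of_eq ha)
  have hq2 := quad_of_mem_zpowers hb' (le_of_eq ha)
  refine T.mul_mem ?_ (hCT ?_)
  · obtain ⟨y, hy⟩ := exists_conj_mem_sylow P hk
    have h1 := hT _ hy (Cfsg.Agent.H03.quad_conj (V := V) y (le_bot_iff.mp hq1))
    have h2 := hTn.conj_mem _ h1 y⁻¹
    have e : y⁻¹ * (y * a₁ * y⁻¹) * y⁻¹⁻¹ = a₁ := by group
    rwa [e] at h2
  · rw [Subgroup.mem_centralizer_iff]
    intro v hv
    let B' : Subgroup G := V ⊓ Subgroup.centralizer ({b} : Set G)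
    have hB'p : IsPGroup p B' := hVp.to_le inf_le_left
    have := centralizes_of_stabilizes (B := V) (B' := B') hB'p hb
      (fun c hc => (Subgroup.mem_centralizer_iff.mp hc.2 b rfl))
      (fun u hu => by
        refine ⟨V.mul_mem (hVn.conj_mem u hu b) (V.inv_mem hu), ?_⟩
        change b * u * b⁻¹ * u⁻¹ ∈ Subgroup.centralizer ({b} : Set G)
        rw [Subgroup.mem_centralizer_iff]
        intro z hz
        have hz' : z = b := hz
        rw [hz']
        have h1 : ⁅⁅u, b⁆, b⁆ ∈ ⁅⁅V, Subgroup.zpowers b⁆, Subgroup.zpowers b⁆ :=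
          Subgroup.commutator_mem_commutator
            (Subgroup.commutator_mem_commutator hu (Subgroup.mem_zpowers b)) (Subgroup.mem_zpowers b)
        have h2 := hq2 h1
        rw [Subgroup.mem_bot, commutatorElement_eq_one_iff_mul_comm] at h2
        have h3 : Commute ⁅u, b⁆ b := h2
        have e : b * u * b⁻¹ * u⁻¹ = ⁅u, b⁆⁻¹ := by
          rw [commutatorElement_def]; group
        rw [e]
        exact (h3.inv_left).symm.eq) v hv
    exact this.symm

/-- Image in `O_p` of the quotient by the kernel. -/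
lemma mem_pCore_of_T {N : Type*} [Group N] [Finite N] {C : Subgroup N} [hC : C.Normal]
    (T : Subgroup N) (hTn : T.Normal) (hT : ∀ t ∈ T, ∃ k : ℕ, t ^ p ^ k ∈ C) {a : N} (ha : a ∈ T) :
    (QuotientGroup.mk a : N ⧸ C) ∈ pCore p (N ⧸ C) := by
  let π := QuotientGroup.mk' C
  have hTn' : (T.map π).Normal := hTn.map π (QuotientGroup.mk'_surjective C)
  have hTp : IsPGroup p (T.map π) := by
    rintro ⟨_, t, ht, rfl⟩
    obtain ⟨m, hm⟩ := hT t ht
    refine ⟨m, Subtype.ext ?_⟩
    change π t ^ p ^ m = 1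
    rw [← map_pow]
    exact (QuotientGroup.eq_one_iff _).mpr hm
  exact Cfsg.Agent.H01.le_pCore hTn' hTp ⟨a, ha, rfl⟩

theorem isPStableOn_of_stable_all {V : Subgroup G} [hV : V.Normal]
    (h : ∃ T : Subgroup G, T.Normal ∧ Subgroup.centralizer (V : Set G) ≤ T ∧
      (∃ m : ℕ, (Subgroup.centralizer (V : Set G)).relIndex T = p ^ m) ∧
      ∀ a : G, ⁅⁅V, Subgroup.zpowers a⁆, Subgroup.zpowers a⁆ = ⊥ → a ∈ T) :
    IsPStableOn p V := by
  classical
  obtain ⟨T, hTn, hCT, ⟨m, hm⟩, hT⟩ := h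
  intro a ha
  haveI hCn : (Subgroup.centralizer (V : Set G)).Normal := Subgroup.normal_centralizer
  refine mem_pCore_of_T T hTn (fun t ht => ⟨m, ?_⟩) (hT a ha)
  have h1 := Subgroup.pow_index_mem ((Subgroup.centralizer (V : Set G)).subgroupOf T) (⟨t, ht⟩ : T)
  have h2 : ((Subgroup.centralizer (V : Set G)).subgroupOf T).index = p ^ m := hm
  rw [h2, Subgroup.mem_subgroupOf] at h1
  simpa using h1

/-- All elements of a group acting on a subgroup of a normalizer. -/
theorem normalizer_inf_le_thompson (S₀ C : Subgroup G)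
    (hAC : ∀ A ∈ maxElementaryAbelianSubgroups p ↥S₀, A.map S₀.subtype ≤ C) :
    Subgroup.normalizer ((S₀ ⊓ C : Subgroup G) : Set G) ≤
      Subgroup.normalizer (thompsonSubgroupOf p S₀ : Set G) := by
  classical
  intro n hn
  apply Cfsg.Agent.H13.mem_normalizer_of_map_conj_le
  rw [Cfsg.thompsonSubgroupOf, Subgroup.map_le_iff_le_comap, Subgroup.map_le_iff_le_comap,
    Cfsg.thompsonSubgroup]
  refine sSup_le fun A hA => ?_
  rw [← Subgroup.map_le_iff_le_comap, ← Subgroup.map_le_iff_le_comap]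
  -- the conjugate of `A`
  set A₁ := A.map S₀.subtype with hA₁
  have hA₁le : A₁.map (MulAut.conj n).toMonoidHom ≤ S₀ ⊓ C := by
    rw [← Cfsg.Agent.H13.map_conj_eq_of_mem_normalizer hn]
    exact Subgroup.map_mono (le_inf (by
      rintro _ ⟨a, _, rfl⟩
      exact a.2) (hAC A hA))
  set A₂ := (A₁.map (MulAut.conj n).toMonoidHom).comap S₀.subtype with hA₂
  have hA₂map : A₂.map S₀.subtype = A₁.map (MulAut.conj n).toMonoidHom := by
    apply Subgroup.map_comap_eq_self
    rw [Subgroup.range_subtype]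
    exact hA₁le.trans inf_le_left
  have hA₁EA : Cfsg.IsElementaryAbelian p A₁ := Cfsg.Agent.H03.isEA_map _ hA.1
  have hA₃EA : Cfsg.IsElementaryAbelian p (A₁.map (MulAut.conj n).toMonoidHom) :=
    Cfsg.Agent.H03.isEA_map _ hA₁EA
  have hA₂EA : Cfsg.IsElementaryAbelian p A₂ := by
    refine ⟨Cfsg.Agent.H03.isMulCommutative_of_forall ?_, ?_⟩
    · intro x hx y hy
      apply Subtype.ext
      exact Cfsg.Agent.H03.mul_comm_of_isMulCommutative hA₃EA.1 hx hy
    · intro a ha
      apply Subtype.ext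
      exact hA₃EA.2 _ ha
  have hA₂card : Nat.card A₂ = Nat.card A := by
    have h1 : Nat.card (A₂.map S₀.subtype) = Nat.card A₂ :=
      Subgroup.card_map_of_injective S₀.subtype_injective
    have h2 : Nat.card A₁ = Nat.card A := Subgroup.card_map_of_injective S₀.subtype_injective
    rw [← h1, hA₂map, ← h2]
    exact Cfsg.Agent.H13.card_map_conj n A₁
  have hA₂max : A₂ ∈ Cfsg.maxElementaryAbelianSubgroups p ↥S₀ :=
    ⟨hA₂EA, fun B hB => by rw [hA₂card]; exact hA.2 B hB⟩
  rw [← hA₂map]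
  exact Subgroup.map_mono (le_sSup hA₂max)

/-- The section part of stability. -/
theorem section_stable (hp2 : p ≠ 2) (P : Sylow p G) {X : Subgroup G} (hXn : X.Normal)
    (hQX : pCore p G ≤ X)
    (hXQ : ∀ a ∈ X, ∀ b ∈ X, a * b * a⁻¹ * b⁻¹ ∈ pCore p G) {m : ℕ} (hm : m.Coprime p)
    (hXm : ∀ x ∈ X, x ^ m ∈ pCore p G) (hXP : X ⊔ (P : Subgroup G) = ⊤)
    (hXidx : ∃ k, X.index = p ^ k)
    (hirr : ∀ X₁ : Subgroup G, X₁.Normal → pCore p G ≤ X₁ → X₁ ≤ X →
      X₁ = pCore p G ∨ X₁ = X) (hXne : X ≠ pCore p G)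
    (hc : Subgroup.centralizer (pCore p G : Set G) ≤ pCore p G) {a : G}
    (ha : ⁅⁅pCore p G, Subgroup.zpowers a⁆, Subgroup.zpowers a⁆ ≤
      (frattini ↥(pCore p G)).map (pCore p G).subtype) : a ∈ pCore p G := by
  classical
  have hp : p.Prime := Fact.out
  have hQn : (pCore p G).Normal := Cfsg.Agent.H01.pCore_normal p
  have hQp : IsPGroup p (pCore p G) := Cfsg.Agent.H01.pCore_isPGroup p
  have hQP : pCore p G ≤ (P : Subgroup G) := Cfsg.Agent.H01.pCore_le_sylow p P
  haveI := hQn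
  set Q := pCore p G with hQ
  have hΦn : ((frattini ↥Q).map Q.subtype).Normal := Cfsg.Agent.H02.frattini_map_normal Q
  set Φ := (frattini ↥Q).map Q.subtype with hΦ
  have hΦQ : Φ ≤ Q := Subgroup.map_subtype_le _
  have hcoprimeF : ∀ {A : Subgroup G} {n : ℕ}, (Nat.card A).Coprime p →
      (Nat.card A).Coprime (Nat.card (frattini ↥Q)) := by
    intro A n hA
    obtain ⟨n, hn⟩ := IsPGroup.iff_card.mp (hQp.to_subgroup (frattini ↥Q))
    rw [hn]
    exact Nat.Coprime.pow_right _ hA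
  let π := QuotientGroup.mk' Φ
  have hπ : ∀ x : G, π x = 1 ↔ x ∈ Φ := fun x => QuotientGroup.eq_one_iff x
  -- elements of order prime to `p` trivial on the quotient
  have hburn : ∀ y : G, (orderOf y).Coprime p →
      (∀ k ∈ Q, y * k * y⁻¹ * k⁻¹ ∈ Φ) → y = 1 := by
    intro y hy htriv
    have hz : Subgroup.zpowers y ≤ Subgroup.centralizer (Q : Set G) := by
      apply Cfsg.Agent.H01.centralizes_of_trivial_on_frattini_quotient
      · rw [Subgroup.normalizer_eq_top_iff.mpr hQn]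
        exact le_top
      · apply hcoprimeF (n := 0)
        rw [Nat.card_zpowers]
        exact hy
      · intro c hc' k hk
        obtain ⟨n, rfl⟩ := Subgroup.mem_zpowers_iff.mp hc'
        have h1 : Commute (π y) (π k) := by
          have h2 := (hπ _).mpr (htriv k hk)
          simp only [map_mul, map_inv] at h2
          have h3 : π y * π k = π k * π y := by
            calc π y * π k = (π y * π k * (π y)⁻¹ * (π k)⁻¹) * (π k * π y) := by group
              _ = π k * π y := by rw [h2, one_mul]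
          exact h3
        have h4 := h1.zpow_left n
        change _ ∈ Φ
        rw [← hπ]
        simp only [map_mul, map_inv, map_zpow]
        rw [h4.eq]
        group
    have hyQ : y ∈ Q := hc (hz (Subgroup.mem_zpowers y))
    obtain ⟨j, hj⟩ := hQp ⟨y, hyQ⟩
    exact eq_one_of_coprime_order (congrArg Subtype.val hj) hy
  -- quadratic and coprime is trivial, modulo `Φ`
  have hqt : ∀ y : G, (orderOf y).Coprime p →
      (∀ k ∈ Q, y * (y * k * y⁻¹ * k⁻¹) * y⁻¹ * (y * k * y⁻¹ * k⁻¹)⁻¹ ∈ Φ) →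
      ∀ k ∈ Q, y * k * y⁻¹ * k⁻¹ ∈ Φ := by
    intro y hy hq k hk
    let Qb : Subgroup (G ⧸ Φ) := Q.map π
    have hQbn : Qb.Normal := hQn.map π (QuotientGroup.mk'_surjective Φ)
    have hQbp : IsPGroup p Qb := hQp.map π
    let B' : Subgroup (G ⧸ Φ) := Qb ⊓ Subgroup.centralizer ({π y} : Set (G ⧸ Φ))
    have hB'p : IsPGroup p B' := hQbp.to_le inf_le_left
    have hyo : (orderOf (π y)).Coprime p :=
      Nat.Coprime.coprime_dvd_left (orderOf_map_dvd π y) hy
    have h1 := centralizes_of_stabilizes (B := Qb) (B' := B') hB'p hyo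
      (fun c hc' => Subgroup.mem_centralizer_iff.mp hc'.2 (π y) rfl)
      (by
        rintro _ ⟨u, hu, rfl⟩
        refine ⟨?_, ?_⟩
        · exact ⟨y * u * y⁻¹ * u⁻¹, Q.mul_mem (hQn.conj_mem u hu y) (Q.inv_mem hu), by
            simp only [map_mul, map_inv]⟩
        · change _ ∈ Subgroup.centralizer ({π y} : Set (G ⧸ Φ))
          rw [Subgroup.mem_centralizer_iff]
          intro z hz
          have hz' : z = π y := hz
          rw [hz']
          have h2 := (hπ _).mpr (hq u hu)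
          simp only [map_mul, map_inv] at h2 ⊢
          set c := π y * π u * (π y)⁻¹ * (π u)⁻¹ with hc'
          have h3 : π y * c = c * π y := by
            calc π y * c = (π y * c * (π y)⁻¹ * c⁻¹) * (c * π y) := by group
              _ = c * π y := by rw [h2, one_mul]
          exact h3)
      (π k) ⟨k, hk, rfl⟩
    rw [← hπ]
    simp only [map_mul, map_inv]
    rw [h1]
    group
  -- reduction to an element of `P`
  have hlift : ∀ {c : G}, c ∈ Subgroup.zpowers a → ∀ (y k : G), k ∈ Q →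
      (y * c * y⁻¹) * ((y * c * y⁻¹) * k * (y * c * y⁻¹)⁻¹ * k⁻¹) * (y * c * y⁻¹)⁻¹ *
        ((y * c * y⁻¹) * k * (y * c * y⁻¹)⁻¹ * k⁻¹)⁻¹ ∈ Φ := by
    intro c hc' y k hk
    have hk' : y⁻¹ * k * y ∈ Q := by
      have := hQn.conj_mem k hk y⁻¹
      simpa using this
    have h1 : ⁅⁅y⁻¹ * k * y, c⁆, c⁆ ∈ ⁅⁅Q, Subgroup.zpowers a⁆, Subgroup.zpowers a⁆ :=
      Subgroup.commutator_mem_commutator (Subgroup.commutator_mem_commutator hk' hc') hc'
    have h2 := ha h1
    have h3 := hΦn.conj_mem _ h2 (y * ⁅y⁻¹ * k * y, c⁆⁻¹)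
    convert h3 using 1
    simp only [commutatorElement_def]
    group
  obtain ⟨a₁, b, e, hcomm, ⟨k, hk⟩, hb, ha', hb'⟩ := Cfsg.Agent.H19.exists_primary_decomp p a
  have hb1 : b = 1 := by
    apply hburn b hb
    apply hqt b hb
    intro k hk
    have := hlift hb' 1 k hk
    simpa using this
  rw [hb1, mul_one] at e
  obtain ⟨y, hy⟩ := exists_conj_mem_sylow P hk
  set g := y * a₁ * y⁻¹ with hg
  have hgq := hlift ha' y
  rw [← hg] at hgq
  have hcomm' : ∀ a ∈ Q, ∀ b ∈ Q, a * b * a⁻¹ * b⁻¹ ∈ Φ := by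
    intro a ha b hb
    have h1 : ⁅(⟨a, ha⟩ : ↥Q), (⟨b, hb⟩ : ↥Q)⁆ ∈ frattini ↥Q :=
      Cfsg.Agent.H01.commutator_le_frattini_of_isPGroup hQp
        (Subgroup.commutator_mem_commutator (Subgroup.mem_top _) (Subgroup.mem_top _))
    exact ⟨_, h1, rfl⟩
  have hpow' : ∀ b ∈ Q, b ^ p ∈ Φ := by
    intro b hb
    exact ⟨_, Cfsg.Agent.H01.pow_mem_frattini_of_isPGroup hQp ⟨b, hb⟩, rfl⟩
  have hsec := quad_section hp hp2 hQn hΦn hcomm' hpow' hcomm' hXn hXQ hm hXm (g := g) hgq
  have hgQ : g ∈ Q := by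
    let X₁ : Subgroup G :=
      { carrier := {x | x ∈ X ∧ ∀ b ∈ Q, x * b * x⁻¹ * b⁻¹ ∈ Φ}
        mul_mem' := by
          rintro a c ⟨ha, ha'⟩ ⟨hc, hc'⟩
          refine ⟨X.mul_mem ha hc, fun b hb => ?_⟩
          have e : a * c * b * (a * c)⁻¹ * b⁻¹ =
              a * (c * b * c⁻¹ * b⁻¹) * a⁻¹ * (a * b * a⁻¹ * b⁻¹) := by group
          rw [e]
          exact Φ.mul_mem (hΦn.conj_mem _ (hc' b hb) a) (ha' b hb)
        one_mem' := ⟨X.one_mem, fun b _ => by
          have : 1 * b * (1 : G)⁻¹ * b⁻¹ = 1 := by group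
          rw [this]
          exact Φ.one_mem⟩
        inv_mem' := by
          rintro a ⟨ha, ha'⟩
          refine ⟨X.inv_mem ha, fun b hb => ?_⟩
          have hb' : a⁻¹ * b * a ∈ Q := by
            have := hQn.conj_mem b hb a⁻¹
            simpa using this
          have e : a⁻¹ * b * a⁻¹⁻¹ * b⁻¹ = (a * (a⁻¹ * b * a) * a⁻¹ * (a⁻¹ * b * a)⁻¹)⁻¹ := by
            group
          rw [e]
          exact Φ.inv_mem (ha' _ hb') }
    have hX₁n : X₁.Normal := by
      refine ⟨fun x hx u => ⟨hXn.conj_mem x hx.1 u, fun b hb => ?_⟩⟩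
      have hb' : u⁻¹ * b * u ∈ Q := by
        have := hQn.conj_mem b hb u⁻¹
        simpa using this
      have e : u * x * u⁻¹ * b * (u * x * u⁻¹)⁻¹ * b⁻¹ =
          u * (x * (u⁻¹ * b * u) * x⁻¹ * (u⁻¹ * b * u)⁻¹) * u⁻¹ := by group
      rw [e]
      exact hΦn.conj_mem _ (hx.2 _ hb') u
    have hQX₁ : Q ≤ X₁ := fun q hq' => ⟨hQX hq', fun b hb => hcomm' q hq' b hb⟩
    rcases hirr X₁ hX₁n hQX₁ (fun x hx => hx.1) with h | h
    · apply mem_core_of_centralizing P hXn hXP hy
      intro x hx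
      rw [← hQ, ← h]
      refine ⟨?_, hsec x hx⟩
      have h1 : g * x⁻¹ * g⁻¹ ∈ X := hXn.conj_mem _ (X.inv_mem hx) g
      have e : x * g * x⁻¹ * g⁻¹ = x * (g * x⁻¹ * g⁻¹) := by group
      rw [e]
      exact X.mul_mem hx h1
    · exfalso
      apply hXne
      apply le_antisymm _ hQX
      apply Cfsg.Agent.H01.le_pCore hXn
      rw [IsPGroup.iff_orderOf]
      rintro ⟨x, hx⟩
      obtain ⟨x₁, z, ex, -, ⟨j, hj⟩, hz, hx₁, hz'⟩ := Cfsg.Agent.H19.exists_primary_decomp p x
      have hzX : z ∈ X := (Subgroup.zpowers_le.mpr hx) hz'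
      have hz1 : z = 1 := by
        apply hburn z hz
        have : z ∈ X₁ := by rw [h]; exact hzX
        exact this.2
      refine ⟨j, ?_⟩
      rw [Subgroup.orderOf_mk, ex, hz1, mul_one, hj]
  have h2 := hQn.conj_mem _ hgQ y⁻¹
  have e2 : y⁻¹ * g * y⁻¹⁻¹ = a₁ := by rw [hg]; group
  rw [e2] at h2
  rw [e]
  exact h2

/-- Action stability from the structure at the end of the argument. -/
theorem action_stable (hp2 : p ≠ 2) (P : Sylow p G) {X : Subgroup G} (hXn : X.Normal)
    (hQX : pCore p G ≤ X)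
    (hXQ : ∀ a ∈ X, ∀ b ∈ X, a * b * a⁻¹ * b⁻¹ ∈ pCore p G) {m : ℕ} (hm : m.Coprime p)
    (hXm : ∀ x ∈ X, x ^ m ∈ pCore p G) (hXP : X ⊔ (P : Subgroup G) = ⊤)
    (hXidx : ∃ k, X.index = p ^ k)
    (hirr : ∀ X₁ : Subgroup G, X₁.Normal → pCore p G ≤ X₁ → X₁ ≤ X →
      X₁ = pCore p G ∨ X₁ = X) (hXne : X ≠ pCore p G)
    (hc : Subgroup.centralizer (pCore p G : Set G) ≤ pCore p G)
    (hK : ∀ S : Sylow p G, ∀ R : Subgroup G, pCore p G < R → R ≤ (S : Subgroup G) →
      (S : Subgroup G) ≤ NN R → FC p (NN R)) : IsActionPStable p G := by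
  classical
  have hp : p.Prime := Fact.out
  have hQn : (pCore p G).Normal := Cfsg.Agent.H01.pCore_normal p
  have hQp : IsPGroup p (pCore p G) := Cfsg.Agent.H01.pCore_isPGroup p
  have hst : NormalStable p (P : Subgroup G) :=
    normalStable_of_struct P hp2 hXn hQX hXQ hm hXm hXP hXidx hirr
  refine ⟨?_, ?_, ?_⟩
  · intro V hVn hV
    refine isPStableOn_of_stable_all (stable_all P hst ?_ hVn)
    rintro ⟨v, hv⟩
    exact ⟨1, Subtype.ext (by simpa using hV.2 v hv)⟩
  · intro a ha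
    haveI := hQn
    refine ⟨pCore p G, hQn, ?_, ?_, section_stable hp2 P hXn hQX hXQ hm hXm hXP hXidx hirr hXne hc ha⟩
    · have hΦn : ((frattini ↥(pCore p G)).map (pCore p G).subtype).Normal :=
        Cfsg.Agent.H02.frattini_map_normal (pCore p G)
      haveI := hΦn
      have h1 := Cfsg.Agent.S0624.isPGroup_sectionKernel hc
      apply Cfsg.Agent.H01.le_pCore _ h1
      have h2 : ((pCore p G).map (QuotientGroup.mk' ((frattini ↥(pCore p G)).map (pCore p G).subtype))).Normal :=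
        hQn.map _ (QuotientGroup.mk'_surjective _)
      haveI := h2
      unfold sectionKernel
      exact (Subgroup.normal_centralizer).comap _
    · have h1 : (sectionKernel (pCore p G) ((frattini ↥(pCore p G)).map (pCore p G).subtype)).relIndex (pCore p G) ∣
          Nat.card (pCore p G) := Subgroup.relIndex_dvd_card _ _
      obtain ⟨k, hk⟩ := IsPGroup.iff_card.mp hQp
      rw [hk] at h1
      obtain ⟨j, -, hj⟩ := (Nat.dvd_prime_pow hp).mp h1
      exact ⟨j, hj⟩
  · intro S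
    set S₀ := (S : Subgroup G) with hS₀
    set J₁ := thompsonSubgroupOf p S₀ with hJ₁
    have hQS : pCore p G ≤ S₀ := Cfsg.Agent.H01.pCore_le_sylow p S
    have hJS : J₁ ≤ S₀ := Subgroup.map_subtype_le _
    have hSN : S₀ ≤ Subgroup.normalizer (J₁ : Set G) := by
      intro s hs
      apply Cfsg.Agent.H13.mem_normalizer_of_map_conj_le
      rintro _ ⟨_, ⟨j, hj, rfl⟩, rfl⟩
      have h1 := Cfsg.Agent.H03.thompsonSubgroup_map (p := p) (MulAut.conj (⟨s, hs⟩ : ↥S₀))
      have h2 : (MulAut.conj (⟨s, hs⟩ : ↥S₀)) j ∈ Cfsg.thompsonSubgroup p ↥S₀ := by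
        rw [← h1]
        exact ⟨j, hj, rfl⟩
      exact ⟨_, h2, rfl⟩
    set N := Subgroup.normalizer (J₁ : Set G) with hN
    intro V hVn hV a ha
    have hV₁S : V.map N.subtype ≤ S₀ := by
      refine hV.trans (Subgroup.map_subtype_le _)
    have hV₁p : IsPGroup p (V.map N.subtype) := S.isPGroup'.to_le hV₁S
    by_cases hJ : J₁ ≤ pCore p G
    · have hNtop : N = ⊤ := by
        have h1 := normalizer_inf_le_thompson (p := p) S₀ (pCore p G) (fun A hA => by
          refine le_trans ?_ hJ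
          exact Subgroup.map_mono (le_sSup hA))
        rw [inf_eq_right.mpr hQS, Subgroup.normalizer_eq_top_iff.mpr hQn] at h1
        exact top_le_iff.mp h1
      have hNmem : ∀ g : G, g ∈ N := fun g => by rw [hNtop]; trivial
      have hV₁n : (V.map N.subtype).Normal := by
        refine ⟨?_⟩
        rintro _ ⟨v, hv, rfl⟩ g
        exact ⟨_, hVn.conj_mem v hv ⟨g, hNmem g⟩, rfl⟩
      obtain ⟨T, hTn, hCT, ⟨m', hm'⟩, hT⟩ := stable_all P hst hV₁p hV₁n
      have ha' : (a : G) ∈ T := by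
        apply hT
        have h2 := congrArg (Subgroup.map N.subtype) ha
        rw [Subgroup.map_commutator, Subgroup.map_commutator, MonoidHom.map_zpowers,
          Subgroup.map_bot] at h2
        exact h2
      refine mem_pCore_of_T (T.comap N.subtype) (hTn.comap _) (fun t ht => ⟨m', ?_⟩) ha'
      have ht' : (t : G) ∈ T := ht
      have h1 := Subgroup.pow_index_mem ((Subgroup.centralizer ((V.map N.subtype : Subgroup G) : Set G)).subgroupOf T) (⟨t, ht'⟩ : T)
      have h2 : ((Subgroup.centralizer ((V.map N.subtype : Subgroup G) : Set G)).subgroupOf T).index = p ^ m' := hm'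
      rw [h2, Subgroup.mem_subgroupOf] at h1
      rw [Subgroup.mem_centralizer_iff]
      intro v hv
      have h3 := Subgroup.mem_centralizer_iff.mp h1 (v : G) ⟨v, hv, rfl⟩
      apply Subtype.ext
      simpa using h3
    · have hQR : pCore p G < pCore p G ⊔ J₁ := by
        refine lt_of_le_of_ne le_sup_left ?_
        intro h
        exact hJ (le_sup_right.trans h.symm.le)
      have hNR : N ≤ NN (pCore p G ⊔ J₁) := by
        intro g hg
        apply Cfsg.Agent.H13.mem_normalizer_of_map_conj_le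
        rw [Subgroup.map_sup]
        refine sup_le_sup ?_ ?_
        · rintro _ ⟨x, hx, rfl⟩
          exact hQn.conj_mem x hx g
        · rintro _ ⟨x, hx, rfl⟩
          exact (Subgroup.mem_normalizer_iff.mp hg x).mp hx
      have hFC : FC p N := (hK S _ hQR (sup_le hQS hJS) (hSN.trans hNR)).mono hNR
      refine mem_pCore_of_T ⊤ inferInstance (fun t _ => ?_) (Subgroup.mem_top a)
      obtain ⟨t₁, b, e, hcomm, ⟨k, hk⟩, hb, ht₁, hb'⟩ := Cfsg.Agent.H19.exists_primary_decomp p t
      refine ⟨k, ?_⟩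
      have hbc : b ∈ Subgroup.centralizer (V : Set ↥N) := by
        have h1 : ((b : ↥N) : G) ∈ Subgroup.centralizer ((V.map N.subtype : Subgroup G) : Set G) := by
          apply hFC (V.map N.subtype) hV₁p (Subgroup.map_subtype_le _) _ b.2
          · exact Subgroup.le_normalizer_map N.subtype ⟨b, by
              rw [Subgroup.normalizer_eq_top_iff.mpr hVn]; trivial, rfl⟩
          · rw [Subgroup.orderOf_coe]
            exact hb
        rw [Subgroup.mem_centralizer_iff]
        intro v hv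
        have h3 := Subgroup.mem_centralizer_iff.mp h1 (v : G) ⟨v, hv, rfl⟩
        exact Subtype.ext h3
      rw [e, hcomm.mul_pow, ← hk, pow_orderOf_eq_one, one_mul]
      exact Subgroup.pow_mem _ hbc _

end

end Cfsg.Agent.H26.WC
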